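import Cfsg.Agent.H9.Am
import Cfsg.Agent.H9.MS1
import Cfsg.Agent.H2.Fus12
import Cfsg.Prelude.Def_LocalStructure

/-!
H9.Am3: the groups `V_λ^{(n)}` of an amalgam.
-/

set_option autoImplicit false
set_option linter.unusedSectionVars false

namespace H9.Am

open Cfsg Subgroup
open scoped commutatorElement

variable {X : Type*} [Group X] {p : ℕ} [hp : Fact p.Prime] {M₁ M₂ : Subgroup X} {a b c : CosetVertex M₁ M₂} {n : ℕ}

theorem Wk.smul (h : Wk n a b) (g : X) : Wk n (g • a) (g • b) := by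
  induction n generalizing a with
  | zero => exact h.zero ▸ wk0
  | succ n ih =>
    obtain ⟨c, h1, h2⟩ := h.front
    exact Wk.cons (h1.smul g) (ih h2)

theorem dist_le_iff (h : M₁ ⊔ M₂ = ⊤) : (cosetGraph M₁ M₂).dist a b ≤ n ↔ ∃ m ≤ n, Wk m a b :=
  ⟨fun e => let ⟨w, e'⟩ := ((conn h).preconnected a b).exists_walk_length_eq_dist; ⟨_, e, w, e'⟩,
    fun ⟨_, e, w, e'⟩ => (SimpleGraph.dist_le w).trans (e' ▸ e)⟩

theorem le_VI (h : M₁ ⊔ M₂ = ⊤) {m : ℕ} (e : m ≤ n) (w : Wk m a b) : ZZ p b ≤ vertexVIter p M₁ M₂ n a :=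
  le_iSup_of_le ⟨b, (dist_le_iff h).2 ⟨m, e, w⟩⟩ le_rfl

theorem VI_le (h : M₁ ⊔ M₂ = ⊤) {K : Subgroup X} (e : ∀ m ≤ n, ∀ b, Wk m a b → ZZ p b ≤ K) :
    vertexVIter p M₁ M₂ n a ≤ K := iSup_le fun b => let ⟨m, x, y⟩ := (dist_le_iff h).1 b.2; e m x b y

theorem cj_VI (h : M₁ ⊔ M₂ = ⊤) (g : X) : cj g (vertexVIter p M₁ M₂ n a) ≤ vertexVIter p M₁ M₂ n (g • a) :=
  cj_le_iff.2 (VI_le h fun m e b w => cj_le_iff.1 (ZZ_smul (p := p) g b ▸ le_VI h e (w.smul g)))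

theorem norm_VI (h : M₁ ⊔ M₂ = ⊤) : St a ≤ normalizer (vertexVIter p M₁ M₂ n a : Set X) :=
  le_normalizer_of_cj_le fun g hg => (cj_VI h g).trans (by rw [show g • a = a from hg])

theorem VI_ad (h : M₁ ⊔ M₂ = ⊤) (e : Ad a b) : vertexVIter p M₁ M₂ n b ≤ vertexVIter p M₁ M₂ (n + 1) a :=
  VI_le h fun _ x _ w => le_VI h (Nat.succ_le_succ x) (Wk.cons e w)

theorem tr_res (h : IsSpeAmalgamPair p M₁ M₂) (e : Ad a b) (e' : Ad a c) :
    ∃ g ∈ (pResidual p (pElementClosure p (St a))).map (pElementClosure p (St a)).subtype, g • b = c := by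
  obtain ⟨T, hS⟩ := exists_sy p (St a ⊓ St b)
  have h1 : ∀ T, Sy p T (St a ⊓ St b) → St a ⊓ normalizer (T : Set X) ≤ St b := by
    refine e.ind (P := fun A B => ∀ T, Sy p T (A ⊓ B) → A ⊓ normalizer (T : Set X) ≤ B) (fun T hT => ?_)
      (fun T hT => ?_) fun g A B hh T hT => ?_
    · obtain ⟨S, rfl⟩ := hT.out
      exact (h.2.1 S).2.trans inf_le_right
    · rw [inf_comm] at hT
      obtain ⟨S, rfl⟩ := hT.out
      exact (h.2.1 S).1.ge.trans inf_le_left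
    · have := hT.cj g⁻¹
      rw [← cj_inf, cj_inv_cj] at this
      rw [← cj_cj_inv g T, ← cj_normalizer, ← cj_inf]
      exact cj_mono g (hh _ this)
  obtain ⟨g, g1, rfl⟩ := tr e e'
  have := fin_St h.1 a
  have h2 := (ed_of h.1 e).sy T hS
  have h3 : pElementClosure p (St a) ≤ St a := (closure_le _).2 fun _ h => h.1
  have h4 := h2.cj g
  rw [cj_eq_of_mem g1] at h4
  have : Finite (pElementClosure p (St a)) := .of_injective _ (inclusion_injective h3)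
  have h6 := h2.mono (le_pe h2.1 h2.2.1) h3
  obtain ⟨x, x1, x2⟩ := h6.conj (h4.mono (le_pe h4.1 h4.2.1) h3)
  have h5 := h1 T hS (x := x⁻¹ * g) ⟨(St a).mul_mem ((St a).inv_mem (h3 x1)) g1,
    mem_normalizer_iff_cj.2 (by rw [cj_mul, ← x2, cj_inv_cj])⟩
  obtain ⟨P, hP⟩ := h6.out
  obtain ⟨r, hr, t, ht, z⟩ := (mem_sup_of_le_normalizer' (le_top.trans (normalizer_Ores le_normalizer))).1
    ((syl_top_of_sylow P).Ores_sup.ge (mem_top ⟨x, x1⟩))
  have z' : (r : X) * t = x := congrArg Subtype.val z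
  refine ⟨r, ⟨r, Ores_top (G := pElementClosure p (St a)) p ▸ hr, rfl⟩, ?_⟩
  rw [← smul_inv_smul x (g • b), ← mul_smul x⁻¹, show (x⁻¹ * g) • b = b from h5, ← z', mul_smul,
    show (t : X) • b = b from (hS.1 (hP.le ⟨t, ht, rfl⟩)).2]

theorem VI_not (h : IsSpeAmalgamPair p M₁ M₂) (e : Ad a b) {N : Subgroup X}
    (hQ : vertexVIter p M₁ M₂ (n + 1) a ≤ Op p (St a))
    (hN : vertexVIter p M₁ M₂ (n + 1) a ≤ vertexVIter p M₁ M₂ n b ⊔ N →
      vertexVIter p M₁ M₂ (n + 1) a ≤ vertexVIter p M₁ M₂ n b) : ¬ ⁅vertexVIter p M₁ M₂ (n + 1) a,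
      (pResidual p (pElementClosure p (St a))).map (pElementClosure p (St a)).subtype⁆ ≤ N := fun k => by
  have t := h.1.1.1
  have k1 : ∀ c, Ad a c → vertexVIter p M₁ M₂ n c ≤ vertexVIter p M₁ M₂ n b ⊔ N := fun c e' x hx => by
    obtain ⟨g, hg, rfl⟩ := tr_res h e' e
    have := mul_mem_sup (cj_VI t g (conj_mem_cj hx)) (N.inv_mem (k (commutator_mem_commutator
      (inv_mem (VI_ad t e' hx)) hg)))
    convert this using 1
    simp only [commutatorElement_def]; group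
  have := fin_St h.1 a
  have z : ∀ T, Sy p T (St a) → ∃ c, Ad a c ∧ OZ p T ≤ ZZ p c := fun T hT => by
    obtain ⟨U, hU⟩ := exists_sy p (St a ⊓ St b)
    obtain ⟨g, hg, rfl⟩ := ((ed_of h.1 e).sy U hU).conj hT
    refine ⟨g • b, e.smul' hg, ?_⟩
    rw [ZZ_smul, ← cj_OZ]
    exact cj_mono g ((ed_of h.1 e.symm).sy U (inf_comm (St a) _ ▸ hU)).oz_le
  have k2 := le_antisymm (hN (VI_le t fun m l c w => by
    rcases m with _ | m
    · rw [← w.zero]
      exact zz_le fun T hT => let ⟨c, x, y⟩ := z T hT; y.trans ((le_VI t n.zero_le wk0).trans (k1 c x))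
    · obtain ⟨d, x, y⟩ := w.front
      exact (le_VI t (Nat.le_of_succ_le_succ l) y).trans (k1 d x))) (VI_ad t e)
  have k3 := eq_bot' h.1.1 e (hQ.trans ((Op_le_NK h.1 a).trans (le_inf NK_le e.NK_le))) (norm_VI t) (k2 ▸ norm_VI t)
  obtain ⟨T, hT⟩ := exists_sy p (St a)
  haveI : Finite T := .of_injective _ (inclusion_injective hT.1)
  obtain ⟨P, rfl⟩ := hT.out
  refine oz_ne_bot hT.2.1 (fun c => ?_) (le_bot_iff.1 (hT.oz_le.trans ((le_VI t (n + 1).zero_le wk0).trans k3.le)))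
  exact P.ne_bot_of_dvd_card (ed_of h.1 e).dvd ((map_eq_bot_iff_of_injective _ (subtype_injective _)).1 c)

end H9.Am
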