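import Mathlib

/-!
H9.Des: odd-order automorphisms of doubly transitive groups (incidence matrix argument).
-/

set_option autoImplicit false

namespace H9.Des

open Matrix

section mat
variable {Ω : Type*} [Fintype Ω] [DecidableEq Ω]

/-- all-one matrix -/
def J (Ω : Type*) : Matrix Ω Ω ℤ := Matrix.of fun _ _ => 1

theorem J_tr : (J Ω)ᵀ = J Ω := by ext; rfl

theorem J_mul_J : J Ω * J Ω = (Fintype.card Ω : ℤ) • J Ω := by
  ext x y; simp [J, Matrix.mul_apply]

theorem form_apply (a b : ℤ) (x y : Ω) :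
    (a • (1 : Matrix Ω Ω ℤ) + b • J Ω) x y = (if x = y then a else 0) + b := by
  rw [Matrix.add_apply, Matrix.smul_apply, Matrix.smul_apply, Matrix.one_apply]
  by_cases h : x = y <;> simp [J, h]

theorem form_inj [Nontrivial Ω] {a b c d : ℤ}
    (h : a • (1 : Matrix Ω Ω ℤ) + b • J Ω = c • (1 : Matrix Ω Ω ℤ) + d • J Ω) : a = c ∧ b = d := by
  obtain ⟨x, y, hxy⟩ := exists_pair_ne Ω
  have h1 := congrFun (congrFun h x) y
  have h2 := congrFun (congrFun h x) x
  rw [form_apply, form_apply] at h1 h2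
  simp only [hxy, if_false, if_true] at h1 h2
  constructor <;> omega

theorem inv_form {G : Type*} [Group G] [MulAction G Ω] [Nontrivial Ω]
    (h2 : MulAction.IsMultiplyPretransitive G Ω 2) (M : Matrix Ω Ω ℤ)
    (hM : ∀ (g : G) x y, M (g • x) (g • y) = M x y) :
    ∃ a b : ℤ, M = a • (1 : Matrix Ω Ω ℤ) + b • J Ω := by
  obtain ⟨x0, y0, h0⟩ := exists_pair_ne Ω
  rw [MulAction.is_two_pretransitive_iff] at h2
  refine ⟨M x0 x0 - M x0 y0, M x0 y0, ?_⟩
  ext x y
  rw [form_apply]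
  by_cases hxy : x = y
  · subst hxy
    obtain ⟨z, hz⟩ := exists_ne x
    obtain ⟨g, hg, -⟩ := h2 h0 hz.symm
    rw [if_pos rfl, ← hg, hM]; ring
  · obtain ⟨g, hg, hg'⟩ := h2 h0 hxy
    rw [if_neg hxy, ← hg, ← hg', hM]; ring

theorem arith {n k N l a b : ℤ} {r : ℕ} (hn : 2 ≤ n) (hk1 : 1 ≤ k) (hkn : k ≤ n) (hco : IsCoprime k n)
    (hl : 0 ≤ l) (hNl : N + l = k) (hsq : k ^ 2 = N + l * n) (ha : a ^ 2 = N ^ (2 * r + 1))
    (hb : k ^ (2 * r + 1) = a + b * n) : k = 1 ∨ k = n - 1 := by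
  have hN : IsCoprime N n := by
    have : IsCoprime (k ^ 2) n := hco.pow_left
    rw [hsq] at this
    exact IsCoprime.of_add_mul_right_left this
  have hN0 : N ≠ 0 := by
    rintro rfl
    have := isCoprime_zero_left.mp hN
    rcases Int.isUnit_iff.mp this with h | h <;> omega
  have hdv : N ^ r ∣ a := by
    have : (N ^ r) ^ 2 ∣ a ^ 2 := ⟨N, by rw [ha]; ring⟩
    exact (Int.pow_dvd_pow_iff two_ne_zero).mp this
  obtain ⟨s, rfl⟩ := hdv
  have hs : s ^ 2 = N := by
    have h1 : (N ^ r) ^ 2 * s ^ 2 = (N ^ r) ^ 2 * N := by rw [← mul_pow, ha]; ring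
    exact mul_left_cancel₀ (pow_ne_zero _ (pow_ne_zero _ hN0)) h1
  have hd : n ∣ k - s := by
    have h1 : n ∣ (k ^ 2) ^ r - N ^ r :=
      (show n ∣ k ^ 2 - N from ⟨l, by rw [hsq]; ring⟩).trans (sub_dvd_pow_sub_pow _ _ _)
    have h3 : n ∣ N ^ r * (k - s) := by
      have : N ^ r * (k - s) = b * n - k * ((k ^ 2) ^ r - N ^ r) := by
        have : k * (k ^ 2) ^ r = k ^ (2 * r + 1) := by ring
        linear_combination this.symm + hb
      rw [this]
      exact dvd_sub (dvd_mul_left _ _) (h1.mul_left _)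
    exact (hN.symm.pow_right (n := r)).dvd_of_dvd_mul_left h3
  have hkn' : k ≠ n := by
    rintro rfl
    have := isCoprime_self.mp hco
    rcases Int.isUnit_iff.mp this with h | h <;> omega
  obtain ⟨c, hc⟩ := hd
  have hs1 : s ≤ k := by nlinarith [sq_nonneg (s - 1), sq_nonneg s]
  have hs2 : -s ≤ k := by nlinarith [sq_nonneg (s + 1), sq_nonneg s]
  have hc0 : 0 ≤ c := by
    by_contra hc0
    have : c ≤ -1 := by omega
    nlinarith
  have hc2 : c < 2 := by
    by_contra hc2
    have : 2 ≤ c := by omega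
    have h9 : n * 2 ≤ n * c := mul_le_mul_of_nonneg_left this (by omega)
    omega
  have : c = 0 ∨ c = 1 := by omega
  rcases this with rfl | rfl
  · left
    have : s = k := by linarith
    subst this
    have h7 : s * s ≤ s := by nlinarith
    have h8 : s ≤ 1 := by nlinarith
    omega
  · right
    have hs3 : s = k - n := by linarith
    have h4 : l * n = (k + s) * n := by
      have : l * n = (k - s) * (k + s) := by linear_combination hs - hsq
      rw [this, hc]; ring
    have h5 : l = k + s := mul_right_cancel₀ (by omega) h4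
    have h6 : s * (s + 1) = 0 := by linear_combination hs + hNl - h5
    rcases mul_eq_zero.mp h6 with h | h <;> omega

theorem main {G : Type*} [Group G] [MulAction G Ω] [Nontrivial Ω]
    (h2 : MulAction.IsMultiplyPretransitive G Ω 2) (α : MulAut G) (r : ℕ) (hα : α ^ (2 * r + 1) = 1)
    (T : Matrix Ω Ω ℤ) (hT : ∀ (g : G) x y, T (g • x) (α g • y) = T x y)
    (h01 : ∀ x y, T x y = 0 ∨ T x y = 1) (k : ℤ) (hrow : ∀ x, ∑ y, T x y = k) (hk1 : 1 ≤ k)
    (hco : IsCoprime k (Fintype.card Ω)) : k = 1 ∨ k = Fintype.card Ω - 1 := by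
  have h2' : ∀ {a b c d : Ω}, a ≠ b → c ≠ d → ∃ g : G, g • a = c ∧ g • b = d :=
    MulAction.is_two_pretransitive_iff.mp h2
  obtain ⟨x0, y0, h0⟩ := exists_pair_ne Ω
  have htr : ∀ x y : Ω, ∃ g : G, g • x = y := fun x y => by
    obtain ⟨x', hx⟩ := exists_ne x
    obtain ⟨y', hy⟩ := exists_ne y
    obtain ⟨g, hg, -⟩ := h2' hx.symm hy.symm
    exact ⟨g, hg⟩
  have hn : (2 : ℤ) ≤ Fintype.card Ω := by exact_mod_cast Fintype.one_lt_card
  have hTJ : T * J Ω = k • J Ω := by
    ext x y; simp [J, Matrix.mul_apply, hrow]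
  have hcol0 : ∀ y, ∑ x, T x y = ∑ x, T x x0 := fun y => by
    obtain ⟨g, hg⟩ := htr x0 y
    obtain ⟨g, rfl⟩ := α.surjective g
    rw [← hg, ← Equiv.sum_comp (MulAction.toPerm g)]
    exact Finset.sum_congr rfl fun x _ => hT g x x0
  have hcol : ∀ y, ∑ x, T x y = k := fun y => by
    have h1 : ∑ y, ∑ x, T x y = ∑ x, ∑ y, T x y := Finset.sum_comm
    simp only [hcol0, hrow, Finset.sum_const, Finset.card_univ, nsmul_eq_mul] at h1
    rw [hcol0]
    exact mul_left_cancel₀ (by omega) h1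
  have hJT : J Ω * Tᵀ = k • J Ω := by
    have := congrArg Matrix.transpose hTJ
    rwa [Matrix.transpose_mul, Matrix.transpose_smul, J_tr] at this
  have hTtJ : Tᵀ * J Ω = k • J Ω := by
    ext x y; simp [J, Matrix.mul_apply, hcol]
  obtain ⟨N, l, hNl⟩ := inv_form h2 (T * Tᵀ) fun g x y => by
    simp only [Matrix.mul_apply, Matrix.transpose_apply]
    rw [← Equiv.sum_comp (MulAction.toPerm (α g))]
    exact Finset.sum_congr rfl fun z _ => by
      show T (g • x) (α g • z) * T (g • y) (α g • z) = _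
      rw [hT, hT]
  have hpw : ∀ (j : ℕ) (g : G) x y, (T ^ j) (g • x) ((α ^ j) g • y) = (T ^ j) x y := by
    intro j
    induction j with
    | zero => intro g x y; simp [Matrix.one_apply]
    | succ j ih =>
      intro g x y
      rw [pow_succ T, pow_succ' α]
      simp only [Matrix.mul_apply]
      rw [← Equiv.sum_comp (MulAction.toPerm ((α ^ j) g))]
      exact Finset.sum_congr rfl fun z _ => by
        show (T ^ j) (g • x) ((α ^ j) g • z) * T ((α ^ j) g • z) (α ((α ^ j) g) • y) = _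
        rw [hT, ih]
  obtain ⟨a, b, hab⟩ := inv_form h2 (T ^ (2 * r + 1)) fun g x y => by
    have := hpw (2 * r + 1) g x y
    rwa [hα] at this
  have hpJ : ∀ j : ℕ, T ^ j * J Ω = k ^ j • J Ω := by
    intro j
    induction j with
    | zero => simp
    | succ j ih => rw [pow_succ, Matrix.mul_assoc, hTJ, Matrix.mul_smul, ih, smul_smul, pow_succ']
  have hpp : ∀ j : ℕ, ∃ c : ℤ, T ^ j * (T ^ j)ᵀ = N ^ j • (1 : Matrix Ω Ω ℤ) + c • J Ω := by
    intro j
    induction j with
    | zero => exact ⟨0, by simp⟩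
    | succ j ih =>
      obtain ⟨c, hc⟩ := ih
      refine ⟨N ^ j * l + c * k * k, ?_⟩
      rw [pow_succ', Matrix.transpose_mul, Matrix.mul_assoc, ← Matrix.mul_assoc (T ^ j), hc, Matrix.add_mul,
        Matrix.smul_mul, Matrix.smul_mul, Matrix.one_mul, hJT, Matrix.mul_add, Matrix.mul_smul, Matrix.mul_smul,
        Matrix.mul_smul, hTJ, hNl]
      module
  have scal : ∀ {u v : ℤ}, u • J Ω = v • J Ω → u = v := fun h => by
    have := congrFun (congrFun h x0) x0
    simpa [J] using this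
  have hsq : k ^ 2 = N + l * Fintype.card Ω := by
    apply scal
    have h1 : T * Tᵀ * J Ω = (k ^ 2) • J Ω := by
      rw [Matrix.mul_assoc, hTtJ, Matrix.mul_smul, hTJ, smul_smul, sq]
    rw [← h1, hNl, Matrix.add_mul, Matrix.smul_mul, Matrix.smul_mul, Matrix.one_mul, J_mul_J]
    module
  have hb : k ^ (2 * r + 1) = a + b * Fintype.card Ω := by
    apply scal
    rw [← hpJ, hab, Matrix.add_mul, Matrix.smul_mul, Matrix.smul_mul, Matrix.one_mul, J_mul_J]
    module
  have ha : a ^ 2 = N ^ (2 * r + 1) := by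
    obtain ⟨c, hc⟩ := hpp (2 * r + 1)
    refine (form_inj (Ω := Ω) (b := 2 * a * b + b * b * Fintype.card Ω) (d := c) ?_).1
    rw [← hc, hab, Matrix.transpose_add, Matrix.transpose_smul, Matrix.transpose_smul, Matrix.transpose_one, J_tr]
    simp only [Matrix.add_mul, Matrix.mul_add, Matrix.smul_mul, Matrix.mul_smul, Matrix.one_mul, Matrix.mul_one,
      J_mul_J]
    module
  have hl : 0 ≤ l := by
    have := congrFun (congrFun hNl x0) y0
    rw [form_apply, if_neg h0, zero_add, Matrix.mul_apply] at this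
    rw [← this]
    refine Finset.sum_nonneg fun z _ => mul_nonneg ?_ ?_
    · rcases h01 x0 z with h | h <;> simp [h]
    · rw [Matrix.transpose_apply]; rcases h01 y0 z with h | h <;> simp [h]
  have hNk : N + l = k := by
    have := congrFun (congrFun hNl x0) x0
    rw [form_apply, if_pos rfl, Matrix.mul_apply] at this
    rw [← this, ← hrow x0]
    refine Finset.sum_congr rfl fun z _ => ?_
    rw [Matrix.transpose_apply]; rcases h01 x0 z with h | h <;> simp [h]
  have hkn : k ≤ Fintype.card Ω := by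
    rw [← hrow x0]
    have : ∑ y, T x0 y ≤ ∑ _y : Ω, (1 : ℤ) :=
      Finset.sum_le_sum fun y _ => by rcases h01 x0 y with h | h <;> simp [h]
    simpa using this
  exact arith hn hk1 hkn hco hl hNk hsq ha hb

end mat

open MulAction

theorem induced {Ω : Type*} [Finite Ω] (G : Subgroup (Equiv.Perm Ω)) (htr : ∀ x y : Ω, ∃ g : G, g • x = y)
    (o w : Ω) (α : MulAut G) (hw : ∀ h : G, h • o = o → α h • w = w) :
    ∃ σ : Equiv.Perm Ω, σ ∈ Subgroup.normalizer (G : Set (Equiv.Perm Ω)) ∧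
      ∀ g : G, ((α g : G) : Equiv.Perm Ω) = σ * (g : Equiv.Perm Ω) * σ⁻¹ := by
  choose t ht using htr
  have wd : ∀ (g : G) (x : Ω), g • o = x → α (t o x) • w = α g • w := fun g x hx => by
    have h1 : (g⁻¹ * t o x) • o = o := by rw [mul_smul, ht, ← hx, inv_smul_smul]
    have := hw _ h1
    rw [map_mul, map_inv, mul_smul, inv_smul_eq_iff] at this
    exact this
  let f : Ω → Ω := fun x => α (t o x) • w
  have hf : ∀ (g : G) x, f (g • x) = α g • f x := fun g x => by
    show α (t o (g • x)) • w = α g • α (t o x) • w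
    rw [wd (g * t o x) (g • x) (by rw [mul_smul, ht]), map_mul, mul_smul]
  have hsurj : Function.Surjective f := fun y => by
    obtain ⟨g, hg⟩ := α.surjective (t (f o) y)
    exact ⟨g • o, by rw [hf, hg, ht]⟩
  let σ : Equiv.Perm Ω := Equiv.ofBijective f (Finite.surjective_iff_bijective.mp hsurj)
  have hσ : ∀ g : G, ((α g : G) : Equiv.Perm Ω) = σ * (g : Equiv.Perm Ω) * σ⁻¹ := fun g => by
    rw [eq_mul_inv_iff_mul_eq]
    ext x
    exact (hf g x).symm
  refine ⟨σ, Subgroup.mem_normalizer_iff.mpr fun h => ⟨fun hh => ?_, fun hh => ?_⟩, hσ⟩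
  · rw [← hσ ⟨h, hh⟩]; exact (α ⟨h, hh⟩).2
  · obtain ⟨g, hg⟩ := α.surjective ⟨_, hh⟩
    have h1 := hσ g
    rw [hg] at h1
    have : h = (g : Equiv.Perm Ω) := mul_left_cancel (mul_right_cancel h1)
    rw [this]; exact g.2

theorem full {Ω : Type*} [Fintype Ω] (G : Subgroup (Equiv.Perm Ω)) (h2 : IsMultiplyPretransitive G Ω 2) (o : Ω)
    (α : MulAut G) (hα : Odd (orderOf α)) (ω : Ω)
    (hk : (Nat.card (orbit ((stabilizer G o).map α.toMonoidHom) ω)).Coprime (Fintype.card Ω)) :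
    (∃ σ : Equiv.Perm Ω, σ ∈ Subgroup.normalizer (G : Set (Equiv.Perm Ω)) ∧
      ∀ g : G, ((α g : G) : Equiv.Perm Ω) = σ * (g : Equiv.Perm Ω) * σ⁻¹) ∧
    (Nat.card (orbit ((stabilizer G o).map α.toMonoidHom) ω) = 1 ∨
      Nat.card (orbit ((stabilizer G o).map α.toMonoidHom) ω) = Fintype.card Ω - 1) := by
  classical
  set O := orbit ((stabilizer G o).map α.toMonoidHom) ω with hO
  have hωO : ω ∈ O := mem_orbit_self ω
  have hmem : ∀ y, y ∈ O ↔ ∃ h : G, h • o = o ∧ α h • ω = y := fun y => by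
    constructor
    · rintro ⟨⟨_, h, hh, rfl⟩, rfl⟩
      exact ⟨h, hh, rfl⟩
    · rintro ⟨h, hh, rfl⟩
      exact ⟨⟨α h, h, hh, rfl⟩, rfl⟩
  have hstab : ∀ h : G, h • o = o → ∀ y ∈ O, α h • y ∈ O := fun h hh y hy => by
    obtain ⟨h', hh', rfl⟩ := (hmem y).mp hy
    exact (hmem _).mpr ⟨h * h', by rw [mul_smul, hh', hh], by rw [map_mul, mul_smul]⟩
  rcases subsingleton_or_nontrivial Ω with hs | hs
  · refine ⟨induced G (fun x y => ⟨1, Subsingleton.elim _ _⟩) o o α fun h _ => Subsingleton.elim _ _, Or.inl ?_⟩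
    haveI : Nonempty O := ⟨⟨ω, hωO⟩⟩
    exact Nat.card_unique
  have h2' : ∀ {a b c d : Ω}, a ≠ b → c ≠ d → ∃ g : G, g • a = c ∧ g • b = d :=
    is_two_pretransitive_iff.mp h2
  have htr : ∀ x y : Ω, ∃ g : G, g • x = y := fun x y => by
    obtain ⟨x', hx⟩ := exists_ne x
    obtain ⟨y', hy⟩ := exists_ne y
    obtain ⟨g, hg, -⟩ := h2' hx.symm hy.symm
    exact ⟨g, hg⟩
  obtain ⟨r, hr⟩ := hα
  have hα1 : α ^ (2 * r + 1) = 1 := by rw [← hr]; exact pow_orderOf_eq_one α
  let T : Matrix Ω Ω ℤ := Matrix.of fun x y => if ∃ g : G, g • o = x ∧ α g • ω = y then 1 else 0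
  have hT : ∀ (g : G) x y, T (g • x) (α g • y) = T x y := fun g x y => by
    show (if _ then _ else _) = (if _ then _ else _)
    refine if_congr ⟨?_, ?_⟩ rfl rfl
    · rintro ⟨g', h1, h3⟩
      exact ⟨g⁻¹ * g', by rw [mul_smul, h1, inv_smul_smul], by rw [map_mul, map_inv, mul_smul, h3, inv_smul_smul]⟩
    · rintro ⟨g', h1, h3⟩
      exact ⟨g * g', by rw [mul_smul, h1], by rw [map_mul, mul_smul, h3]⟩
  have hcard : Nat.card O = (Finset.univ.filter fun y => y ∈ O).card := by
    rw [Nat.card_eq_fintype_card, Fintype.card_subtype]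
  have hrow0 : ∑ y, T o y = (Nat.card O : ℤ) := by
    rw [hcard, Finset.card_filter]
    push_cast
    exact Finset.sum_congr rfl fun y _ => if_congr (hmem y).symm rfl rfl
  have hrow : ∀ x, ∑ y, T x y = (Nat.card O : ℤ) := fun x => by
    obtain ⟨g, rfl⟩ := htr o x
    rw [← hrow0, ← Equiv.sum_comp (toPerm (α g))]
    exact Finset.sum_congr rfl fun y _ => hT g o y
  haveI : Nonempty O := ⟨⟨ω, hωO⟩⟩
  have hpos : 0 < Nat.card O := Nat.card_pos
  have key := main h2 α r hα1 T hT (fun x y => by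
    show (if _ then _ else _) = _ ∨ (if _ then _ else _) = _
    split_ifs <;> simp) _ hrow (by exact_mod_cast hpos) (Nat.isCoprime_iff_coprime.mpr hk)
  have hn : 1 < Fintype.card Ω := Fintype.one_lt_card
  rcases key with h | h
  · have h1 : Nat.card O = 1 := by exact_mod_cast h
    refine ⟨induced G htr o ω α fun g hg => ?_, Or.inl h1⟩
    have := (Nat.card_eq_one_iff_unique.mp h1).1
    exact congrArg Subtype.val (this.elim ⟨_, hstab g hg ω hωO⟩ ⟨ω, hωO⟩)
  · have h1 : Nat.card O = Fintype.card Ω - 1 := by omega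
    have h3 : (Finset.univ.filter fun y => ¬ y ∈ O).card = 1 := by
      have := Finset.card_filter_add_card_filter_not (s := (Finset.univ : Finset Ω)) (fun y => y ∈ O)
      rw [Finset.card_univ] at this
      omega
    obtain ⟨w, hw⟩ := Finset.card_eq_one.mp h3
    have hw' : ∀ y, y ∉ O ↔ y = w := fun y => by
      rw [← Finset.mem_singleton, ← hw]; simp
    refine ⟨induced G htr o w α fun g hg => ?_, Or.inr h1⟩
    refine (hw' _).mp fun hc => (hw' w).mpr rfl ?_
    have := hstab g⁻¹ (by rw [inv_smul_eq_iff, hg]) _ hc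
    rwa [map_inv, inv_smul_smul] at this

end H9.Des
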