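import Cfsg.Agent.H9.Zs7

/-!
H9.Hup: groups of class two with commutator subgroup of prime order acting on vector spaces.
-/

set_option autoImplicit false

namespace H9.Zs

open Cfsg Subgroup
open scoped commutatorElement

universe u
variable {G : Type u} [Group G] [Finite G]

theorem exists_step {r : ℕ} [hr : Fact r.Prime] {B : Subgroup G} (hB : IsPGroup r B) (h0 : B ≠ ⊥) :
    ∃ A < B, ∃ b ∈ B, b ∉ A ∧ A ⊔ zpowers b = B ∧ Nat.card B = Nat.card A * r := by
  obtain ⟨k, hk⟩ := hB.exists_card_eq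
  obtain _ | k := k
  · exact (h0 (card_eq_one.1 hk)).elim
  obtain ⟨A, h1, h2⟩ := L.exists_le_card hB k (hk ▸ Nat.pow_le_pow_right hr.out.pos k.le_succ)
  have h3 : A < B := h1.lt_of_ne fun e => by
    rw [e, hk] at h2; exact (Nat.pow_right_injective hr.out.two_le h2).not_gt k.lt_succ_self
  obtain ⟨b, h4, h5⟩ := SetLike.exists_of_lt h3
  have h6 : A ⊔ zpowers b ≤ B := sup_le h1 (zpowers_le.2 h4)
  refine ⟨A, h3, b, h4, h5, eq_of_le_of_card_ge h6 ?_, by rw [hk, h2, pow_succ]⟩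
  obtain ⟨j, hj⟩ := (hB.to_le h6).exists_card_eq
  have := card_lt_of_lt (left_lt_sup.2 (mt zpowers_le.1 h5))
  rw [hj, h2, Nat.pow_lt_pow_iff_right hr.out.one_lt] at this
  rw [hj, hk]
  exact Nat.pow_le_pow_right hr.out.pos this

/-- an `r`-group whose commutator subgroup lies in a central subgroup of order `r`. -/
structure Ex (N : Subgroup G) (z : G) (r : ℕ) : Prop where
  pg : IsPGroup r N
  oz : orderOf z = r
  mem : z ∈ N
  cen : z ∈ centralizer (N : Set G)
  cm : ∀ x ∈ N, ∀ y ∈ N, ⁅x, y⁆ ∈ zpowers z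

namespace Ex
variable {N : Subgroup G} {z : G} {r : ℕ} [hr : Fact r.Prime] (h : Ex N z r) {x y : G}
include h

omit [Finite G] hr in
theorem cen' (hx : x ∈ N) (hy : y ∈ zpowers z) : Commute x y := zpowers_le.2 h.cen hy x hx

/-- the commutator with a fixed element. -/
def hom (hy : y ∈ N) : N →* G := MonoidHom.mk' (fun x => ⁅(x : G), y⁆) fun a b => by
  rw [coe_mul, L.commutatorElement_mul_left', (h.cen' a.2 (h.cm _ b.2 _ hy)).eq, mul_inv_cancel_right,
    (h.cen' (commutator_le_self N (commutator_mem_commutator a.2 hy)) (h.cm _ b.2 _ hy)).eq]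

theorem gen {w : G} (hw : w ∈ zpowers z) (h1 : w ≠ 1) : zpowers w = zpowers z := by
  refine eq_of_le_of_card_ge (zpowers_le.2 hw) ?_
  rw [Nat.card_zpowers, Nat.card_zpowers, h.oz,
    ((Nat.dvd_prime hr.out).1 (h.oz ▸ orderOf_dvd_of_mem_zpowers hw)).resolve_left (mt orderOf_eq_one_iff.1 h1)]

theorem reduce {b : G} (hb : b ∈ N) (hx : x ∈ N) (hy : y ∈ N) (h1 : ¬ Commute b y) :
    ∃ k : ℤ, Commute (x * (b ^ k)⁻¹) y := by
  obtain ⟨k, hk⟩ := (h.gen (h.cm b hb y hy) (mt commutatorElement_eq_one_iff_commute.1 h1)).ge (h.cm x hx y hy)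
  refine ⟨k, commutatorElement_eq_one_iff_commute.1 ?_⟩
  change h.hom hy (⟨x, hx⟩ * (⟨b, hb⟩ ^ k)⁻¹) = 1
  rw [map_mul, map_inv, map_zpow, mul_inv_eq_one]
  exact hk.symm

theorem dual {B : Subgroup G} (hB : B ≤ N) (hx : x ∈ N) (e : ∀ y ∈ N, y ∈ centralizer (B : Set G) → Commute x y) :
    x ∈ B ⊔ N ⊓ centralizer (N : Set G) := by
  induction B using WellFoundedLT.induction generalizing x with
  | ind B ih =>
  by_cases h0 : B = ⊥
  · exact mem_sup_right ⟨hx, fun y hy => (e y hy (by simp [h0, mem_centralizer_iff])).symm⟩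
  obtain ⟨A, a1, b, a2, -, a3, -⟩ := exists_step (h.pg.to_le hB) h0
  have l := a1.le.trans hB
  have c : ∀ y ∈ centralizer (A : Set G), Commute b y → y ∈ centralizer (B : Set G) := fun y h1 h2 =>
    zpowers_le.1 (le_centralizer_iff.1 (a3 ▸ sup_le (le_centralizer_iff.1 (zpowers_le.2 h1))
      (zpowers_le.2 (by rintro _ ⟨k, rfl⟩; exact (h2.zpow_right k).symm))))
  by_cases h1 : ∀ y ∈ N, y ∈ centralizer (A : Set G) → Commute b y
  · exact sup_le_sup_right a1.le _ (ih A a1 l hx fun y h2 h3 => e y h2 (c y h3 (h1 y h2 h3)))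
  push Not at h1
  obtain ⟨y, y1, y2, y3⟩ := h1
  obtain ⟨k, hk⟩ := h.reduce (hB a2) hx y1 y3
  have := ih A a1 l (mul_mem hx (inv_mem (zpow_mem (hB a2) k))) fun w w1 w2 => by
    obtain ⟨j, hj⟩ := h.reduce y1 w1 (hB a2) fun e => y3 e.symm
    have := (e _ (mul_mem w1 (inv_mem (zpow_mem y1 j))) (c _ (mul_mem w2 (inv_mem (zpow_mem y2 j))) hj.symm)).mul_left
      (hj.symm.zpow_left k).inv_left
    simpa using this.mul_right (hk.zpow_right j)
  exact (mul_mem_cancel_right (inv_mem (mem_sup_left (zpow_mem a2 k)))).1 (sup_le_sup_right a1.le _ this)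

omit [Finite G] hr in
theorem pow_mem_Z (hx : x ∈ N) : x ^ r ∈ N ⊓ centralizer (N : Set G) := ⟨pow_mem hx _, fun y hy => by
  refine (commutatorElement_eq_one_iff_commute.1 ?_).symm
  change h.hom hy (⟨x, hx⟩ ^ r) = 1
  rw [map_pow, ← orderOf_dvd_iff_pow_eq_one]
  exact (orderOf_dvd_of_mem_zpowers (h.cm x hx y hy)).trans h.oz.dvd⟩

theorem index_le {B : Subgroup G} (hB : B ≤ N) : (centralizer (B : Set G)).relIndex N ≤ Nat.card B := by
  induction B using WellFoundedLT.induction with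
  | ind B ih =>
  by_cases h0 : B = ⊥
  · rw [h0, relIndex_eq_one.2 (le_centralizer_iff.1 bot_le), card_bot]
  obtain ⟨A, a1, b, a2, -, a3, a4⟩ := exists_step (h.pg.to_le hB) h0
  have e : (centralizer (zpowers b : Set G)).relIndex N ≤ r := by
    have : (centralizer (zpowers b : Set G)).subgroupOf N = (h.hom (hB a2)).ker := by
      ext y
      rw [mem_subgroupOf, ← zpowers_le, le_centralizer_iff, zpowers_le, MonoidHom.mem_ker]
      exact ⟨fun e => commutatorElement_eq_one_iff_commute.2 (e _ (mem_zpowers _)), fun e => by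
        rintro _ ⟨k, rfl⟩; exact (commutatorElement_eq_one_iff_commute.1 e).zpow_left k⟩
    rw [relIndex, this, index_ker]
    exact (card_le_of_le (by rintro _ ⟨y, rfl⟩; exact h.cm _ y.2 _ (hB a2))).trans
      ((Nat.card_zpowers z).trans h.oz).le
  rw [a4, ← a3, centralizer_sup]
  exact relIndex_inf_le.trans (Nat.mul_le_mul (ih A a1 (a1.le.trans hB)) e)

theorem card_sol (hZ : IsCyclic (N ⊓ centralizer (N : Set G) : Subgroup G)) :
    {x ∈ (N : Set G) | x ^ r = 1}.ncard ≤ r * (N ⊓ centralizer (N : Set G)).relIndex N := by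
  classical
  set Z := N ⊓ centralizer (N : Set G)
  have := Fintype.ofFinite N
  have := Fintype.ofFinite Z
  have := Fintype.ofFinite (N ⧸ Z.subgroupOf N)
  rw [show {x ∈ (N : Set G) | x ^ r = 1} = Subtype.val '' ((Finset.univ.filter fun x : N => x ^ r = 1 : Finset N) : Set N) by
    ext; simp [Subtype.ext_iff, and_comm], Set.ncard_image_of_injective _ Subtype.val_injective, Set.ncard_coe_finset, relIndex,
    index, Nat.card_eq_fintype_card]
  refine Finset.card_le_mul_card_image_of_maps_to (f := fun x : N => (x : N ⧸ Z.subgroupOf N))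
    (fun _ _ => Finset.mem_univ _) r fun c _ => ?_
  rcases Finset.eq_empty_or_nonempty ((Finset.univ.filter fun x : N => x ^ r = 1).filter
    fun x : N => (x : N ⧸ Z.subgroupOf N) = c) with e | ⟨a, ha⟩
  · simp [e]
  simp only [Finset.mem_filter, Finset.mem_univ, true_and] at ha
  refine le_trans (Finset.card_le_card_of_injOn (fun x => if e : (a⁻¹ * x : N).1 ∈ Z then (⟨_, e⟩ : Z) else 1)
    (fun x hx => ?_) fun x hx y hy e => ?_) (IsCyclic.card_pow_eq_one_le (α := Z) hr.out.pos)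
  · simp only [Finset.coe_filter, Finset.mem_filter, Finset.mem_univ, true_and, Set.mem_setOf_eq] at hx ⊢
    have e : (a⁻¹ * x : N).1 ∈ Z := mem_subgroupOf.1 (QuotientGroup.eq.1 (ha.2.trans hx.2.symm))
    rw [dif_pos e, Subtype.ext_iff]
    have c : Commute (a : G) (a⁻¹ * x : N) := e.2 a a.2
    have := c.mul_pow r
    rw [← coe_mul, mul_inv_cancel_left, ← coe_pow, ← coe_pow, hx.1, ha.1] at this
    simpa using this.symm
  · simp only [Finset.coe_filter, Finset.mem_filter, Finset.mem_univ, true_and, Set.mem_setOf_eq] at hx hy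
    have e1 : (a⁻¹ * x : N).1 ∈ Z := mem_subgroupOf.1 (QuotientGroup.eq.1 (ha.2.trans hx.2.symm))
    have e2 : (a⁻¹ * y : N).1 ∈ Z := mem_subgroupOf.1 (QuotientGroup.eq.1 (ha.2.trans hy.2.symm))
    simp only [dif_pos e1, dif_pos e2] at e
    simpa using e

end Ex

variable {p : ℕ} [hp : Fact p.Prime] {V : Type*} [AddCommGroup V] [Module (ZMod p) V] [Finite V]

/-- the fixed space of a subgroup. -/
def Fx (ρ : G →* (V ≃ₗ[ZMod p] V)) (B : Subgroup G) : Submodule (ZMod p) V where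
  carrier := {v | ∀ b ∈ B, ρ b v = v}
  add_mem' h1 h2 b hb := by rw [map_add, h1 b hb, h2 b hb]
  zero_mem' _ _ := map_zero _
  smul_mem' c v h b hb := by rw [map_smul, h b hb]

/-- the stabilizer of a vector. -/
def St (ρ : G →* (V ≃ₗ[ZMod p] V)) (v : V) : Subgroup G where
  carrier := {g | ρ g v = v}
  mul_mem' h1 h2 := by rw [Set.mem_setOf_eq, rho_mul, h2, h1]
  one_mem' := by simp
  inv_mem' {g} h := by rw [Set.mem_setOf_eq, map_inv, LinearEquiv.coe_inv, LinearEquiv.symm_apply_eq]; exact h.symm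

variable {ρ : G →* (V ≃ₗ[ZMod p] V)}

omit [Finite G] [Finite V] in
theorem norm_zero {g : G} (h : ∀ v, ρ g v = v → v = 0) {r : ℕ} (hg : g ^ r = 1) (v : V) :
    ∑ k ∈ Finset.range r, ρ (g ^ k) v = 0 := h _ (by
  have := Finset.sum_range_succ' (fun k => ρ (g ^ k) v) r
  rw [Finset.sum_range_succ, hg, pow_zero, add_left_inj] at this
  rw [map_sum, this]
  simp only [← rho_mul, pow_succ'])

omit [Finite G] in
theorem card_fix {r : ℕ} [hr : Fact r.Prime] (hpr : (r : ZMod p) ≠ 0) {x y z : G} (hx : x ^ r = 1) (hz : z ^ r = 1)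
    (hf : ∀ g ∈ zpowers z, g ≠ 1 → ∀ v, ρ g v = v → v = 0) (z1 : z ≠ 1) (h1 : Commute x z) (h2 : Commute y z)
    (h3 : y * x * y⁻¹ = z * x) {W : Submodule (ZMod p) V} {D : Subgroup G} (hW : Inv ρ D W) (m1 : x ∈ D) (m2 : y ∈ D)
    (m3 : z ∈ D) : Nat.card W = Nat.card (W ⊓ Fx ρ (zpowers x) : Submodule (ZMod p) V) ^ r := by
  have oz : orderOf z = r := orderOf_eq_prime hz z1
  have a : ∀ i : ℕ, y ^ i * x = z ^ i * x * y ^ i := fun i => by
    induction i with
    | zero => simp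
    | succ i ih => rw [pow_succ', mul_assoc, ih, ← mul_assoc, ← mul_assoc, (h2.pow_right i).eq, mul_assoc _ y,
        mul_inv_eq_iff_eq_mul.1 h3, pow_succ]; group
  have fx : ∀ {v}, v ∈ Fx ρ (zpowers x) ↔ ρ x v = v := fun {v} =>
    ⟨fun e => e x (mem_zpowers x), fun e => zpowers_le (H := St ρ v).2 e⟩
  let Φ : (Fin r → (W ⊓ Fx ρ (zpowers x) : Submodule (ZMod p) V)) →+ W := AddMonoidHom.mk'
    (fun w => ⟨∑ i : Fin r, ρ (y ^ i.1) (w i), W.sum_mem fun i _ => hW _ (pow_mem m2 _) _ (w i).2.1⟩)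
    fun v w => Subtype.ext (by simp [Finset.sum_add_distrib])
  rw [← Nat.card_congr (Equiv.ofBijective Φ ⟨(injective_iff_map_eq_zero Φ).2 fun w e => funext fun j => ?_,
    fun v => ?_⟩), Nat.card_fun, Nat.card_fin]
  · have b : ∀ (i : Fin r) (k : ℕ), ρ ((z ^ j.1 * x) ^ k) (ρ (y ^ i.1) (w i)) =
        ρ ((z ^ j.1 * (z ^ i.1)⁻¹) ^ k) (ρ (y ^ i.1) (w i)) := fun i k => by
      have c : ρ (y ^ i.1) (w i) ∈ Fx ρ (zpowers (z ^ i.1 * x)) := zpowers_le (H := St ρ _).2 (by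
        change ρ _ (ρ _ _) = _
        rw [← rho_mul, ← a, rho_mul, fx.1 (w i).2.2])
      rw [show z ^ j.1 * x = z ^ j.1 * (z ^ i.1)⁻¹ * (z ^ i.1 * x) by group, Commute.mul_pow (.mul_left
        (((Commute.refl z).pow_pow _ _).mul_right (h1.symm.pow_left _))
        (((Commute.refl z).pow_pow _ _).mul_right (h1.symm.pow_left _)).inv_left), rho_mul, c _ (pow_mem (mem_zpowers _) _)]
    have c : ∑ k ∈ Finset.range r, ρ ((z ^ j.1 * x) ^ k) (∑ i : Fin r, ρ (y ^ i.1) (w i)) = 0 := by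
      rw [show ∑ i : Fin r, ρ (y ^ i.1) (w i) = 0 from congrArg Subtype.val e]; simp
    simp only [map_sum, b] at c
    rw [Finset.sum_comm, Finset.sum_eq_single j (fun i _ hi => norm_zero (hf _ (mul_mem (pow_mem (mem_zpowers _) _)
      (inv_mem (pow_mem (mem_zpowers _) _))) fun e => hi (Fin.ext (pow_injOn_Iio_orderOf (oz ▸ j.2) (oz ▸ i.2)
        (mul_inv_eq_one.1 e)).symm)) (by
      rw [((Commute.refl z).pow_pow _ _).inv_right.mul_pow, inv_pow, ← pow_mul, ← pow_mul, mul_comm, mul_comm i.1,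
        pow_mul, pow_mul, hz]; simp) _) (by simp)] at c
    simpa [← Nat.cast_smul_eq_nsmul (ZMod p), hpr] using c
  · have c : ∀ i : ℕ, (z ^ i * x) ^ r = 1 := fun i => by
      rw [(h1.symm.pow_left i).mul_pow, ← pow_mul, mul_comm i, pow_mul, hz, hx]; simp
    refine ⟨fun i => ⟨ρ (y ^ i.1)⁻¹ ((r : ZMod p)⁻¹ • ∑ k ∈ Finset.range r, ρ ((z ^ i.1 * x) ^ k) v),
      hW _ (inv_mem (pow_mem m2 _)) _ (W.smul_mem _ (W.sum_mem fun k _ =>
        hW _ (pow_mem (mul_mem (pow_mem m3 _) m1) _) _ v.2)), fx.2 ?_⟩, Subtype.ext ?_⟩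
    · rw [← rho_mul, show x * (y ^ i.1)⁻¹ = (y ^ i.1)⁻¹ * (z ^ i.1 * x) by
        rw [← mul_inv_eq_iff_eq_mul.2 (a i)]; group, rho_mul, map_smul]
      have := Finset.sum_range_succ' (fun k => ρ ((z ^ i.1 * x) ^ k) v) r
      rw [Finset.sum_range_succ, c, pow_zero, add_left_inj] at this
      conv_rhs => rw [this]
      simp only [map_sum, ← rho_mul, pow_succ']
    · change ∑ i : Fin r, ρ (y ^ i.1) (ρ (y ^ i.1)⁻¹ _) = _
      simp only [← rho_mul, mul_inv_cancel, map_one, LinearEquiv.coe_one, id]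
      rw [← Finset.smul_sum, Finset.sum_comm, Finset.sum_eq_single 0 (fun k hk k0 => ?_) (by simp [hr.out.pos.ne'])]
      · simp [← Nat.cast_smul_eq_nsmul (ZMod p), smul_smul, hpr]
      simp only [fun i => (h1.symm.pow_left i).mul_pow, pow_right_comm z _ k, rho_mul]
      rw [Fin.sum_univ_eq_sum_range (fun i => ρ ((z ^ k) ^ i) (ρ (x ^ k) v))]
      exact norm_zero (hf _ (pow_mem (mem_zpowers _) _) (pow_ne_one_of_lt_orderOf k0 (oz ▸ Finset.mem_range.1 hk)))
        (by rw [← pow_mul, mul_comm, pow_mul, hz, one_pow]) _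

theorem Ex.card_Fx {N : Subgroup G} {z : G} {r : ℕ} [hr : Fact r.Prime] (h : Ex N z r) (hpr : (r : ZMod p) ≠ 0)
    (hf : ∀ g ∈ zpowers z, g ≠ 1 → ∀ v, ρ g v = v → v = 0) {B : Subgroup G} (hB : B ≤ N)
    (hZ : B ⊓ (N ⊓ centralizer (N : Set G)) = ⊥) : Nat.card V = Nat.card (Fx ρ B) ^ Nat.card B := by
  induction B using WellFoundedLT.induction with
  | ind B ih =>
  by_cases h0 : B = ⊥
  · rw [h0, card_bot, pow_one, show Fx ρ ⊥ = ⊤ from top_unique fun v _ b hb => by simp [mem_bot.1 hb], Nat.card_congr Submodule.topEquiv.toEquiv]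
  obtain ⟨A, a1, b, a2, a5, a3, a4⟩ := exists_step (h.pg.to_le hB) h0
  have l := a1.le.trans hB
  obtain ⟨y, y1, y2, y3⟩ : ∃ y ∈ N, y ∈ centralizer (A : Set G) ∧ ¬ Commute b y := by
    by_contra! e
    obtain ⟨c, c1, d, d1, rfl⟩ := (H2.mem_sup_of_le_normalizer (l.trans (normalizer_inf le_normalizer
      (normalizer_centralizer le_normalizer)))).1 (h.dual l (hB a2) e)
    rw [mem_bot.1 (hZ.le ⟨(mul_mem_cancel_left (a1.le c1)).1 a2, d1⟩), mul_one] at a5
    exact a5 c1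
  have c := h.cm y y1 b (hB a2)
  have c1 : ⁅y, b⁆ ≠ 1 := fun e => y3 (commutatorElement_eq_one_iff_commute.1 e).symm
  have cb : ∀ a ∈ A, a * b = b * a := fun a ha => commutatorElement_eq_one_iff_mul_comm.1 (mem_bot.1 (hZ.le
    ⟨commutator_le_self B (commutator_mem_commutator (a1.le ha) a2),
      zpowers_le.2 (mem_inf.2 ⟨h.mem, h.cen⟩) (h.cm a (l ha) b (hB a2))⟩))
  have := card_fix (ρ := ρ) hpr (x := b) (y := y) (z := ⁅y, b⁆) (mem_bot.1 (hZ.le ⟨pow_mem a2 _, h.pow_mem_Z (hB a2)⟩))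
    (orderOf_dvd_iff_pow_eq_one.1 (h.oz ▸ orderOf_dvd_of_mem_zpowers c)) (h.gen c c1 ▸ hf) c1 (h.cen' (hB a2) c)
    (h.cen' y1 c) (by rw [commutatorElement_def]; group) (W := Fx ρ A) (D := centralizer (A : Set G))
    (fun g hg v hv a ha => by rw [← rho_mul, hg a ha, rho_mul, hv a ha]) cb y2 fun a ha => h.cen' (l ha) c
  rw [ih A a1 l (eq_bot_iff.2 ((inf_le_inf_right _ a1.le).trans hZ.le)), this, a4, ← pow_mul, mul_comm, ← a3]
  congr 3
  exact le_antisymm (fun v hv => (sup_le hv.1 hv.2 : _ ≤ St ρ v)) (le_inf (fun v hv a ha => hv a (mem_sup_left ha))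
    fun v hv a ha => hv a (mem_sup_right ha))

end H9.Zs
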