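import Cfsg.Agent.H9.Hup

/-!
H9.Hup2: Huppert's theorem on solvable linear groups transitive on non-zero vectors.
-/

set_option autoImplicit false

namespace H9.Zs

open Cfsg Subgroup
open scoped commutatorElement

universe u v
variable {G : Type u} [Group G] [Finite G] {p : ℕ} [hp : Fact p.Prime] {V : Type v} [AddCommGroup V]
  [Module (ZMod p) V] [Finite V] {ρ : G →* (V ≃ₗ[ZMod p] V)}

theorem fc_of_free [Nontrivial V] (h : ∀ v ≠ 0, ∀ g, ρ g v = v → g = 1) : FC G :=
  fc_of_action (K := Multiplicative V) ⟨⟨fun g => AddEquiv.toMultiplicative (ρ g).toAddEquiv,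
    by rw [map_one]; rfl⟩, fun a b => by simp only [map_mul]; rfl⟩ fun a ha k e => by_contra fun hk => ha (h _ hk a e)

theorem dvd_card {A : Subgroup G} {W : Submodule (ZMod p) V} (hW : Inv ρ A W) {c : ℕ}
    (h : ∀ v ∈ W, v ≠ 0 → (St ρ v).relIndex A = c) : c ∣ Nat.card W - 1 := by
  classical
  letI : MulAction G V := MulAction.compHom V ρ
  let T : SubMulAction A V := ⟨(W : Set V) \ {0}, fun k x hx => ⟨hW k k.2 x hx.1,
    fun e => hx.2 ((ρ k).map_eq_zero_iff.1 e)⟩⟩
  haveI := Fintype.ofFinite (MulAction.orbitRel.Quotient A T)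
  rw [show Nat.card W - 1 = Nat.card T from (Set.ncard_sdiff_singleton_of_mem W.zero_mem).symm,
    Nat.card_congr (MulAction.selfEquivSigmaOrbits A T), Nat.card_sigma]
  refine Finset.dvd_sum fun ω _ => ?_
  rw [Nat.card_congr (MulAction.orbitEquivQuotientStabilizer A ω.out), ← index, ← h _ ω.out.2.1 ω.out.2.2, relIndex]
  exact dvd_of_eq (congrArg _ (Subgroup.ext fun k => (Subtype.ext_iff (a1 := k • ω.out)).symm))

theorem split' {Q : Subgroup G} {z : G} (q : H1.Q8 Q z) (n : ∀ v, ρ z v = -v) (t : (2 : ZMod p) ≠ 0) :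
    ∃ U : Submodule (ZMod p) V, Nat.card V = Nat.card U ^ 2 ∧ Inv ρ (centralizer (Q : Set G)) U := by
  obtain ⟨i, j, m, h1, h2⟩ := id q
  have h3 : j * i * j⁻¹ = i⁻¹ := by simpa using m.conj_w m.hb m.nb
  have ii : ∀ v, ρ i (ρ i v) = -v := fun v => by rw [← rho_mul, ← sq, h1, n]
  have jj : ∀ v, ρ j (ρ j v) = -v := fun v => by rw [← rho_mul, ← sq, h2, n]
  have ji : ∀ v, ρ j (ρ i v) = -ρ i (ρ j v) := fun v => by
    apply (ρ i).injective
    rw [map_neg, ii, neg_neg, ← rho_mul, ← rho_mul, mul_assoc, mul_inv_eq_iff_eq_mul.1 h3, mul_inv_cancel_left]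
  obtain ⟨a, b, hab⟩ := ZMod.sq_add_sq p (-1)
  let s : V →ₗ[ZMod p] V := a • (ρ i).toLinearMap + b • (ρ j).toLinearMap
  have sa : ∀ v, s v = a • ρ i v + b • ρ j v := fun v => rfl
  have ss : ∀ v, s (s v) = v := fun v => by
    simp only [sa, map_add, map_smul, ii, jj, ji]
    linear_combination (norm := module) -hab • v
  have sk : ∀ v, s (ρ i (ρ j v)) = -ρ i (ρ j (s v)) := fun v => by
    simp only [sa, map_add, map_smul, ii, jj, ji, map_neg]
    module
  have k : ∀ e : ZMod p, Nat.card (LinearMap.ker (s - e • 1)) ≤ Nat.card (LinearMap.ker (s - (-e) • 1)) := fun e =>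
    Nat.card_le_card_of_injective (fun v => ⟨ρ i (ρ j v), by
      have : s v = e • v.1 := sub_eq_zero.1 (LinearMap.mem_ker.1 v.2)
      simp [sk, this]⟩) fun v w e => Subtype.ext ((ρ j).injective ((ρ i).injective (congrArg Subtype.val e)))
  have r : LinearMap.range (s - (1 : ZMod p) • 1) = LinearMap.ker (s - (-1 : ZMod p) • 1) := by
    refine le_antisymm (by rintro _ ⟨v, rfl⟩; simp [ss]) fun v hv => ⟨-(2 : ZMod p)⁻¹ • v, ?_⟩
    have : s v = -v := by simpa [add_eq_zero_iff_eq_neg] using hv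
    simp only [LinearMap.sub_apply, map_smul, this, one_smul, Module.End.one_apply]
    linear_combination (norm := module) (mul_inv_cancel₀ t) • v
  refine ⟨LinearMap.ker (s - (1 : ZMod p) • 1), ?_, fun c hc v hv => ?_⟩
  · rw [Submodule.card_eq_card_quotient_mul_card (LinearMap.ker (s - (1 : ZMod p) • 1)),
      Nat.card_congr (LinearMap.quotKerEquivRange _).toEquiv, r, sq, ← (k 1).antisymm (by simpa only [neg_neg] using k (-1))]
  · have : s v = v := by simpa [sub_eq_zero] using hv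
    have e : s (ρ c v) = ρ c (s v) := by
      simp only [sa, map_add, map_smul, ← rho_mul, show i * c = c * i from hc i m.ha, show j * c = c * j from hc j m.hb]
    simp [e, this]

omit [Finite G] [Finite V] in
theorem neg_of_free {z : G} (hz : orderOf z = 2) (h : ∀ v, ρ z v = v → v = 0) (v : V) : ρ z v = -v :=
  eq_neg_of_add_eq_zero_left (h _ (by
    rw [map_add, ← rho_mul, ← sq, ← hz, pow_orderOf_eq_one, map_one, add_comm]; rfl))

/-- restriction to an invariant subspace. -/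
def res {D : Subgroup G} {W : Submodule (ZMod p) V} (h : Inv ρ D W) : D →* (W ≃ₗ[ZMod p] W) where
  toFun d := .ofLinear ((ρ d).toLinearMap.restrict (h d d.2)) ((ρ d.1⁻¹).toLinearMap.restrict (h _ (inv_mem d.2)))
    (by ext; simp) (by ext; simp)
  map_one' := by ext; simp
  map_mul' a b := by ext; simp

omit [Finite V] in
theorem exists_res {D B : Subgroup G} {W : Submodule (ZMod p) V} (h : Inv ρ D W) (h0 : W ≠ ⊥)
    (h1 : ∀ d ∈ B, ∀ w ∈ W, ρ d w = w) (h2 : ∀ d ∈ D, ∀ w ∈ W, w ≠ 0 → ρ d w = w → d ∈ B) :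
    ∃ (Γ : Type v) (_ : Group Γ) (_ : Finite Γ) (f : D →* Γ) (σ : Γ →* (W ≃ₗ[ZMod p] W)), Function.Surjective f ∧
      f.ker = B.subgroupOf D ∧ ∀ w ≠ 0, ∀ g, σ g w = w → g = 1 := by
  obtain ⟨v, vW, hv⟩ := (Submodule.ne_bot_iff W).1 h0
  have fs := (res h).rangeRestrict_surjective
  have fk : (res h).rangeRestrict.ker = B.subgroupOf D := Subgroup.ext fun d => ⟨fun e => h2 d d.2 v vW hv
    (congrArg Subtype.val (LinearEquiv.congr_fun (show res h d = 1 from congrArg Subtype.val e) ⟨v, vW⟩)),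
    fun e => Subtype.ext (LinearEquiv.ext fun w => Subtype.ext (h1 _ e _ w.2))⟩
  refine ⟨(res h).range, _, .of_surjective _ fs, _, (res h).range.subtype, fs, fk, fun w hw g e => ?_⟩
  obtain ⟨d, rfl⟩ := fs g
  exact fk.ge (h2 d d.2 w w.2 (by simpa using hw) (congrArg Subtype.val e))

theorem q8_of (h : H1.PQ (⊤ : Subgroup G)) {N : Subgroup G} {r : ℕ} [Fact r.Prime] (hq : IsPGroup r N)
    (h1 : ¬ IsMulCommutative N) (a : ⁅N, N⁆ ≤ centralizer (N : Set G)) : r = 2 ∧ ∃ z, H1.Q8 N z := by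
  rcases h.pgroup hq le_top with c | ⟨r2, n, x, y, m, r, -⟩
  · exact (h1 inferInstance).elim
  have := card_dvd_of_le (m.commutator.ge.trans ((le_inf (commutator_le_of_le le_rfl le_rfl) a).trans m.center.le))
  rw [Nat.card_zpowers, Nat.card_zpowers, m.osq, m.oz] at this
  obtain rfl : n = 1 := le_antisymm ((Nat.pow_dvd_pow_iff_le_right one_lt_two).1 (by simpa using this)) m.pos
  exact ⟨r2, _, x, y, m, rfl, r⟩

theorem mul_le_pow {a c : ℕ} (ha : 2 ≤ a) : (c + 1) * a ≤ a ^ (c + 1) := by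
  rw [pow_succ]
  exact Nat.mul_le_mul_right _ (Nat.lt_two_pow_self.trans_le (Nat.pow_le_pow_left ha c))

theorem canc_ineq {Y r b t : ℕ} (hY : 1 < Y) (hb : 1 < b) (h : (Y ^ r - 1) * (b - 1) ≤ (b - 1) * t * (Y - 1)) :
    ∑ i ∈ Finset.range r, Y ^ i ≤ t := by
  rw [← geom_sum_mul_of_one_le hY.le, mul_right_comm, mul_comm (b - 1)] at h
  exact Nat.le_of_mul_le_mul_right (Nat.le_of_mul_le_mul_right h (by omega)) (by omega)

theorem arith1 {r c y : ℕ} (hr : r.Prime) (h1 : 1 < y) (h2 : r ∣ y - 1)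
    (h : ∑ i ∈ Finset.range r, (y ^ (c + 1)) ^ i ≤ r * (r * (c + 1) + 1)) :
    (y ^ (c + 1)) ^ r ∈ ({9, 25, 49, 121, 529, 81} : Set ℕ) := by
  have h3 := Nat.le_of_dvd (by omega) h2
  rcases hr.eq_two_or_odd' with rfl | o
  · simp only [Finset.sum_range_succ, Finset.range_zero, Finset.sum_empty, pow_zero, pow_one] at h
    obtain _ | _ | c := c
    · obtain rfl | rfl : y = 3 ∨ y = 5 := by simp at h; omega
      all_goals simp
    · obtain rfl : y = 3 := by
        have : y < 4 := by norm_num at h; nlinarith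
        omega
      simp
    · have a := Nat.pow_le_pow_left (show 3 ≤ y by omega) (c + 1 + 1 + 1)
      have b := mul_le_pow (a := 3) (c := c) (by norm_num)
      rw [pow_succ, pow_succ] at a
      omega
  · have r3 : 3 ≤ r := by have := hr.two_le; obtain ⟨k, rfl⟩ := o; omega
    have a := (Finset.single_le_sum (f := fun i => (y ^ (c + 1)) ^ i) (fun _ _ => Nat.zero_le _)
      (Finset.mem_range.2 (show 2 < r by omega))).trans h
    have b := mul_le_pow (a := y ^ 2) (c := c) (by nlinarith)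
    rw [pow_right_comm] at a
    have d := Nat.mul_le_mul_left (c + 1) (Nat.pow_le_pow_left (show r + 1 ≤ y by omega) 2)
    nlinarith

theorem arith2 {c u : ℕ} (h1 : 1 < u ^ 2) (h2 : 8 ∣ u ^ 2 - 1)
    (h : ∑ i ∈ Finset.range 2, ((u ^ 2) ^ (c + 1)) ^ i ≤ 8 * (2 * (c + 1)) + 2) :
    ((u ^ 2) ^ (c + 1)) ^ 2 ∈ ({9, 25, 49, 121, 529, 81} : Set ℕ) := by
  have h3 := Nat.le_of_dvd (by omega) h2
  simp only [Finset.sum_range_succ, Finset.range_zero, Finset.sum_empty, pow_zero, pow_one] at h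
  obtain _ | c := c
  · have : u < 5 := by norm_num at h; nlinarith
    interval_cases u <;> simp_all
  · have a := Nat.pow_le_pow_left (show 9 ≤ u ^ 2 by omega) (c + 1 + 1)
    have b := mul_le_pow (a := 9) (c := c) (by norm_num)
    rw [pow_succ] at a
    omega

/-- faithful and transitive on non-zero vectors. -/
structure Tr (ρ : G →* (V ≃ₗ[ZMod p] V)) : Prop where
  nt : Nontrivial V
  inj : Function.Injective ρ
  tr : ∀ v w, v ≠ 0 → w ≠ 0 → ∃ g, ρ g v = w

namespace Tr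
variable (h : Tr ρ)
include h

omit [Finite G] [Finite V] in
theorem card_eq (N : Subgroup G) [N.Normal] {v w : V} (hv : v ≠ 0) (hw : w ≠ 0) :
    Nat.card (N ⊓ St ρ v : Subgroup G) = Nat.card (N ⊓ St ρ w : Subgroup G) := by
  obtain ⟨g, rfl⟩ := h.tr v w hv hw
  rw [← card_cj g, cj_inf, cj_eq_of_normal]
  refine congrArg (fun X : Subgroup G => Nat.card (N ⊓ X : Subgroup G)) (Subgroup.ext fun x => ?_)
  rw [mem_cj]
  change ρ _ v = v ↔ ρ x _ = _
  rw [rho_mul, rho_mul, map_inv, LinearEquiv.coe_inv, LinearEquiv.symm_apply_eq]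

omit [Finite V] in
theorem eq_of_le {N : Subgroup G} [N.Normal] {v w : V} (hv : v ≠ 0) (hw : w ≠ 0) (e : N ⊓ St ρ v ≤ St ρ w) :
    N ⊓ St ρ v = N ⊓ St ρ w := eq_of_le_of_card_ge (le_inf inf_le_left e) (h.card_eq N hw hv).le

omit [Finite G] in
theorem index {v : V} (hv : v ≠ 0) : (St ρ v).index + 1 = Nat.card V := by
  letI : MulAction G V := MulAction.compHom V ρ
  rw [show St ρ v = MulAction.stabilizer G v from rfl, MulAction.index_stabilizer,
    show MulAction.orbit G v = Set.univ \ {0} from Set.ext fun w => ⟨by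
      rintro ⟨g, rfl⟩; exact ⟨trivial, fun e => hv ((ρ g).map_eq_zero_iff.1 e)⟩, fun e => h.tr v w hv e.2⟩,
    Set.ncard_sdiff_singleton_add_one (Set.mem_univ _), Set.ncard_univ]

omit [Finite V] in
theorem free {A : Subgroup G} [A.Normal] (hc : IsMulCommutative A) {v : V} (hv : v ≠ 0) : A ⊓ St ρ v = ⊥ := by
  by_cases e : ∀ w, A ⊓ St ρ v ≤ St ρ w
  · exact eq_bot_iff.2 fun a ha => h.inj (LinearEquiv.ext fun w => by rw [map_one]; exact e w ha)
  obtain ⟨w, hw⟩ := not_forall.1 e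
  have w0 : w ≠ 0 := by rintro rfl; exact hw fun a _ => map_zero _
  have u0 : v + w ≠ 0 := fun e => hw fun a ha => by
    rw [eq_neg_of_add_eq_zero_right e]; exact (map_neg _ _).trans (congrArg _ ha.2)
  have i : ∀ u, ∀ a ∈ A, A ⊓ St ρ u ≤ St ρ (ρ a u - u) := fun u a ha b hb => by
    change ρ b _ = _
    rw [map_sub, ← rho_mul, H1.comm_of_mem hc hb.1 ha, rho_mul, hb.2]
  have k : ∀ a ∈ A ⊓ St ρ (v + w), ρ a v = v := fun a ha => sub_eq_zero.1 (by_contra fun c => by
    have e : ρ a v - v = -(ρ a w - w) := by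
      have : ρ a (v + w) = v + w := ha.2
      rw [map_add] at this
      linear_combination (norm := module) (1 : ZMod p) • this
    refine hw ((h.eq_of_le hv c (i v a ha.1)).trans (h.eq_of_le w0 c fun b hb => ?_).symm |>.le.trans inf_le_right)
    change ρ b _ = _
    rw [e, map_neg, i w a ha.1 hb])
  refine (hw fun a ha => ?_).elim
  have : ρ a (v + w) = v + w := ((h.eq_of_le u0 hv k).ge ha).2
  rwa [map_add, show ρ a v = v from ha.2, add_right_inj] at this

theorem pq {A : Subgroup G} [A.Normal] (hc : IsMulCommutative A) : H1.PQ A := by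
  have := h.nt
  exact (fc_of_free (ρ := ρ.comp A.subtype) fun v hv g e => Subtype.ext ((h.free hc hv).le ⟨g.2, e⟩)).pq.of_top

theorem cyc {A : Subgroup G} [A.Normal] (hc : IsMulCommutative A) : IsCyclic A := (h.pq hc).cyc A le_rfl hc

theorem dvd {A B : Subgroup G} [A.Normal] (hc : IsMulCommutative A) (hB : B ≤ A) {W : Submodule (ZMod p) V}
    (hW : Inv ρ B W) : Nat.card B ∣ Nat.card W - 1 := dvd_card hW fun v _ hv => by
  rw [← inf_relIndex_left, eq_bot_iff.2 ((inf_le_inf_right _ hB).trans (h.free hc hv).le), relIndex_bot_left]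

theorem lt_cent {A : Subgroup G} [hA : A.Normal] (hc : IsMulCommutative A) {W : Submodule (ZMod p) V} (a0 : W ≠ ⊥)
    (a1 : W ≠ ⊤) (a2 : Inv ρ A W) : A < centralizer (A : Set G) := (le_centralizer A).lt_of_ne fun e => by
  have c := h.cyc hc
  obtain ⟨U, b1, b0, b2, b3⟩ := exists_min a0 a2
  have h1 := H1.relIndex_centralizer_dvd_card_mulAut A (top_le_normalizer A)
  rw [← e, relIndex_top_right, c.card_mulAut] at h1
  have h2 := one_lt_card b0
  have h3 := Nat.le_of_dvd (by omega) (h.dvd hc le_rfl b2)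
  have h4 := (Nat.le_of_dvd (Nat.totient_pos.2 Nat.card_pos) h1).trans (Nat.totient_le _)
  obtain ⟨w, hw, w0⟩ := (Submodule.ne_bot_iff _).1 b0
  obtain ⟨v, -, hv⟩ := SetLike.exists_of_lt a1.lt_top
  obtain ⟨g, rfl⟩ := h.tr w v w0 fun e => hv (e ▸ W.zero_mem)
  have h5 := (b3 (U ⊓ U.comap (ρ g).toLinearMap) inf_le_left fun a ha u hu => ⟨b2 a ha u hu.1, by
    have := b2 _ (hA.conj_mem a ha g) _ hu.2
    rwa [LinearEquiv.coe_coe, ← rho_mul, inv_mul_cancel_right, rho_mul] at this⟩).resolve_right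
    fun e => hv (b1 (e.ge hw).2)
  have h6 := Nat.card_le_card_of_injective (fun x : U × U => x.1.1 + ρ g x.2) fun x y e => by
    have : (x.2 - y.2 : U).1 ∈ U ⊓ U.comap (ρ g).toLinearMap := ⟨Subtype.prop _, by
      rw [SetLike.mem_coe, Submodule.mem_comap, show (ρ g).toLinearMap (x.2 - y.2 : U) = (y.1 - x.1 : U) by
        simp only [Submodule.coe_sub, map_sub, LinearEquiv.coe_coe]; linear_combination (norm := module) (1 : ZMod p) • e]
      exact Subtype.prop _⟩
    rw [h5, Submodule.mem_bot, Submodule.coe_eq_zero, sub_eq_zero] at this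
    simp only [this, add_left_inj, SetLike.coe_eq_coe] at e
    exact Prod.ext e this
  have h7 := Nat.le_of_dvd Nat.card_pos (St ρ w).index_dvd_card
  rw [Nat.card_prod, ← h.index w0] at h6
  rw [← A.card_mul_index] at h7
  obtain ⟨k, hk⟩ := Nat.exists_eq_add_of_lt h2
  rw [hk] at h3 h6
  nlinarith [Nat.mul_le_mul h3 (h4.trans h3), show 1 + k + 1 - 1 = k + 1 by omega]

theorem q8 {Q : Subgroup G} [Q.Normal] {z : G} (q : H1.Q8 Q z) (t : (2 : ZMod p) ≠ 0) :
    Nat.card V ∈ ({9, 25, 49, 121, 529, 81} : Set ℕ) := by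
  have := h.nt
  have : (zpowers z).Normal := normal_of_top_le ((top_le_normalizer Q).trans q.norm_z)
  obtain ⟨U, h1, h2⟩ := split' (ρ := ρ) q (neg_of_free q.oz fun v e => by_contra fun c => by
    simpa [mem_bot.1 ((h.free (A := zpowers z) inferInstance c).le ⟨mem_zpowers z, e⟩)] using q.oz) t
  have h3 : 1 < Nat.card U := by
    have : 1 < Nat.card V := Finite.one_lt_card
    by_contra e
    rw [h1, show Nat.card U = 1 by have := Nat.card_pos (α := U); omega] at this
    simp at this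
  obtain ⟨v, hv⟩ := exists_ne (0 : V)
  set C := centralizer (Q : Set G)
  obtain ⟨s, hs⟩ := dvd_card h2 (c := (St ρ v).relIndex C) fun w _ hw => Nat.eq_of_mul_eq_mul_left Nat.card_pos (by
    rw [H1.card_inf_mul_relIndex, inf_comm, h.card_eq C hw hv, inf_comm, H1.card_inf_mul_relIndex])
  have b1 := q.relIndex_dvd
  rw [normalizer_eq_top, relIndex_top_right] at b1
  have b2 : (St ρ v).index ∣ (St ρ v).relIndex C * 24 := (index_dvd_of_le (inf_le_left (b := C))).trans (by
    rw [← relIndex_mul_index inf_le_right, inf_relIndex_right, index_cent q]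
    exact Nat.mul_dvd_mul_left _ (Nat.mul_dvd_mul_left 4 b1))
  have b3 := h.index hv
  generalize (St ρ v).relIndex C = c at *
  have e : Nat.card U = c * s + 1 := by omega
  rw [h1, e] at b3
  rw [show (St ρ v).index = c * (s * (Nat.card U + 1)) by rw [e]; nlinarith] at b2
  have b4 := (dvd_mul_left _ _).trans (Nat.dvd_of_mul_dvd_mul_left (Nat.pos_of_ne_zero (by rintro rfl; omega)) b2)
  have b5 : Odd (Nat.card U) := card_sub U ▸ (hp.out.odd_of_ne_two (by rintro rfl; exact t rfl)).pow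
  have := (by decide : ∀ m < 24, 1 < m ∧ m % 2 = 1 ∧ 24 % (m + 1) = 0 → m ^ 2 ∈ [9, 25, 49, 121, 529, 81]) _
    (Nat.le_of_dvd (by norm_num) b4) ⟨h3, Nat.odd_iff.1 b5, Nat.mod_eq_zero_of_dvd b4⟩
  simpa [h1] using this

section
variable {N : Subgroup G} [N.Normal] {z : G} {r : ℕ} [hr : Fact r.Prime] (x : Ex N z r)

omit h [Finite G] [N.Normal] in
theorem cZ (N : Subgroup G) : IsMulCommutative (N ⊓ centralizer (N : Set G) : Subgroup G) :=
  L.comm_of_le_centralizer (inf_le_right.trans (centralizer_le inf_le_left))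

omit [Finite V] in
theorem hZ {w : V} (hw : w ≠ 0) : N ⊓ St ρ w ⊓ (N ⊓ centralizer (N : Set G)) = ⊥ :=
  eq_bot_iff.2 ((le_inf inf_le_right (inf_le_left.trans inf_le_right)).trans (h.free (cZ N) hw).le)

include x

omit h [Finite G] [N.Normal] hr in
theorem zZ : zpowers z ≤ N ⊓ centralizer (N : Set G) := zpowers_le.2 ⟨x.mem, x.cen⟩

omit [Finite V] hr in
theorem hf : ∀ g ∈ zpowers z, g ≠ 1 → ∀ v, ρ g v = v → v = 0 := fun _ hg g1 _ e =>
  by_contra fun c => g1 ((h.free (cZ N) c).le ⟨zZ x hg, e⟩)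

theorem hpr : (r : ZMod p) ≠ 0 := fun e => by
  have := h.nt
  have a := h.dvd (cZ N) (zZ x) (W := ⊤) fun _ _ _ _ => trivial
  have b := one_lt_card (top_ne_bot (α := Submodule (ZMod p) V))
  rw [Nat.card_zpowers, x.oz, ← (Nat.prime_dvd_prime_iff_eq hp.out hr.out).1 ((ZMod.natCast_eq_zero_iff _ _).1 e),
    card_sub] at a
  rw [card_sub] at b
  exact hp.out.one_lt.ne' (Nat.dvd_one.1 ((Nat.dvd_sub_iff_right b.le (dvd_pow_self p (by
    rintro e; simp [e] at b))).1 a))

theorem count {v : V} (hv : v ≠ 0) (B0 : N ⊓ St ρ v ≠ ⊥) {Y t : ℕ} (e1 : Nat.card V = Y ^ r) (hY : 1 < Y)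
    (ht : {g ∈ (N : Set G) | g ^ r = 1}.ncard ≤ (Nat.card (N ⊓ St ρ v : Subgroup G) - 1) * t + r) :
    ∑ i ∈ Finset.range r, Y ^ i ≤ t := by
  classical
  set S := {g ∈ (N : Set G) | g ^ r = 1}
  have zS : (zpowers z : Set G) ⊆ S := fun g hg => ⟨(zZ x hg).1, orderOf_dvd_iff_pow_eq_one.1
    ((orderOf_dvd_of_mem_zpowers hg).trans x.oz.dvd)⟩
  have := Fintype.ofFinite V
  refine canc_ineq hY (one_lt_card_iff_ne_bot _ |>.2 B0) ?_
  have := Finset.card_mul_le_card_mul (s := Finset.univ.erase (0 : V)) (t := (S \ zpowers z).toFinite.toFinset)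
    (fun w g => ρ g w = w) (m := Nat.card (N ⊓ St ρ v : Subgroup G) - 1) (n := Y - 1) (fun w hw => ?_) fun g hg => ?_
  · rw [Finset.card_erase_of_mem (Finset.mem_univ _), Finset.card_univ, ← Nat.card_eq_fintype_card, e1,
      ← Set.ncard_eq_toFinset_card, Set.ncard_sdiff zS, ← Nat.card_coe_set_eq (zpowers z : Set G)] at this
    exact this.trans (Nat.mul_le_mul_right _ (Nat.sub_le_of_le_add
      (((Nat.card_zpowers z).trans x.oz).symm ▸ ht)))
  · have w0 := Finset.ne_of_mem_erase hw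
    rw [h.card_eq N hv w0, ← Set.ncard_coe_finset, ← SetLike.coe_sort_coe, Nat.card_coe_set_eq,
      ← Set.ncard_sdiff_singleton_of_mem (one_mem _)]
    refine Set.ncard_le_ncard (fun g hg => ?_) (Set.toFinite _)
    rw [Finset.mem_coe, Finset.mem_bipartiteAbove, Set.Finite.mem_toFinset]
    exact ⟨⟨⟨hg.1.1, (h.hZ w0).le ⟨pow_mem hg.1 _, x.pow_mem_Z hg.1.1⟩⟩, fun e => hg.2 ((h.hZ w0).le ⟨hg.1, zZ x e⟩)⟩,
      hg.1.2⟩
  · rw [Set.Finite.mem_toFinset] at hg
    rcases Finset.eq_empty_or_nonempty (Finset.bipartiteBelow (fun w g => ρ g w = w) (Finset.univ.erase 0) g)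
      with e | ⟨w, hw⟩
    · simp [e]
    rw [Finset.mem_bipartiteBelow] at hw
    have l : zpowers g ≤ N ⊓ St ρ w := zpowers_le.2 ⟨hg.1.1, hw.2⟩
    have := x.card_Fx (h.hpr x) (h.hf x) (l.trans inf_le_left) (eq_bot_iff.2 ((inf_le_inf_right _ l).trans
      (h.hZ (Finset.ne_of_mem_erase hw.1)).le))
    rw [Nat.card_zpowers, orderOf_eq_prime hg.1.2 fun e => hg.2 (e ▸ one_mem _), e1] at this
    rw [Nat.pow_left_injective hr.out.ne_zero this, ← Set.ncard_coe_finset, ← SetLike.coe_sort_coe,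
      Nat.card_coe_set_eq, ← Set.ncard_sdiff_singleton_of_mem (Submodule.zero_mem _)]
    refine Set.ncard_le_ncard (fun u hu => ?_) (Set.toFinite _)
    rw [Finset.mem_coe, Finset.mem_bipartiteBelow] at hu
    exact ⟨zpowers_le (H := St ρ u).2 hu.2, Finset.ne_of_mem_erase hu.1⟩

omit h x [N.Normal] hr in
theorem card_q8 {D B : Subgroup G} (h1 : B ≤ D) (h2 : D ≤ N) {Γ : Type*} [Group Γ] [Finite Γ] (f : D →* Γ)
    (fs : Function.Surjective f) (fk : f.ker = B.subgroupOf D) {w : Γ} (q : H1.Q8 ⊤ w)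
    (i1 : D.relIndex N ≤ Nat.card B) :
    {g ∈ (N : Set G) | g ^ 2 = 1}.ncard ≤ (Nat.card B - 1) * (8 * Nat.card B + 2) + 2 := by
  have cc : ∀ X : Subgroup Γ, Nat.card (X.comap f) = Nat.card X * Nat.card B := fun X => by
    have a := (X.comap f).card_mul_index
    have b := f.ker.card_mul_index
    rw [index_comap_of_surjective _ fs] at a
    rw [index_ker, MonoidHom.range_eq_top.2 fs, card_top, ← X.card_mul_index, fk, card_subgroupOf h1, ← a,
      ← mul_assoc, mul_comm (Nat.card B)] at b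
    exact (Nat.eq_of_mul_eq_mul_right index_ne_zero_of_finite.bot_lt b).symm
  have d1 := cc ⊤
  have d2 := cc (zpowers w)
  rw [comap_top, card_top, q.card] at d1
  rw [Nat.card_zpowers, q.oz] at d2
  have d3 : {g ∈ (N : Set G) | g ^ 2 = 1} ⊆ ((zpowers w).comap f).map D.subtype ∪ (N \ D) := fun g hg => by
    by_cases e : g ∈ D
    · refine .inl ⟨⟨g, e⟩, by_contra fun c => ?_, rfl⟩
      have := q.sq trivial c
      rw [← map_pow, show (⟨g, e⟩ : D) ^ 2 = 1 from Subtype.ext hg.2, map_one] at this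
      simpa [← this] using q.oz
    · exact .inr ⟨hg.1, e⟩
  have d4 := (Set.ncard_le_ncard d3).trans (Set.ncard_union_le _ _)
  rw [Set.ncard_sdiff h2, ← Nat.card_coe_set_eq (N : Set G), ← Nat.card_coe_set_eq (D : Set G),
    ← Nat.card_coe_set_eq (((zpowers w).comap f).map D.subtype : Set G)] at d4
  simp only [SetLike.coe_sort_coe] at d4
  rw [card_map_of_injective D.subtype_injective, d2, ← H1.card_mul_relIndex h2, d1] at d4
  refine d4.trans ?_
  obtain ⟨k, hk⟩ := Nat.exists_eq_succ_of_ne_zero (Nat.card_pos (α := B)).ne'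
  have := Nat.mul_le_mul_left (8 * Nat.card B) i1
  rw [hk, Nat.succ_eq_add_one] at *
  rw [Nat.add_sub_cancel]
  have : 8 * (k + 1) * D.relIndex N - 8 * (k + 1) ≤ 8 * (k + 1) * k := by
    rw [Nat.sub_le_iff_le_add]; nlinarith
  nlinarith

theorem core (hN : ¬ IsMulCommutative N) : Nat.card V ∈ ({9, 25, 49, 121, 529, 81} : Set ℕ) := by
  have := h.nt
  obtain ⟨v, hv⟩ := exists_ne (0 : V)
  have hpr := h.hpr x
  have zZ := zZ x
  have hZ := h.hZ (N := N) hv
  set Z := N ⊓ centralizer (N : Set G)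
  have nc : ⁅N, N⁆ ≤ zpowers z := commutator_le.2 x.cm
  set B := N ⊓ St ρ v
  by_cases B0 : B = ⊥
  · obtain ⟨rfl, w, q⟩ := q8_of (fc_of_free (ρ := ρ.comp N.subtype) fun w hw g e => Subtype.ext
      ((h.eq_of_le hv hw (B0.le.trans bot_le)).symm.trans B0 |>.le ⟨g.2, e⟩)).pq (N := ⊤) (x.pg.to_subgroup ⊤)
      (fun c => hN ⟨⟨fun a b => H1.comm_of_mem c trivial trivial⟩⟩) (by
        rw [← map_le_map_iff_of_injective N.subtype_injective, map_commutator, map_top_subtype]
        exact fun g hg => ⟨⟨g, commutator_le_self N hg⟩, fun a _ => Subtype.ext ((zZ (nc hg)).2 a a.2), rfl⟩)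
    obtain ⟨e⟩ := q.equiv
    obtain ⟨w, q⟩ := H1.q8_of_equiv (topEquiv.symm.trans e)
    exact h.q8 q hpr
  obtain ⟨A, -, -, -, -, -, hb⟩ := exists_step (x.pg.to_le (inf_le_left : B ≤ N)) B0
  obtain ⟨c, hc⟩ := Nat.exists_eq_succ_of_ne_zero (Nat.card_pos (α := A)).ne'
  rw [hc, mul_comm] at hb
  have e1 := x.card_Fx hpr (h.hf x) inf_le_left hZ
  set W := Fx ρ B
  have vW : v ∈ W := fun b hb => hb.2
  have y1 := one_lt_card ((Submodule.ne_bot_iff W).2 ⟨v, vW, hv⟩)
  set D := N ⊓ centralizer (B : Set G)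
  have iD : Inv ρ D W := fun g hg u hu a ha => by rw [← rho_mul, hg.2 a ha, rho_mul, hu a ha]
  have ZD : Z ≤ D := inf_le_inf_left _ (centralizer_le inf_le_left)
  have y2 := h.dvd (cZ N) zZ fun g hg => iD g (ZD (zZ hg))
  rw [Nat.card_zpowers, x.oz] at y2
  rw [hb, mul_comm, pow_mul] at e1
  have key := fun t => h.count x hv B0 (t := t) e1 (Nat.one_lt_pow c.succ_ne_zero y1)
  have i1 : D.relIndex N ≤ Nat.card B := (inf_relIndex_left N _).trans_le (x.index_le inf_le_left)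
  have W0 := (Submodule.ne_bot_iff W).2 ⟨v, vW, hv⟩
  obtain ⟨Γ, _, _, f, σ, fs, fk', fr⟩ := exists_res iD W0 (B := B) (fun d hd w hw => hw d hd) fun d hd w hw w0 e =>
    (h.eq_of_le hv w0 hw).ge ⟨hd.1, e⟩
  have := Submodule.nontrivial_iff_ne_bot.2 W0
  have BD : B ≤ D := le_inf inf_le_left (le_centralizer_iff'.2 (eq_bot_iff.2 ((le_inf (commutator_le_self B)
    ((commutator_mono inf_le_left inf_le_left).trans (nc.trans zZ))).trans hZ.le)))
  by_cases cm : IsMulCommutative (⊤ : Subgroup Γ)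
  · have a : D ≤ B ⊔ Z := fun d hd => x.dual inf_le_left hd.1 fun y y1 y2 => commutatorElement_eq_one_iff_commute.1
      (hZ.le ⟨fk'.le (x := ⁅(⟨d, hd⟩ : D), ⟨y, y1, y2⟩⁆) (by
        rw [MonoidHom.mem_ker, map_commutatorElement, commutatorElement_eq_one_iff_mul_comm]
        exact H1.comm_of_mem cm trivial trivial), zZ (x.cm d hd.1 y y1)⟩)
    have b : Z.relIndex N ≤ Nat.card B * Nat.card B := by
      rw [← relIndex_mul_relIndex Z D N ZD inf_le_left]
      refine Nat.mul_le_mul ((relIndex_le_of_le_right a index_ne_zero_of_finite).trans ?_) i1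
      rw [relIndex_sup_right]
      exact Nat.le_of_dvd Nat.card_pos (relIndex_dvd_card _ _)
    rw [e1]
    refine arith1 hr.out y1 y2 (key _ ((x.card_sol (h.cyc (cZ N))).trans ((Nat.mul_le_mul_left r b).trans (le_of_eq ?_))))
    rw [← Nat.succ_eq_add_one c, ← hb]
    obtain ⟨k, hk⟩ := Nat.exists_eq_succ_of_ne_zero (Nat.card_pos (α := B)).ne'
    rw [hk, Nat.succ_sub_one, Nat.succ_eq_add_one]
    ring
  obtain ⟨rfl, w, q⟩ := q8_of (fc_of_free fr).pq (r := r) (((x.pg.to_le inf_le_left).of_surjective f fs).to_subgroup ⊤) cm (by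
    rw [← map_top_of_surjective f fs, ← map_commutator]
    refine map_le_centralizer_map f fun g hg a _ => Subtype.ext ((zZ (nc ?_)).2 a a.2.1)
    exact commutator_mono (map_subtype_le _ |>.trans inf_le_left) (map_subtype_le _ |>.trans inf_le_left)
      (map_commutator _ _ D.subtype ▸ mem_map_of_mem _ hg))
  obtain ⟨U, u1, -⟩ := split' (ρ := σ) q (neg_of_free q.oz fun u e => by_contra fun c => by
    simpa [fr u c w e] using q.oz) hpr
  have u2 := dvd_card (ρ := σ) (A := ⊤) (W := ⊤) (c := 8) (fun _ _ _ _ => trivial) fun u _ hu => by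
    rw [show St σ u = ⊥ from eq_bot_iff.2 fun g e => fr u hu g e, relIndex_bot_left, q.card]
  rw [Nat.card_congr Submodule.topEquiv.toEquiv] at u2
  rw [e1]
  rw [u1] at y1 u2 key ⊢
  exact arith2 y1 u2 (key _ ((card_q8 BD inf_le_left f fs fk' q i1).trans (by rw [← Nat.succ_eq_add_one c, ← hb])))

end

/-- Huppert's theorem. -/
theorem huppert (hs : Group.IsSolvable G) : (∃ A : Subgroup G, A.Normal ∧ IsMulCommutative A ∧
    ∀ W, Inv ρ A W → W = ⊥ ∨ W = ⊤) ∨ Nat.card V ∈ ({9, 25, 49, 121, 529, 81} : Set ℕ) := by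
  obtain ⟨A, ⟨a1, a2⟩, a3⟩ := WellFounded.has_min (wellFounded_gt (α := Subgroup G))
    {A | A.Normal ∧ IsMulCommutative A} ⟨⊥, inferInstance, inferInstance⟩
  have hm : ∀ B : Subgroup G, B.Normal → IsMulCommutative B → A ≤ B → B = A := fun B b c d =>
    (eq_of_le_of_not_lt d (a3 B ⟨b, c⟩)).symm
  refine or_iff_not_imp_left.2 fun e => ?_
  obtain ⟨W, w2, w⟩ : ∃ W, Inv ρ A W ∧ ¬ (W = ⊥ ∨ W = ⊤) := by
    by_contra! c; exact e ⟨A, a1, a2, c⟩
  have l := h.lt_cent a2 (not_or.1 w).1 (not_or.1 w).2 w2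
  obtain ⟨N, ⟨n1, hN, h1⟩, n4⟩ := WellFounded.has_min (wellFounded_lt (α := Subgroup G))
    {N | N.Normal ∧ N ≤ centralizer (A : Set G) ∧ ¬ IsMulCommutative N}
    ⟨_, inferInstance, le_rfl, fun c => l.ne' (hm _ inferInstance c l.le)⟩
  have h2 : ∀ M : Subgroup G, M.Normal → M ≤ N → M = N ∨ M ≤ centralizer (N : Set G) := fun M m1 m2 =>
    or_iff_not_imp_left.2 fun m3 => by
      have c : IsMulCommutative M := by_contra fun c => n4 M ⟨m1, m2.trans hN, c⟩ (m2.lt_of_ne m3)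
      refine le_trans ?_ (le_centralizer_iff.1 hN)
      rw [← hm (A ⊔ M) inferInstance (comm_sup a2 c (le_centralizer_iff.1 (m2.trans hN))) le_sup_left]
      exact le_sup_right
  have a : ⁅N, N⁆ ≤ centralizer (N : Set G) := (h2 _ inferInstance (commutator_le_self N)).resolve_left fun e => h1 (by
    rw [eq_bot_of_perfect_of_solvable inferInstance e]; infer_instance)
  have b := isNilpotent_of_commutator_le_centralizer a
  obtain ⟨r, hr, hq⟩ : ∃ (q : ℕ) (_ : Fact q.Prime), IsPGroup q N := by_contra fun e =>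
    h1 (L.comm_of_le_centralizer (le_of_forall_syl fun q _ => ⟨_, syl_Op_of_nilpotent b,
      (h2 _ (normal_of_top_le (normalizer_Op (top_le_normalizer N))) (Op_le q N)).resolve_left
        fun c => e ⟨q, inferInstance, c ▸ Op_p q N⟩⟩))
  set Z := N ⊓ centralizer (N : Set G)
  have cZ := h.cyc (cZ N)
  have nZ : ¬ N ≤ Z := fun e => h1 (L.comm_of_le_centralizer (e.trans inf_le_right))
  obtain ⟨y, y1, y2, y3⟩ : ∃ y ∈ N, y ∉ Z ∧ y ^ r ∈ Z := by
    obtain ⟨y, y1, y2⟩ := SetLike.not_le_iff_exists.1 nZ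
    obtain ⟨k, hk⟩ := hq ⟨y, y1⟩
    replace hk : y ^ r ^ k ∈ Z := by rw [show y ^ r ^ k = 1 from congrArg Subtype.val hk]; exact one_mem _
    induction k with
    | zero => exact (y2 (by simpa using hk)).elim
    | succ k ih => exact by_contra fun e => e (ih (by_contra fun c => e ⟨_, pow_mem y1 _, c, by rwa [← pow_mul, ← pow_succ]⟩))
  have pw : ∀ w ∈ N, ⁅y, w⁆ ^ r = 1 := fun w hw => by
    rw [← L.commutatorElement_pow_left (a (commutator_mem_commutator y1 hw) y y1), commutatorElement_eq_one_iff_mul_comm,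
      y3.2 w hw]
  obtain ⟨w, w1, w2⟩ : ∃ w ∈ N, ⁅y, w⁆ ≠ 1 := by
    by_contra! c
    exact y2 ⟨y1, fun w hw => (commutatorElement_eq_one_iff_mul_comm.1 (c w hw)).symm⟩
  have mz : ∀ w ∈ N, ⁅y, w⁆ ∈ Z := fun w hw =>
    ⟨commutator_le_self N (commutator_mem_commutator y1 hw), a (commutator_mem_commutator y1 hw)⟩
  have oz := orderOf_eq_prime (pw w w1) w2
  have l0 : zpowers ⁅y, w⁆ ≤ Z := zpowers_le.2 (mz w w1)
  have : (zpowers ⁅y, w⁆).Normal := normal_of_top_le ((top_le_normalizer Z).trans (L.normalizer_le_of_le_cyclic cZ l0))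
  let f := QuotientGroup.mk' (zpowers ⁅y, w⁆)
  have : (N.map f).Normal := n1.map f (QuotientGroup.mk'_surjective _)
  have e := (h2 (N ⊓ (centralizer (N.map f : Set _)).comap f) inferInstance inf_le_left).resolve_right fun e =>
    y2 ⟨y1, e ⟨y1, by
      rintro _ ⟨u, hu, rfl⟩
      refine (commutatorElement_eq_one_iff_mul_comm.1 ((map_commutatorElement f y u).symm.trans
        ((QuotientGroup.eq_one_iff _).2 ?_))).symm
      by_cases c : ⁅y, u⁆ = 1
      · rw [c]; exact one_mem _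
      exact (h.pq (Tr.cZ N)).mem_zpowers_of_comm hr.out (mz w w1) (mz u hu) oz (orderOf_eq_prime (pw u hu) c)
        ((mz u hu).2 _ (mz w w1).1)⟩⟩
  refine h.core (z := ⁅y, w⁆) ⟨hq, oz, (mz w w1).1, (mz w w1).2, fun u hu v hv => (QuotientGroup.eq_one_iff _).1 ?_⟩ h1
  change f _ = 1
  rw [map_commutatorElement, commutatorElement_eq_one_iff_mul_comm]
  exact (e.ge hv).2 _ ⟨u, hu, rfl⟩

end Tr

end H9.Zs
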