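import Cfsg.Agent.H9.JC4

/-!
H9.JC5: the pair of maximal 2-local subgroups.
-/

set_option autoImplicit false

namespace H9.JC

open Cfsg Subgroup
open scoped commutatorElement

variable {G : Type*} [Group G] [Finite G] {K K' U V D A B C H J L L' M X Y P Q Q' R S T T' : Subgroup G} {d e v w x y : G}

omit [Finite G] in
theorem le_two (h : Q.relIndex T = 2) (l : Q ≤ T) (h1 : Q ≤ X) (g1 : x ∈ T) (g2 : x ∈ X) (g3 : x ∉ Q) : T ≤ X :=
  Am.le_of_prime l (h ▸ Nat.prime_two) h1 g1 g2 g3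

theorem two_max (a : IsElementaryAbelian 2 Q) (b : IsElementaryAbelian 2 Q') (l : Q ≤ T) (l' : Q' ≤ T)
    (i : Q.relIndex T = 2) (i' : Q'.relIndex T = 2) (n : ¬ Q' ≤ Q) (c : centralizer (Q : Set G) ≤ Q)
    (u : IsElementaryAbelian 2 U) (h : U ≤ T) : U ≤ Q ∨ U ≤ Q' := by
  have k : ∀ t ∈ U, t ∉ Q → t ∈ Q' := fun t ht t1 => by_contra fun t2 => by
    obtain ⟨q, q1, q2⟩ := SetLike.not_le_iff_exists.1 n
    have p1 := Am.mul_mem_two i (h ht) (l' q1) t1 q2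
    have p2 : t * q ∉ Q' := fun e => t2 ((mul_mem_cancel_right q1).1 e)
    have j : (Q' ⊓ Q).relIndex Q = 2 := by
      have e := relIndex_mul_relIndex (Q' ⊓ Q) Q T inf_le_right l
      have e' := relIndex_mul_relIndex (Q ⊓ Q') Q' T inf_le_right l'
      have f := relIndex_le_of_le_right (H := Q) l' ri_ne
      have f' : Q.relIndex Q' ≠ 1 := fun e => n (relIndex_eq_one.1 e)
      have := ri_ne (K := Q) (X := Q')
      rw [inf_relIndex_right, inf_comm, ← e, i, i'] at e'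
      omega
    refine q2 (c (le_centralizer_singleton_iff.1 (le_two j inf_le_right (le_centralizer_singleton_iff.2
      (le_centralizer_of_le_comm b.1 le_rfl inf_le_left q1)) p1 (mem_centralizer_singleton_iff.2 ?_) fun e => p2 e.1)))
    have s1 := (sq _).symm.trans (a.2 _ p1)
    have s2 := (sq _).symm.trans (b.2 _ q1)
    have s3 := (sq _).symm.trans (u.2 _ ht)
    calc t * q * q = t * (q * q) := mul_assoc ..
      _ = t * (t * q * (t * q)) := by rw [s1, s2]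
      _ = t * t * (q * (t * q)) := by group
      _ = _ := by rw [s3, one_mul]
  by_contra! e
  obtain ⟨s, s1, s2⟩ := SetLike.not_le_iff_exists.1 e.1
  obtain ⟨t, t1, t2⟩ := SetLike.not_le_iff_exists.1 e.2
  exact t2 ((mul_mem_cancel_left (k s s1 s2)).1 (k _ (mul_mem s1 t1) fun f => s2 ((mul_mem_cancel_right
    (by_contra fun f => t2 (k t t1 f))).1 f)))

/-- the final configuration. -/
structure Pr (T K K' : Subgroup G) : Prop where
  g : Gd T K (K ⊔ T)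
  g' : Gd T K' (K' ⊔ T)
  ne : K ⊔ T ≠ K' ⊔ T
  c : T ≤ centralizer (OZ 2 (JE 2 T) : Set G)
  el : IsElementaryAbelian 2 (Op 2 (K ⊔ T))
  el' : IsElementaryAbelian 2 (Op 2 (K' ⊔ T))
  iso : (Nat.card (Op 2 (K ⊔ T)) = 4 ∧ Nat.card (Op 2 (K' ⊔ T)) = 4 ∧ Nonempty ((K ⊔ T : Subgroup G) ≃* Equiv.Perm (Fin 4)) ∧
    Nonempty ((K' ⊔ T : Subgroup G) ≃* Equiv.Perm (Fin 4))) ∨ (Nat.card (Op 2 (K ⊔ T)) = 8 ∧ Nat.card (Op 2 (K' ⊔ T)) = 8 ∧
      Nonempty ((K ⊔ T : Subgroup G) ≃* Multiplicative (ZMod 2) × Equiv.Perm (Fin 4)) ∧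
      Nonempty ((K' ⊔ T : Subgroup G) ≃* Multiplicative (ZMod 2) × Equiv.Perm (Fin 4)))

theorem Gd.pr (z : ZN G) (g : Gd T K L) (g' : Gd T K' L') (n : L ≠ L') (c : T ≤ centralizer (OZ 2 (JE 2 T) : Set G)) :
    Pr T K K' ∧ L = K ⊔ T := by
  have l : ∀ {K K' L L'}, Gd T K L → Gd T K' L' → L ≠ L' → Am.L3 (K ⊔ T) (K' ⊔ T) := fun g g' n =>
    ⟨(g.inf z c g' n).symm ▸ g.i3 z c, (g.inf z c g' n).symm ▸ g.i2 z c, (g.inf z c g' n).symm ▸ g.p,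
      (g.inf z c g' n).symm ▸ g.nc c⟩
  obtain ⟨a, b, i⟩ := amal (inf_le_right.trans (g.ccP z).c) (inf_le_right.trans (g'.ccP z).c) (l g g' n) (l g' g n.symm)
    (g.Obot g' n)
  have e := g.eqP z c a (by omega)
  have e' := g'.eqP z c b (by omega)
  exact ⟨⟨e ▸ g, e' ▸ g', e ▸ e' ▸ n, c, a, b, i⟩, e⟩

namespace Pr
variable (z : ZN G) (h : Pr T K K')
include h

theorem symm : Pr T K' K := ⟨h.g', h.g, h.ne.symm, h.c, h.el', h.el, h.iso.imp (fun a => ⟨a.2.1, a.1, a.2.2.2, a.2.2.1⟩)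
  fun a => ⟨a.2.1, a.1, a.2.2.2, a.2.2.1⟩⟩

theorem cQ : Nat.card (Op 2 (K ⊔ T)) = Nat.card (Op 2 (K' ⊔ T)) := by have := h.iso; omega
theorem QT : Op 2 (K ⊔ T) ≤ T := h.g.syl.Op_le

include z

theorem nQ : normalizer (Op 2 (K ⊔ T) : Set G) = K ⊔ T := ml_eq h.g.ml (Op_p _ _) (h.g.cc z).ne (le_normalizer_Op _ _)

theorem nle : ¬ Op 2 (K' ⊔ T) ≤ Op 2 (K ⊔ T) := fun e =>
  h.ne (by rw [← h.nQ z, ← eq_of_le_of_card_ge e h.cQ.le, h.symm.nQ z])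

theorem i2 : (Op 2 (K ⊔ T)).relIndex T = 2 := h.g.i2 z h.c

theorem two (u : IsElementaryAbelian 2 U) (l : U ≤ T) : U ≤ Op 2 (K ⊔ T) ∨ U ≤ Op 2 (K' ⊔ T) :=
  two_max h.el h.el' h.QT h.symm.QT (h.i2 z) (h.symm.i2 z) (h.nle z) (h.g.cc z).c u l

theorem swap (x1 : x ∈ normalizer (T : Set G)) (x2 : x ∉ K ⊔ T) : cj x (Op 2 (K ⊔ T)) = Op 2 (K' ⊔ T) :=
  (h.two z (elem_map _ h.el) ((cj_mono x h.QT).trans (mem_normalizer_iff_cj.1 x1).le)).elim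
    (fun e => (x2 ((h.nQ z).le (mem_normalizer_iff_cj.2 (eq_of_le_of_card_ge e (card_cj _ _).ge)))).elim)
    fun e => eq_of_le_of_card_ge e (h.cQ.symm.trans (card_cj _ _).symm).le

theorem TQ : T ≤ Op 2 (K ⊔ T) ⊔ Op 2 (K' ⊔ T) :=
  let ⟨_, a, b⟩ := SetLike.not_le_iff_exists.1 (h.nle z)
  le_two (h.i2 z) h.QT le_sup_left (h.symm.QT a) (mem_sup_right a) b

theorem QQ : Op 2 (K ⊔ T) ⊓ Op 2 (K' ⊔ T) ≤ OZ 2 T := le_OZ (elem_of_le h.el inf_le_left) (inf_le_of_left_le h.QT)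
  (le_centralizer_iff.1 ((h.TQ z).trans (sup_le (le_centralizer_of_le_comm h.el.1 le_rfl inf_le_left)
    (le_centralizer_of_le_comm h.el'.1 le_rfl inf_le_right))))

omit z in
theorem out (hS : IsPGroup 2 S) (l : T ≤ S) (x1 : x ∈ S) (x2 : x ∉ T) : x ∉ K ⊔ T := fun e =>
  x2 ((h.g.syl.maximal (hS.to_le inf_le_left) inf_le_right (le_inf l h.g.syl.le)).le ⟨x1, e⟩)

theorem vq (n : T ≤ normalizer (V : Set G)) (v1 : v ∈ V) (v2 : v ∈ normalizer (T : Set G)) (v3 : v ∉ K ⊔ T) :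
    ¬ V ⊓ T ≤ Op 2 (K ⊔ T) := fun e => h.nle z (by
  rw [← h.swap z v2 v3]
  rintro _ ⟨q, hq : q ∈ Op 2 (K ⊔ T), rfl⟩
  have a : v * q * v⁻¹ * q⁻¹ ∈ V ⊓ T := ⟨by
    simpa [mul_assoc] using mul_mem v1 (conj_mem_of_le_normalizer n (h.QT hq) (inv_mem v1)),
    mul_mem (conj_mem_of_le_normalizer le_rfl v2 (h.QT hq)) (T.inv_mem (h.QT hq))⟩
  exact (mul_mem_cancel_right (inv_mem hq)).1 (e a))

theorem noV (hS : IsPGroup 2 S) (l : T ≤ S) (n : T ≠ S) (u : IsElementaryAbelian 2 V) (l' : V ≤ S)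
    (nV : S ≤ normalizer (V : Set G)) : V ≤ OZ 2 T := by
  have a : V ≤ T := le_sup_left.trans (eq_of_norm_le (hS.to_le (sup_le l' l)) le_sup_right fun y hy => by_contra fun y1 => by
    obtain ⟨v, v1, t, t1, rfl⟩ := (mem_sup_of_le_normalizer' (l.trans nV)).1 hy.2
    have v2 := (mul_mem_cancel_right (le_normalizer t1)).1 hy.1
    have v3 : v ∉ T := fun e => y1 (mul_mem e t1)
    exact (h.two z (elem_of_le u inf_le_left) inf_le_right).elim (h.vq z (l.trans nV) v1 v2 (h.out hS l (l' v1) v3))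
      (h.symm.vq z (l.trans nV) v1 v2 (h.symm.out hS l (l' v1) v3))).ge
  obtain ⟨x, x1, x2⟩ := SetLike.exists_of_lt (lt_normalizer_of_nilpotent hS.isNilpotent (lt_of_le_of_ne l n))
  have e := mem_normalizer_iff_cj.1 (nV x1.2)
  refine le_trans ((h.two z u a).elim (fun b => le_inf b ?_) fun b => le_inf ?_ b) (h.QQ z)
  · exact e.ge.trans ((cj_mono x b).trans (h.swap z x1.1 (h.out hS l x1.2 x2)).le)
  · exact e.ge.trans ((cj_mono x b).trans (h.symm.swap z x1.1 (h.symm.out hS l x1.2 x2)).le)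

end Pr

theorem spe_of (hO : Op 2 (⊤ : Subgroup G) = ⊥) (t : IsTwoLocal L) (h : ∀ T, T ∉ straddlingTwoSubgroups L) :
    SPE 2 L ⊤ := by
  obtain ⟨U, b1, b2, rfl⟩ := t
  exact ⟨lt_top_iff_ne_top.2 fun e => b2 (eq_bot_iff.2 (hO ▸ le_Op le_top e.ge b1)), dvd_card_of_p_le le_normalizer b1 b2,
    fun A a1 a2 a3 => inf_le_right.trans (by_contra fun e => h A ⟨a2, a3, a1, _, ⟨A, a2, a3, rfl⟩, le_normalizer, e⟩)⟩

theorem Gd.conj (z : ZN G) (g : Gd T K L) (x1 : x ∈ normalizer (T : Set G)) (x2 : x ∉ L) :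
    ∃ K' L', Gd T K' L' ∧ L ≠ L' := ⟨_, _, mem_normalizer_iff_cj.1 x1 ▸ g.cj x, fun e =>
  x2 (ml_norm z g.ml (mem_normalizer_iff_cj.2 e.symm))⟩

theorem Gd.lowc (z : ZN G) (g : Gd T K L) (s : Syl 2 S ⊤) (h : T ≤ S) (n : T ≠ S) :
    T ≤ centralizer (OZ 2 (JE 2 T) : Set G) := (g.low z s h n).elim
  (fun a => a.1 ▸ h.trans (le_centralizer_iff.1 (OZ_le_centralizer _ _))) fun a =>
    a.1 ▸ le_centralizer_iff.1 (OZ_le_centralizer _ _)

theorem key (z : ZN G) (hO : Op 2 (⊤ : Subgroup G) = ⊥) (s : Syl 2 S ⊤) (t : IsTwoLocal L)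
    (n : normalizer (JE 2 S : Set G) ≤ L) (k : KL (JE 2 S) L K) : Mx L S := by
  have sl := s.mono ((normalizer_JE le_normalizer).trans n) le_top
  have ls := z.ls (z.cc t) sl
  have m : MJ L := ⟨S, s, n⟩
  obtain ⟨T, a⟩ : ∃ T, T ∈ straddlingTwoSubgroups L := by
    by_contra! c
    have e := spe_of hO t c
    obtain ⟨y, y1, y2⟩ := exists_orderOf_eq_of_dvd (dvd_card_of_isPGroup (Op_p 2 L) (z.cc t).ne)
    have : JE 2 S ≤ Op 2 L := JE_le_iff.2 fun A hA a ha => by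
      by_cases a1 : a = 1
      · exact a1 ▸ one_mem _
      obtain ⟨g, rfl⟩ := (SE.emb_iff.1 (emb_iff_spe.2 e)).conj_inv (SE.inv_iff_orderOf.2 y2)
        (SE.inv_iff_orderOf.2 (orderOf_eq_prime (hA.2.1.2 a ha) a1))
      exact conj_mem_of_le_normalizer (le_normalizer_Op 2 L) (e.mem_of_conj (mem_top g) y2 (Op_le _ _ y1)
        (sl.le (hA.1 ha))) y1
    exact k.1.not_norm ls.pJ (ls.fu.eq (Op_p 2 L) (Op_le _ _) this ▸ normalizer_JE (k.2.trans (le_normalizer_Op 2 L)))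
  obtain ⟨T, a⟩ := exists_mx a
  obtain ⟨y, y1, y2⟩ := sl.exists_cj_le a.p a.st.2.2.1
  have a := a.cj y1
  generalize cj y T = T at a y2
  refine (by_contra fun e => ?_ : T = S) ▸ a
  obtain ⟨K', b, c, d⟩ := a.exK' m z
  obtain ⟨L', g⟩ := a.gd z m b c d
  obtain ⟨x, -, x2, x3⟩ := g.exx z s y2 e
  obtain ⟨K'', L'', g', f⟩ := g.conj z x2 x3
  have w := (ls.lj.W_le k).trans (((g.pr z g' f (g.lowc z s y2 e)).1.noV z s.isP y2 e (VZ_elem ls.chp)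
    (ls.VQ.trans ((OZ_le _ _).trans sl.Op_le)) (sl.le.trans LS.nV)).trans (g.ZZ z le_rfl))
  have c4 := (ls.lj.jk k).c4
  have := card_le_card_of_le w
  rcases g.low z s y2 e with ⟨-, i⟩ | ⟨-, i, -, j⟩
  · omega
  rw [← eq_of_le_of_card_ge w (i.trans c4.symm).le] at j
  refine (ls.lj.jk k).W_ne (k.1.W_cent ▸ (inf_eq_left.2 (le_centralizer_iff.1 (k.1.ores.ge.trans (Ores_le_iff.2
    fun R r1 r2 x hx => ?_)))).symm)
  exact H1.mem_of_relIndex_two_pow (k := 1) (normalizer_centralizer le_rfl) j (norm_WW le_normalizer (r1 hx))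
    (r2.coprime_dvd_left (orderOf_dvd_card_of_mem hx))

theorem Gd.main (z : ZN G) (hO : Op 2 (⊤ : Subgroup G) = ⊥) (g : Gd T K L) (s : Syl 2 T ⊤) :
    (OZ 2 T = OZ 2 (JE 2 T) ∧ (Nat.card (OZ 2 (JE 2 T)) = 2 ∨ Nat.card (OZ 2 (JE 2 T)) = 4)) ∧
      ∃ K' L', Gd T K' L' ∧ L ≠ L' := by
  by_cases e : normalizer (OZ 2 (JE 2 T) : Set G) ≤ L
  · have n := (normalizer_OZ le_rfl).trans e
    have a := key z hO s g.ml.1 n g.kl
    obtain ⟨K', b, c, d⟩ := a.exK' ⟨T, s, n⟩ z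
    obtain ⟨L', g'⟩ := a.gd z ⟨T, s, n⟩ b c d
    have f : L ≠ L' := fun f => c (f ▸ g'.le)
    exact ⟨g.top2 z s g' f, K', L', g', f⟩
  obtain ⟨x, x1, x2⟩ := SetLike.not_le_iff_exists.1 e
  have a := g.top1 z s x1 x2
  refine ⟨a, g.conj z ?_ x2⟩
  rw [(s.mono (le_centralizer_iff.1 (OZ_le_centralizer _ _)) le_top).eq_Op (z.z T s)]
  exact normalizer_Op (normalizer_centralizer le_rfl) (a.1 ▸ x1)

theorem Gd.pair (z : ZN G) (hO : Op 2 (⊤ : Subgroup G) = ⊥) (g : Gd T K L) : ∃ K', Pr T K K' := by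
  obtain ⟨S, s, h⟩ := exists_syl_ge g.p le_top
  by_cases e : T = S
  · subst e
    obtain ⟨a, K', L', g', n⟩ := g.main z hO s
    exact ⟨K', (g.pr z g' n (a.1 ▸ le_centralizer_iff.1 (OZ_le_centralizer _ _))).1⟩
  · obtain ⟨x, -, x2, x3⟩ := g.exx z s h e
    obtain ⟨K', L', g', n⟩ := g.conj z x2 x3
    exact ⟨K', (g.pr z g' n (g.lowc z s h e)).1⟩

theorem Mx.pair (z : ZN G) (hO : Op 2 (⊤ : Subgroup G) = ⊥) (m : MJ M) (h : Mx M T) : ∃ K K', Pr T K K' :=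
  let ⟨K, a, b, c⟩ := h.exK' m z; let ⟨_, g⟩ := h.gd z m a b c; ⟨K, g.pair z hO⟩

end H9.JC
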