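import Cfsg.Agent.H9.JC5
import Cfsg.Agent.H9.LE1

/-!
H9.JC6: passage to `O²(G)` by transfer.
-/

set_option autoImplicit false

namespace H9.JC

open Cfsg Subgroup
open scoped commutatorElement

variable {G : Type*} [Group G] [Finite G] {K K' U V D A B C H J L L' M X Y P Q Q' R S T T' : Subgroup G} {d e v w x y : G}

omit [Finite G] in
theorem comm_two (i : R.relIndex T = 2) (n : S ≤ normalizer (T : Set G)) (n' : S ≤ normalizer (R : Set G)) :
    ⁅T, S⁆ ≤ R := commutator_le.2 fun t ht s hs => by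
  rw [commutatorElement_def, mul_assoc, mul_assoc, ← mul_assoc s]
  by_cases e : t ∈ R
  · exact mul_mem e (conj_mem_of_le_normalizer n' hs (inv_mem e))
  · exact Am.mul_mem_two i ht (conj_mem_of_le_normalizer n hs (inv_mem ht)) e fun f => e (by
      simpa [mul_assoc] using conj_mem_of_le_normalizer' n' hs f)

theorem ri_of (l : R ≤ T) {n : ℕ} (c : Nat.card T = n * Nat.card R) : R.relIndex T = n :=
  Nat.eq_of_mul_eq_mul_right Nat.card_pos ((relIndex_mul_card l).trans c)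

theorem s4_sub (i : P ≃* Multiplicative (ZMod 2) × Equiv.Perm (Fin 4)) : ∃ d ∈ Zc P, d ≠ 1 ∧ d * d = 1 ∧
    ∀ M ≤ P, d ∉ M → Nat.card M = 24 → Nonempty (M ≃* Equiv.Perm (Fin 4)) := by
  refine ⟨i.symm (Multiplicative.ofAdd 1, 1), ⟨Subtype.prop _, fun x hx => ?_⟩, fun e => ?_, ?_, fun M l n c => ?_⟩
  · refine congrArg Subtype.val (i.injective (a₁ := ⟨x, hx⟩ * _) (a₂ := _ * ⟨x, hx⟩) ?_)
    simp [Prod.ext_iff, mul_comm]
  · simpa [Prod.ext_iff] using congrArg i (Subtype.ext e : i.symm _ = 1)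
  · rw [← coe_mul, ← map_mul, show ((Multiplicative.ofAdd 1, 1) : Multiplicative (ZMod 2) × Equiv.Perm (Fin 4)) *
      (Multiplicative.ofAdd 1, 1) = 1 by decide, map_one, coe_one]
  · refine ⟨.ofBijective ((MonoidHom.snd _ _).comp (i.toMonoidHom.comp (inclusion l)))
      ((Nat.bijective_iff_injective_and_card _).2 ⟨(injective_iff_map_eq_one _).2 fun x hx => ?_, by
        rw [c, Nat.card_perm]; simp [Nat.factorial]⟩)⟩
    rcases (by decide : ∀ a : Multiplicative (ZMod 2), a = 1 ∨ a = Multiplicative.ofAdd 1) (i (inclusion l x)).1 with a | a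
    · exact inclusion_injective l (i.injective ((Prod.ext (y := 1) a hx).trans (by simp)))
    · rw [← show i (inclusion l x) = (Multiplicative.ofAdd 1, 1) from Prod.ext a hx, i.symm_apply_apply] at n
      exact (n x.2).elim

namespace Pr
variable (z : ZN G) (h : Pr T K K')
include h z

theorem nK : K ⊔ T ≤ normalizer (K : Set G) := sup_le le_normalizer (h.g.TK z h.c)
theorem nW : T ≤ normalizer (WW K : Set G) := norm_WW (h.g.TK z h.c)
theorem WQ : WW K ≤ Op 2 (K ⊔ T) :=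
  WW_le.trans ((OZ_le _ _).trans (SN.of_normal le_sup_left (h.nK z)).Op_le_Op)
theorem WT : WW K ≤ T := (h.WQ z).trans h.QT

theorem W_nle : ¬ WW K' ≤ Op 2 (K ⊔ T) := fun e => by
  have := h.g'.ZW
  rw [inf_eq_right.2 ((le_inf e (h.symm.WQ z)).trans ((h.QQ z).trans (h.g.ZZ z le_rfl))), h.g'.jk.c4] at this
  omega

theorem TW : T ≤ Op 2 (K ⊔ T) ⊔ WW K' :=
  let ⟨_, a, b⟩ := SetLike.not_le_iff_exists.1 (h.W_nle z)
  le_two (h.i2 z) h.QT le_sup_left (h.symm.WT z a) (mem_sup_right a) b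

theorem Qme : Op 2 (K ⊔ T) ∈ ME 2 T := ⟨h.QT, h.el, fun _ a b => (h.two z b a).elim card_le_card_of_le
  fun e => (card_le_card_of_le e).trans h.cQ.ge⟩

theorem JT : JE 2 T = T := le_antisymm (JE_le _ _) ((h.TQ z).trans (sup_le (le_JE (h.Qme z)) (le_JE (h.symm.Qme z))))

theorem swapW (x1 : x ∈ normalizer (T : Set G)) (x2 : x ∉ K ⊔ T) : cj x (WW K) = WW K' := by
  rw [cj_WW, ← h.g.jk.ores_sup h.g.p (h.g.TK z h.c), cj_Ores, ← h.nQ z, cj_normalizer, h.swap z x1 x2, h.symm.nQ z,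
    h.g'.jk.ores_sup h.g.p (h.g'.TK z h.c)]

theorem ml_sub (w : WW K ≤ H) (e : K ⊔ T ≤ (K ⊔ T) ⊓ H ⊔ Zc (K ⊔ T)) : IsMaximalTwoLocal ((K ⊔ T).subgroupOf H) := by
  have pW := elem_isP (md_WW (K := K)).el
  have nW := ml_eq h.g.ml pW h.g.jk.W_ne (norm_WW (h.nK z))
  refine ⟨⟨(WW K).subgroupOf H, pW.comap_subtype, fun f => h.g.jk.W_ne (by
    rw [← map_subgroupOf_eq_of_le w, f, Subgroup.map_bot]), by rw [← subgroupOf_normalizer_eq w, nW]⟩, ?_⟩
  rintro _ ⟨R, a, b, rfl⟩ c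
  have r : (R.map H.subtype).subgroupOf H = R := subgroupOf_map_subtype' ..
  have b' : R.map H.subtype ≠ ⊥ := fun f => b (by rw [← r, f, bot_subgroupOf])
  have a' := a.map H.subtype
  rw [← r, ← subgroupOf_normalizer_eq (map_subtype_le R)] at c ⊢
  generalize R.map H.subtype = R at a' b' c
  have c' : (K ⊔ T) ⊓ H ≤ normalizer (R : Set G) := fun x hx => c (show (⟨x, hx.2⟩ : H) ∈ _ from hx.1)
  have n := ml_eq h.g.ml (a'.to_le inf_le_left) (fun f => inf_centralizer_ne_bot_of_p a' pW ((le_inf ((h.WT z).trans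
    le_sup_right) w).trans c') b' (eq_bot_iff.2 (f ▸ inf_le_inf_left _ ((centralizer_le_normalizer' _).trans nW.le))))
    (e.trans (sup_le (normalizer_inf c' (inf_le_left.trans le_normalizer)) (inf_le_right.trans
      ((centralizer_anti inf_le_right).trans (centralizer_le_normalizer' _)))))
  rw [eq_of_norm_le a' inf_le_left (le_inf inf_le_right (inf_le_of_left_le n.le))] at n
  rw [n]

variable (q : Op 2 (K ⊔ T) ≤ WW K ⊔ Zc (K ⊔ T))
include q

theorem cW : ⁅WW K, WW K'⁆ = WW K ⊓ WW K' ∧ Nat.card (WW K ⊓ WW K' : Subgroup G) = 2 := by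
  have l := commutator_le_inf' ((h.WT z).trans (h.symm.nW z)) ((h.symm.WT z).trans (h.nW z))
  have n : ⁅WW K, WW K'⁆ ≠ ⊥ := fun e => h.W_nle z (le_trans (le_centralizer_iff.1 (q.trans (sup_le
    (le_centralizer_iff'.2 e) (inf_le_right.trans (centralizer_anti ((h.symm.WT z).trans le_sup_right)))))) (h.g.cc z).c)
  have c := H1.card_eq_p_of_lt (p := 2) h.g'.jk.c4 (inf_le_right : WW K ⊓ WW K' ≤ _) (fun e => n (eq_bot_iff.2 (e ▸ l)))
    fun e => h.W_nle z ((e.ge.trans inf_le_left).trans (h.WQ z))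
  exact ⟨(H1.bot_or_eq_of_prime (c ▸ Nat.prime_two) l).resolve_left n, c⟩

theorem cR : Nat.card (WW K ⊔ WW K' : Subgroup G) = 8 := by
  have := card_sup_mul_card_inf ((h.WT z).trans (h.symm.nW z))
  rw [(h.cW z q).2, h.g.jk.c4, h.g'.jk.c4] at this
  omega

omit q in
theorem RQ (c : Nat.card (WW K ⊔ WW K' : Subgroup G) = 8) (x1 : x ∈ WW K ⊔ WW K') (x2 : x ∈ centralizer (T : Set G)) :
    x ∈ WW K := by_contra fun e => h.W_nle z (le_sup_right.trans (le_two (ri_of le_sup_left (by rw [c, h.g.jk.c4]))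
  le_sup_left (h.WQ z) x1 ((h.g.cc z).c (centralizer_anti h.QT x2)) e))

theorem RZ (x1 : x ∈ WW K ⊔ WW K') (x2 : x ∈ centralizer (T : Set G)) : x ∈ WW K ⊓ WW K' :=
  ⟨h.RQ z (h.cR z q) x1 x2, h.symm.RQ z (sup_comm (WW K) _ ▸ h.cR z q) (sup_comm (WW K) _ ▸ x1) x2⟩

omit q
variable (c : Nat.card (Op 2 (K ⊔ T)) = 8) (d1 : d ∈ Zc (K ⊔ T)) (d2 : d ≠ 1) (d3 : d * d = 1)
include c d1 d2 d3

omit c d2 z h in
theorem dQ : d ∈ Op 2 (K ⊔ T) := le_Op (zpowers_le_of_mem d1.1) ((le_centralizer_iff.1 (zpowers_le_of_mem d1.2)).trans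
  (centralizer_le_normalizer' _)) (isPGroup_zpowers_of_pow (k := 1) ((sq d).trans d3)) (mem_zpowers d)

omit c d3 z in
theorem dW : d ∉ WW K := fun e => d2 (h.g.jk.W_cent.le ⟨e, centralizer_anti le_sup_left d1.2⟩)

theorem Qd : Op 2 (K ⊔ T) ≤ WW K ⊔ zpowers d := le_two (ri_of (h.WQ z) (by rw [c, h.g.jk.c4])) (h.WQ z) le_sup_left
  (dQ d1 d3) (mem_sup_right (mem_zpowers d)) (h.dW d1 d2)

theorem q8 : Op 2 (K ⊔ T) ≤ WW K ⊔ Zc (K ⊔ T) := (h.Qd z c d1 d2 d3).trans (sup_le_sup_left (zpowers_le_of_mem d1) _)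

theorem Td : T ≤ WW K ⊔ WW K' ⊔ zpowers d := (h.TW z).trans (sup_le ((h.Qd z c d1 d2 d3).trans
  (sup_le_sup_right le_sup_left _)) (le_sup_of_le_left le_sup_right))

theorem iR : (WW K ⊔ WW K').relIndex T = 2 := ri_of (sup_le (h.WT z) (h.symm.WT z)) (by
  rw [← relIndex_mul_card h.QT, h.i2 z, c, h.cR z (h.q8 z c d1 d2 d3)])

theorem dR : d ∉ WW K ⊔ WW K' := fun e => by
  simpa [h.iR z c d1 d2 d3] using relIndex_eq_one.2 ((h.Td z c d1 d2 d3).trans (sup_le le_rfl (zpowers_le_of_mem e)))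

omit c in
theorem dD : d ∈ DD T K := ⟨h.g.ZZ z le_rfl (mem_OZ.2 ⟨h.QT (dQ d1 d3), centralizer_anti le_sup_right d1.2, (sq d).trans d3⟩),
  (h.JT z).symm ▸ d1⟩

theorem sylS (s : Syl 2 S ⊤) (l : T ≤ S) : JE 2 S = T ∧ (T = S ∨ T.relIndex S = 2) := by
  by_cases n : T = S
  · exact ⟨n ▸ h.JT z, .inl n⟩
  obtain ⟨-, a⟩ | ⟨a, b, e, i⟩ := h.g.low z s l n
  · exact (h.dW d1 d2 ((eq_of_le_of_card_ge inf_le_left (a.trans h.g.ZW.symm).le).ge (h.dD z d1 d2 d3).1).2).elim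
  have e1 : centralizer (OZ 2 (JE 2 T) : Set G) = T := le_antisymm (fun y hy => by_contra fun f => h.g.nc h.c
    (a ▸ Am.le_of_prime le_sup_right (h.g.i3 z h.c ▸ Nat.prime_three) h.c (e hy) hy f)) h.c
  rw [e1] at i
  have lt := lt_normalizer_of_nilpotent s.isP.isNilpotent (lt_of_le_of_ne l n)
  obtain ⟨x, x1, x2⟩ := SetLike.exists_of_lt lt
  have n1 : normalizer (T : Set G) ⊓ S ≤ _ := inf_le_of_left_le (normalizer_OZ (p := 2) (normalizer_JE (p := 2) le_rfl))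
  rw [← le_antisymm n1 (le_two i (lt.le.trans n1) lt.le (n1 x1) x1 x2)] at i
  have j : JE 2 (normalizer (T : Set G) ⊓ S) = T := by
    refine (JE_eq_of_le (JE_le_iff.2 fun A hA a1 ha => by_contra fun a2 => a2 ?_) lt.le).symm.trans (h.JT z)
    have cA : cj a1 (A ⊓ T) = A ⊓ T := mem_normalizer_iff_cj.1 (le_normalizer_of_le_comm hA.2.1.1 le_rfl inf_le_left ha)
    have u : A ⊓ T ≤ OZ 2 (JE 2 T) := le_trans ((h.two z (elem_of_le hA.2.1 inf_le_left) inf_le_right).elim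
      (fun b => le_inf b (cA.ge.trans ((cj_mono a1 b).trans (h.swap z (hA.1 ha).1 (h.out s.isP l (hA.1 ha).2 a2)).le)))
      fun b => le_inf (cA.ge.trans ((cj_mono a1 b).trans (h.symm.swap z (hA.1 ha).1
        (h.symm.out s.isP l (hA.1 ha).2 a2)).le)) b) ((h.QQ z).trans a.le)
    have c1 := hA.2.2 _ (h.QT.trans lt.le) h.el
    have c2 := relIndex_mul_card_inf T A
    have c3 := Nat.mul_le_mul_right (Nat.card (T ⊓ A : Subgroup G)) ((relIndex_le_of_le_right (H := T) hA.1 ri_ne).trans i.le)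
    rw [inf_comm] at c2 c3
    rw [← e1, ← eq_of_le_of_card_ge u (by omega)]
    exact le_centralizer_of_le_comm hA.2.1.1 le_rfl inf_le_left ha
  have := eq_of_norm_le s.isP inf_le_right (inf_le_inf_right _ (j ▸ normalizer_JE le_rfl))
  exact ⟨this ▸ j, .inr (this ▸ i)⟩

theorem noinv (s : IsPGroup 2 S) (l : T ≤ S) (e1 : e ∈ S) (e2 : e ∉ T) (e3 : e ∈ normalizer (T : Set G))
    (e4 : e * e = 1) (r : x ∈ WW K ⊔ WW K') : x * (e * d) * (x * (e * d)) ≠ 1 := fun f => by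
  have q := h.q8 z c d1 d2 d3
  have w1 := h.swapW z e3 (h.out s l e1 e2)
  have w2 := h.symm.swapW z e3 (h.symm.out s l e1 e2)
  have dT := h.QT (dQ d1 d3)
  have dc : d ∈ centralizer (T : Set G) := centralizer_anti le_sup_right d1.2
  have ee : e⁻¹ = e := inv_eq_of_mul_eq_one_right e4
  have nR : e ∈ normalizer ((WW K ⊔ WW K' : Subgroup G) : Set G) := mem_normalizer_iff_cj.2 (by rw [cj_sup, w1, w2, sup_comm])
  have nZ : e ∈ normalizer ((WW K ⊓ WW K' : Subgroup G) : Set G) := mem_normalizer_iff_cj.2 (by rw [cj_inf, w1, w2, inf_comm])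
  have δ : d * (e * d * e⁻¹) ∈ WW K ⊓ WW K' := h.RZ z q (by
    simpa [commutatorElement_def, mul_assoc, inv_eq_of_mul_eq_one_right d3] using comm_two (h.iR z c d1 d2 d3)
      (zpowers_le_of_mem e3) (zpowers_le_of_mem nR) (commutator_mem_commutator dT (mem_zpowers e)))
    (mul_mem dc (conj_mem_of_le_normalizer (normalizer_centralizer le_rfl) e3 dc))
  obtain ⟨a, a1, b, b1, rfl⟩ := (mem_sup_of_le_normalizer ((h.WT z).trans (h.symm.nW z))).1 r
  have a2 : e * a * e⁻¹ ∈ WW K' := w1 ▸ conj_mem_cj a1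
  have b2 : e * b * e⁻¹ ∈ WW K := w2 ▸ conj_mem_cj b1
  have f1 : a * (b * (e * a * e⁻¹)) * (e * b * e⁻¹) * (d * (e * d * e⁻¹)) = 1 := by
    have g1 := dc _ (mul_mem (h.WT z a1) (h.symm.WT z b1))
    have g2 := dc _ (conj_mem_of_le_normalizer le_rfl e3 dT)
    calc _ = a * b * e * (a * b * d) * e⁻¹ * d := by rw [← g2]; group
      _ = _ := by rw [g1, ← f, ee]; group
  have c1 : b * (e * a * e⁻¹) ∈ WW K ⊓ WW K' := ⟨(mul_mem_cancel_left a1).1 ((mul_mem_cancel_right b2).1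
    ((mul_mem_cancel_right (mem_inf.1 δ).1).1 (f1 ▸ one_mem _))), mul_mem b1 a2⟩
  have c2 := Am.cent_of_two (h.cW z q).2 (zpowers_le_of_mem nZ) (mem_zpowers e) _ c1
  have cm := fun x y hx hy => (md_WW (K := K)).el.1.is_comm.comm ⟨x, hx⟩ ⟨y, hy⟩
  have c3 : e * b * e⁻¹ * a = b * (e * a * e⁻¹) := by
    rw [← mul_left_inj e, c2, ee]
    calc _ = e * b * e * a * e := by group
      _ = e * (b * (e * a * e)) := by group
  have c4 : a * (e * b * e⁻¹) = e * b * e⁻¹ * a := congrArg Subtype.val (cm _ _ a1 b2)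
  have c5 : a * (b * (e * a * e⁻¹)) = b * (e * a * e⁻¹) * a := congrArg Subtype.val (cm _ _ a1 c1.1)
  rw [c5, mul_assoc _ a, c4, c3, ← sq, (md_WW (K := K)).el.2 _ c1.1, one_mul] at f1
  refine h.out s l e1 e2 (h.g.mem_c (h.dD z d1 d2 d3) d2 (y := 1) ?_ (one_mem _))
  simpa using mul_left_cancel (f1.trans d3.symm)

theorem notH : d ∉ Ores 2 (⊤ : Subgroup G) := fun hd => by
  obtain ⟨S, s, l⟩ := exists_syl_ge h.g.p le_top
  obtain ⟨j, i⟩ := h.sylS z c d1 d2 d3 s l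
  have q := h.q8 z c d1 d2 d3
  have iR := h.iR z c d1 d2 d3
  have dR := h.dR z c d1 d2 d3
  have dT := h.QT (dQ d1 d3)
  have dc : d ∈ centralizer (T : Set G) := centralizer_anti le_sup_right d1.2
  have RT := sup_le (h.WT z) (h.symm.WT z)
  have nT : S ≤ normalizer (T : Set G) := j ▸ normalizer_JE le_normalizer
  have nR : S ≤ normalizer ((WW K ⊔ WW K' : Subgroup G) : Set G) := fun x hx => by
    by_cases e : x ∈ T
    · exact normalizer_sup (h.nW z) (h.symm.nW z) e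
    · exact mem_normalizer_iff_cj.2 (by rw [cj_sup, h.swapW z (nT hx) (h.out s.isP l hx e),
        h.symm.swapW z (nT hx) (h.symm.out s.isP l hx e), sup_comm])
  have cT := comm_two iR nT nR
  have cS : ⁅S, S⁆ ≤ WW K ⊔ WW K' := by
    refine i.elim (fun e => e ▸ e ▸ cT) fun i => ?_
    obtain ⟨x, x1, x2⟩ := SetLike.not_le_iff_exists.1 (fun e => by simpa [i] using relIndex_eq_one.2 e : ¬ S ≤ T)
    have x3 := zpowers_le_of_mem x1
    have e := le_two i l (le_sup_left : T ≤ T ⊔ zpowers x) x1 (mem_sup_right (mem_zpowers x)) x2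
    exact (commutator_mono e le_rfl).trans (commutator_sup_le (l.trans nR) (x3.trans nR) cT ((commutator_mono le_rfl e).trans
      (commutator_sup_le' (l.trans nR) (x3.trans nR) (commutator_comm T _ ▸ (commutator_mono le_rfl x3).trans cT)
        ((le_centralizer_iff'.1 (le_centralizer _)).trans_le bot_le))))
  have sq' : ∀ g : G, g * d * g⁻¹ * (g * d * g⁻¹) = 1 := fun g => by rw [conj_mul, d3, mul_one, mul_inv_cancel]
  obtain ⟨g, g1, g2⟩ : ∃ g, g * d * g⁻¹ ∈ WW K ⊔ WW K' ∧ cj g T ≤ S := by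
    have o : d ∈ pResidual 2 G ⊔ commutator G := mem_sup_left ((Ores_top (G := G) 2).le hd)
    have t := le_centralizer_singleton_iff.2 dc
    by_cases k : ∀ e ∈ S, e * e = 1 → e ∈ T
    · exact thompson_extremal s (RT.trans l) cS d3 (l dT) dR (fun g a b => Am.mul_mem_two iR (k _ a (sq' g)) dT b dR) o h.g.p t
    push Not at k
    obtain ⟨e, e1, e2, e3⟩ := k
    have y1 := mul_mem e1 (l dT)
    have y2 : (e * d) ^ 2 ∈ WW K ⊔ WW K' := by
      simpa [commutatorElement_def, mul_assoc, inv_eq_of_mul_eq_one_right d3, inv_eq_of_mul_eq_one_right e2, sq] using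
        cS (commutator_mem_commutator e1 (l dT))
    have y3 : e * d ∉ T := fun f => e3 ((mul_mem_cancel_right dT).1 f)
    have m := fun x => H1.mem_sup_zpowers_of_sq (x := x) (nR y1) y2
    have u : WW K ⊔ WW K' ⊔ zpowers (e * d) ≤ S := sup_le (RT.trans l) (zpowers_le_of_mem y1)
    have dU : d ∉ WW K ⊔ WW K' ⊔ zpowers (e * d) := fun f => ((m d).1 f).elim dR fun f =>
      y3 (inv_mem_iff.1 ((mul_mem_cancel_left dT).1 (RT f)))
    have iU := relIndex_mul_relIndex _ _ _ le_sup_left u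
    rw [H1.relIndex_sup_zpowers_two (nR y1) y2 fun f => y3 (RT f), ← relIndex_mul_relIndex _ _ _ RT l, iR,
      i.resolve_left fun f => e3 (f ▸ e1)] at iU
    obtain ⟨g, g1, g2⟩ := thompson_extremal s u (cS.trans le_sup_left) d3 (l dT) dU
      (fun g a b => Am.mul_mem_two (by omega) a (l dT) b dU) o h.g.p t
    refine ⟨g, ((m _).1 g1).resolve_right fun f => h.noinv z c d1 d2 d3 s.isP l e1 e3 (nT e1) e2 f ?_, g2⟩
    rw [inv_mul_cancel_right, sq']
  have g3 := mem_normalizer_iff_cj.2 ((Fu.eq' ⟨S, s, j⟩ s g2).symm.trans j)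
  have g4 := commutator_mono (h.WT z) (h.symm.WT z) ((h.cW z q).1.ge (h.RZ z q g1
    (conj_mem_of_le_normalizer (normalizer_centralizer le_rfl) g3 dc)))
  exact dR ((commutator_mono l l).trans cS (by
    simpa [mul_assoc] using conj_mem_of_le_normalizer' (normalizer_commutator le_rfl le_rfl) g3 g4))

omit c d1 d2 d3 in
theorem fin : T ⊓ Ores 2 ⊤ = WW K ⊔ WW K' ∧ Nat.card (WW K ⊔ WW K' : Subgroup G) = 8 ∧
    IsMaximalTwoLocal ((K ⊔ T).subgroupOf (Ores 2 ⊤)) ∧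
    Nonempty (((K ⊔ T) ⊓ Ores 2 ⊤ : Subgroup G) ≃* Equiv.Perm (Fin 4)) := by
  have k : ∀ {K K'}, Pr T K K' → K ≤ Ores 2 ⊤ := fun h => h.g.jk.ores.ge.trans (Ores_mono le_top)
  have w : ∀ {K K'}, Pr T K K' → WW K ≤ Ores 2 ⊤ := fun h => WW_le.trans ((OZ_le _ _).trans ((Op_le _ _).trans (k h)))
  have r := le_inf (sup_le (h.WT z) (h.symm.WT z)) (sup_le (w h) (w h.symm))
  obtain ⟨c, -, i, -⟩ | ⟨c, -, ⟨i⟩, -⟩ := h.iso
  · have q := (eq_of_le_of_card_ge (h.WQ z) (c.trans h.g.jk.c4.symm).le).ge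
    have t := (h.TW z).trans (sup_le_sup_right q _)
    have e := inf_eq_left.2 (sup_le (k h) (t.trans (r.trans inf_le_right)))
    exact ⟨le_antisymm (inf_le_of_left_le t) r, h.cR z (q.trans le_sup_left), h.ml_sub z (w h) (e.ge.trans le_sup_left),
      e.symm ▸ i⟩
  obtain ⟨d, d1, d2, d3, d4⟩ := s4_sub i
  have n := h.notH z c d1 d2 d3
  have t : T ⊓ Ores 2 ⊤ = WW K ⊔ WW K' := le_antisymm (fun x hx => by_contra fun e => n (le_two (h.iR z c d1 d2 d3)
    (r.trans inf_le_left) (r.trans inf_le_right) hx.1 hx.2 e (h.QT (dQ d1 d3)))) r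
  have c8 := h.cR z (h.q8 z c d1 d2 d3)
  refine ⟨t, c8, h.ml_sub z (w h) (sup_le (le_sup_of_le_left (le_inf le_sup_left (k h))) ((h.Td z c d1 d2 d3).trans
    (sup_le_sup (r.trans (inf_le_inf_right _ le_sup_right)) (zpowers_le_of_mem d1)))), d4 _ inf_le_left (fun e => n e.2) ?_⟩
  have n := h.g.TK z h.c
  have a := card_sup_mul_card_inf ((inf_le_left : T ⊓ Ores 2 ⊤ ≤ T).trans n)
  have b := card_sup_mul_card_inf n
  rw [sup_comm, ← relIndex_mul_card (le_sup_right : T ≤ K ⊔ T), h.g.i3 z h.c, mul_right_comm, mul_comm (Nat.card T)] at b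
  rw [inf_right_comm, inf_eq_left.2 (inf_le_of_right_le (k h)), ← Nat.eq_of_mul_eq_mul_right Nat.card_pos b, t, c8,
    ← mul_assoc] at a
  rw [dedekind (k h) (.inr n), t, sup_comm]
  exact Nat.eq_of_mul_eq_mul_right Nat.card_pos a

end Pr

end H9.JC
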