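import Mathlib

/-!
H9.ONS: the core of the O'Nan-Scott theorem.
-/

set_option autoImplicit false

namespace H9.ONS

open Subgroup

variable {T : Type*} [Group T] [IsSimpleGroup T] {m : ℕ}

theorem ex_nc (hT : ¬ IsMulCommutative T) : ∃ a b : T, a * b ≠ b * a := by
  by_contra h
  push Not at h
  exact hT ⟨⟨h⟩⟩

theorem aut_form (hT : ¬ IsMulCommutative T) (ψ : MulAut (Fin m → T)) :
    ∃ (ρ : Equiv.Perm (Fin m)) (θ : Fin m → T ≃* T), ∀ x j, ψ x j = θ j (x (ρ j)) := by
  classical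
  obtain ⟨a, b, hab⟩ := ex_nc hT
  have ha : a ≠ 1 := by rintro rfl; simp at hab
  have key : ∀ j, ∃ (i : Fin m) (θ : T ≃* T), ∀ x, ψ x j = θ (x i) := by
    intro j
    let f : (Fin m → T) →* T := (Pi.evalMonoidHom (fun _ => T) j).comp ψ.toMonoidHom
    have hf : Function.Surjective f := fun t => by
      obtain ⟨x, hx⟩ := ψ.surjective (Pi.mulSingle j t)
      exact ⟨x, by show ψ x j = t; rw [hx, Pi.mulSingle_eq_same]⟩
    let g : Fin m → T →* T := fun i => f.comp (MonoidHom.mulSingle (fun _ => T) i)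
    have hg : ∀ i, (g i).range = ⊥ ∨ (g i).range = ⊤ := fun i => by
      refine Subgroup.Normal.eq_bot_or_eq_top ⟨?_⟩
      rintro _ ⟨t, rfl⟩ u
      obtain ⟨x, rfl⟩ := hf u
      refine ⟨x i * t * (x i)⁻¹, ?_⟩
      show f (Pi.mulSingle i _) = f x * f (Pi.mulSingle i t) * (f x)⁻¹
      rw [← map_mul, ← map_inv, ← map_mul]
      congr 1
      ext l
      by_cases hl : l = i
      · subst hl; simp
      · simp [Pi.mulSingle_eq_of_ne hl]
    have hex : ∃ i, (g i).range = ⊤ := by
      by_contra hc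
      push Not at hc
      have : f = 1 := MonoidHom.pi_ext fun i t => by
        have h1 : g i t ∈ (g i).range := ⟨t, rfl⟩
        rw [(hg i).resolve_right (hc i), mem_bot] at h1
        exact h1
      obtain ⟨x, hx⟩ := hf a
      rw [this] at hx
      exact ha hx.symm
    obtain ⟨i, hi⟩ := hex
    have hsur : Function.Surjective (g i) := MonoidHom.range_eq_top.mp hi
    have hinj : Function.Injective (g i) := by
      rw [← MonoidHom.ker_eq_bot_iff]
      refine (g i).normal_ker.eq_bot_or_eq_top.resolve_right fun h => ?_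
      obtain ⟨t, ht⟩ := hsur a
      have : t ∈ (g i).ker := h ▸ mem_top t
      exact ha (ht.symm.trans this)
    refine ⟨i, MulEquiv.ofBijective (g i) ⟨hinj, hsur⟩, fun x => ?_⟩
    have : f = (g i).comp (Pi.evalMonoidHom (fun _ => T) i) := MonoidHom.pi_ext fun l t => by
      show f (Pi.mulSingle l t) = g i (Pi.mulSingle (M := fun _ => T) l t i)
      by_cases hl : i = l
      · subst hl; rw [Pi.mulSingle_eq_same]; rfl
      · rw [Pi.mulSingle_eq_of_ne hl, map_one]
        rcases hg l with h | h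
        · have h1 : g l t ∈ (g l).range := ⟨t, rfl⟩
          rw [h, mem_bot] at h1
          exact h1
        · exfalso
          obtain ⟨s, hs⟩ := hsur a
          obtain ⟨u, hu⟩ := MonoidHom.range_eq_top.mp h b
          apply hab
          rw [← hs, ← hu]
          exact ((Pi.mulSingle_commute (f := fun _ => T) hl s u).map f).eq
    exact DFunLike.congr_fun this x
  choose ρ θ h using key
  have hs : Function.Surjective ρ := fun i => by
    by_contra hc
    push Not at hc
    have : ψ (Pi.mulSingle i a) = 1 := by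
      ext j
      rw [h, Pi.mulSingle_eq_of_ne (hc j), map_one]; rfl
    rw [MulEquiv.map_eq_one_iff] at this
    have := congrFun this i
    rw [Pi.mulSingle_eq_same] at this
    exact ha this
  exact ⟨Equiv.ofBijective ρ (Finite.surjective_iff_bijective.mp hs), θ, fun x j => h j x⟩

/-- projection of a subgroup -/
def pr (R : Subgroup (Fin m → T)) (i : Fin m) : R →* T := (Pi.evalMonoidHom (fun _ => T) i).comp R.subtype

theorem scott (hT : ¬ IsMulCommutative T) (R : Subgroup (Fin m → T)) (hs : ∀ i, Function.Surjective (pr R i))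
    (hd : ∀ i j, (pr R i).ker = (pr R j).ker → i = j) : R = ⊤ := by
  classical
  have hle : ∀ i j, (pr R j).ker ≤ (pr R i).ker → (pr R i).ker ≤ (pr R j).ker := fun i j h => by
    rcases ((pr R i).normal_ker.map _ (hs j)).eq_bot_or_eq_top with h1 | h1
    · exact (Subgroup.map_eq_bot_iff _).mp h1
    · exfalso
      obtain ⟨t, ht⟩ := exists_ne (1 : T)
      obtain ⟨r, rfl⟩ := hs i t
      obtain ⟨u, hu, e⟩ : pr R j r ∈ (pr R i).ker.map (pr R j) := h1 ▸ mem_top _
      have h2 : r * u⁻¹ ∈ (pr R i).ker := h (by rw [MonoidHom.mem_ker, map_mul, map_inv, e, mul_inv_cancel])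
      exact ht (by simpa using (pr R i).ker.mul_mem h2 hu)
  have hper : ⁅(⊤ : Subgroup T), (⊤ : Subgroup T)⁆ = ⊤ := by
    refine (Subgroup.commutator_normal ⊤ ⊤).eq_bot_or_eq_top.resolve_left fun h => hT ⟨⟨fun a b => ?_⟩⟩
    have := Subgroup.commutator_mem_commutator (mem_top a) (mem_top b)
    rw [h, mem_bot] at this
    exact commutatorElement_eq_one_iff_mul_comm.mp this
  have hind : ∀ i (J : Finset (Fin m)), i ∉ J → ∃ A : Subgroup R, A.Normal ∧ A.map (pr R i) = ⊤ ∧
      ∀ j ∈ J, A ≤ (pr R j).ker := by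
    intro i J
    induction J using Finset.induction_on with
    | empty => exact fun _ => ⟨⊤, inferInstance, Subgroup.map_top_of_surjective _ (hs i), by simp⟩
    | insert j J _ ih =>
      intro hi
      rw [Finset.mem_insert, not_or] at hi
      obtain ⟨A, hA, h1, h2⟩ := ih hi.2
      have h3 : (pr R j).ker.map (pr R i) = ⊤ := by
        refine ((pr R j).normal_ker.map _ (hs i)).eq_bot_or_eq_top.resolve_left fun h => hi.1 ?_
        have h4 := (Subgroup.map_eq_bot_iff _).mp h
        exact hd i j (le_antisymm (hle i j h4) h4)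
      refine ⟨⁅A, (pr R j).ker⁆, inferInstance, by rw [Subgroup.map_commutator, h1, h3, hper], fun l hl => ?_⟩
      rcases Finset.mem_insert.mp hl with rfl | hl
      · exact Subgroup.commutator_le_right _ _
      · exact (Subgroup.commutator_le_left _ _).trans (h2 l hl)
  have hsingle : ∀ i t, Pi.mulSingle i t ∈ R := fun i t => by
    obtain ⟨A, -, h1, h2⟩ := hind i (Finset.univ.erase i) (Finset.notMem_erase _ _)
    obtain ⟨r, hr, e⟩ : t ∈ A.map (pr R i) := h1 ▸ mem_top _
    have : Pi.mulSingle i t = (r : Fin m → T) := by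
      ext l
      by_cases hl : l = i
      · subst hl; rw [Pi.mulSingle_eq_same]; exact e.symm
      · rw [Pi.mulSingle_eq_of_ne hl]
        exact (h2 l (Finset.mem_erase.mpr ⟨hl, Finset.mem_univ _⟩) hr).symm
    rw [this]; exact r.2
  refine eq_top_iff.mpr fun x _ => ?_
  rw [← Finset.noncommProd_mulSingle x]
  exact Subgroup.noncommProd_mem _ _ fun i _ => hsingle i _

theorem core (hT : ¬ IsMulCommutative T) {K : Type*} (ψ : K → MulAut (Fin m → T)) (R : Subgroup (Fin m → T))
    (hR : R ≠ ⊤) (inv : ∀ k, ∀ x, ψ k x ∈ R ↔ x ∈ R)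
    (max : ∀ S : Subgroup (Fin m → T), R ≤ S → (∀ k, ∀ x ∈ S, ψ k x ∈ S) → S = R ∨ S = ⊤)
    (tr : ∀ i j, ∃ k, ∀ x : Fin m → T, x i = 1 → ψ k x j = 1) :
    (∃ L : Fin m → Subgroup T, (∀ i, L i ≠ ⊤) ∧ ∀ x, x ∈ R ↔ ∀ i, x i ∈ L i) ∨
    ∃ (β : Fin m → T ≃* T) (k : ℕ) (c : Fin m → Fin m), 2 ≤ k ∧
      (∀ j : Fin m, Nat.card {i : Fin m // c i = j} = k ∨ Nat.card {i : Fin m // c i = j} = 0) ∧
      ∀ x, x ∈ R ↔ ∀ i j, c i = c j → β i (x i) = β j (x j) := by
  classical
  choose ρ θ hψ using fun k => aut_form hT (ψ k)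
  obtain ⟨a, ha⟩ := exists_ne (1 : T)
  have tr' : ∀ i j, ∃ k, ρ k j = i := fun i j => by
    obtain ⟨k, hk⟩ := tr i j
    refine ⟨k, by_contra fun h => ?_⟩
    have := hk (Pi.mulSingle (ρ k j) a) (Pi.mulSingle_eq_of_ne (Ne.symm h) _)
    rw [hψ, Pi.mulSingle_eq_same, MulEquiv.map_eq_one_iff] at this
    exact ha this
  by_cases hs : ∀ i, Function.Surjective (pr R i)
  swap
  · left
    push Not at hs
    obtain ⟨i0, hi0⟩ := hs
    have hmap : ∀ k j t, t ∈ (pr R (ρ k j)).range → θ k j t ∈ (pr R j).range := by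
      rintro k j _ ⟨r, rfl⟩
      exact ⟨⟨ψ k r, (inv k r).mpr r.2⟩, hψ k r j⟩
    have hne : ∀ i, (pr R i).range ≠ ⊤ := fun i h => hi0 fun t => by
      obtain ⟨k, rfl⟩ := tr' i i0
      obtain ⟨u, rfl⟩ := (θ k i0).surjective t
      exact hmap k i0 u (h ▸ mem_top u)
    refine ⟨fun i => (pr R i).range, hne, fun x => ⟨fun hx i => ⟨⟨x, hx⟩, rfl⟩, fun hx => ?_⟩⟩
    rcases max (Subgroup.pi Set.univ fun i => (pr R i).range) (fun y hy i _ => ⟨⟨y, hy⟩, rfl⟩)
      (fun k y hy j _ => by rw [hψ]; exact hmap k j _ (hy _ trivial)) with h | h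
    · rw [← h]; exact fun i _ => hx i
    · refine absurd (eq_top_iff.mpr fun t _ => ?_) (hne i0)
      have : (fun _ => t) ∈ Subgroup.pi Set.univ fun i => (pr R i).range := h ▸ mem_top _
      exact this i0 trivial
  right
  let st : Setoid (Fin m) := Setoid.ker fun i => (pr R i).ker
  let c : Fin m → Fin m := fun i => (Quotient.mk st i).out
  have hc1 : ∀ i, (pr R (c i)).ker = (pr R i).ker := fun i => Quotient.mk_out (s := st) i
  have hc2 : ∀ i j, c i = c j ↔ (pr R i).ker = (pr R j).ker := fun i j =>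
    ⟨fun h => by rw [← hc1 i, h, hc1], fun h => congrArg Quotient.out (Quotient.sound (s := st) h)⟩
  have hβ : ∀ i, ∃ β : T ≃* T, ∀ r : R, β (pr R i r) = pr R (c i) r := fun i =>
    ⟨(QuotientGroup.quotientKerEquivOfSurjective _ (hs i)).symm.trans
      ((QuotientGroup.quotientMulEquivOfEq (hc1 i).symm).trans
        (QuotientGroup.quotientKerEquivOfSurjective _ (hs (c i)))), fun r => by
      have : (QuotientGroup.quotientKerEquivOfSurjective _ (hs i)).symm (pr R i r) = (r : R ⧸ (pr R i).ker) :=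
        (MulEquiv.symm_apply_eq _).mpr rfl
      rw [MulEquiv.trans_apply, this]; rfl⟩
  choose β hβ using hβ
  have hker : ∀ k i j, (pr R i).ker = (pr R j).ker ↔ (pr R (ρ k i)).ker = (pr R (ρ k j)).ker := by
    intro k i j
    have h1 : ∀ (r : R) l, pr R (ρ k l) r = 1 ↔ pr R l ⟨ψ k r, (inv k r).mpr r.2⟩ = 1 := fun r l => by
      show _ ↔ ψ k r l = 1
      rw [hψ, MulEquiv.map_eq_one_iff]; rfl
    constructor
    · intro h
      ext r
      rw [MonoidHom.mem_ker, MonoidHom.mem_ker, h1, h1, ← MonoidHom.mem_ker, h, MonoidHom.mem_ker]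
    · intro h
      ext ⟨r, hr⟩
      obtain ⟨r, rfl⟩ := (ψ k).surjective r
      rw [MonoidHom.mem_ker, MonoidHom.mem_ker, ← h1 ⟨r, (inv k r).mp hr⟩, ← h1 ⟨r, (inv k r).mp hr⟩,
        ← MonoidHom.mem_ker, h, MonoidHom.mem_ker]
  have hex : ∃ i j, (pr R i).ker = (pr R j).ker ∧ i ≠ j := by
    by_contra h
    push Not at h
    exact hR (scott hT R hs h)
  obtain ⟨i0, j0, h0, hne⟩ := hex
  let S : Subgroup (Fin m → T) :=
    { carrier := {x | ∀ i j, (pr R i).ker = (pr R j).ker → ∃ r ∈ R, r i = x i ∧ r j = x j}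
      one_mem' := fun i j _ => ⟨1, R.one_mem, rfl, rfl⟩
      mul_mem' := fun {x y} hx hy i j h => by
        obtain ⟨r, hr, e1, e2⟩ := hx i j h
        obtain ⟨s, hs, f1, f2⟩ := hy i j h
        exact ⟨r * s, R.mul_mem hr hs, by simp [e1, f1], by simp [e2, f2]⟩
      inv_mem' := fun {x} hx i j h => by
        obtain ⟨r, hr, e1, e2⟩ := hx i j h
        exact ⟨r⁻¹, R.inv_mem hr, by simp [e1], by simp [e2]⟩ }
  have hS : S = R := by
    refine (max S (fun x hx i j _ => ⟨x, hx, rfl, rfl⟩) fun k x hx i j h => ?_).resolve_right fun h => ?_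
    · obtain ⟨r, hr, e1, e2⟩ := hx _ _ ((hker k i j).mp h)
      exact ⟨ψ k r, (inv k r).mpr hr, by rw [hψ, hψ, e1], by rw [hψ, hψ, e2]⟩
    · have : Pi.mulSingle i0 a ∈ S := h ▸ mem_top _
      obtain ⟨r, hr, e1, e2⟩ := this i0 j0 h0
      rw [Pi.mulSingle_eq_same] at e1
      rw [Pi.mulSingle_eq_of_ne hne.symm] at e2
      have h3 : (⟨r, hr⟩ : R) ∈ (pr R j0).ker := e2
      rw [← h0] at h3
      exact ha (e1.symm.trans h3)
  refine ⟨β, Nat.card {i // c i = c i0}, c, ?_, fun j => ?_, fun x => ⟨fun hx i j h => ?_, fun hx => ?_⟩⟩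
  · have : Nontrivial {i // c i = c i0} :=
      ⟨⟨i0, rfl⟩, ⟨j0, (hc2 _ _).mpr h0.symm⟩, fun h => hne (congrArg Subtype.val h)⟩
    exact Finite.one_lt_card
  · by_cases hj : ∃ i, c i = j
    · left
      obtain ⟨i, rfl⟩ := hj
      obtain ⟨k, rfl⟩ := tr' i i0
      exact (Nat.card_congr ((ρ k).subtypeEquiv fun l => by rw [hc2, hc2]; exact hker k l i0)).symm
    · right
      have : IsEmpty {i // c i = j} := ⟨fun i => hj ⟨i, i.2⟩⟩
      exact Nat.card_of_isEmpty
  · have h1 := hβ i ⟨x, hx⟩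
    have h2 := hβ j ⟨x, hx⟩
    rw [← h] at h2
    exact h1.trans h2.symm
  · rw [← hS]
    intro i j h
    have h3 := (hc2 i j).mpr h
    obtain ⟨r, hr⟩ := hs (c i) (β i (x i))
    refine ⟨r, r.2, (β i).injective ((hβ i r).trans hr), (β j).injective ((hβ j r).trans ?_)⟩
    rw [← h3, hr, hx i j h3]

end H9.ONS
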