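import Cfsg.Agent.H9.CS
import Cfsg.Agent.H9.MS4
import Cfsg.Agent.H9.LE1
import Cfsg.Agent.H1.CS
import Cfsg.Agent.H1.Misc2
import Cfsg.Agent.FT.Final

/-!
H9.RE: real `p`-elements are detected in the normalizer of `Z(J(S))`.
-/

set_option autoImplicit false
set_option linter.unusedSectionVars false

namespace H9

open Subgroup Cfsg Module
open scoped commutatorElement

universe u

theorem trace_central {R : Type*} [Ring R] {Γ : Type*} [Group Γ] (ρ : Γ →* R) {a b : Γ}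
    (ha : (ρ a - 1) * (ρ a - 1) = 0) (hb : (ρ b - 1) * (ρ b - 1) = 0) {g : Γ} (hg : g ∈ closure {a, b}) :
    Commute (ρ g + ρ g⁻¹) (ρ a) := by
  have inv : ∀ x, (ρ x - 1) * (ρ x - 1) = 0 → ρ x⁻¹ = 1 + (-1 : ℤ) • (ρ x - 1) := fun x hx =>
    left_inv_eq_right_inv (by rw [← map_mul, inv_mul_cancel, map_one]) (by
      rw [show ρ x * (1 + (-1 : ℤ) • (ρ x - 1)) = 1 - (ρ x - 1) * (ρ x - 1) by noncomm_ring, hx, sub_zero])
  have ia := inv a ha
  have ib := inv b hb
  have ea : ρ a = 1 + (1 : ℤ) • (ρ a - 1) := by simp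
  have eb : ρ b = 1 + (1 : ℤ) • (ρ b - 1) := by simp
  generalize ρ a - 1 = α at *
  generalize ρ b - 1 = β at *
  let C : R → Prop := fun c => Commute α c ∧ Commute β c
  have hτ : C (α * β + β * α) := ⟨by
    rw [Commute, SemiconjBy, mul_add, add_mul, ← mul_assoc, ha, mul_assoc β α α, ha]; noncomm_ring, by
    rw [Commute, SemiconjBy, mul_add, add_mul, ← mul_assoc β β, hb, mul_assoc α β β, hb]; noncomm_ring⟩
  have add : ∀ {c d}, C c → C d → C (c + d) := fun h k => ⟨h.1.add_right k.1, h.2.add_right k.2⟩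
  have mul : ∀ {c d}, C c → C d → C (c * d) := fun h k => ⟨h.1.mul_right k.1, h.2.mul_right k.2⟩
  have sm : ∀ (e : ℤ) {c}, C c → C (e • c) := fun e _ h => ⟨h.1.smul_right e, h.2.smul_right e⟩
  let I : R → R → Prop := fun u v => ∃ c₀ c₁ c₂ c₃, C c₀ ∧ C c₁ ∧ C c₂ ∧ C c₃ ∧
    u = c₀ + c₁ * α + c₂ * β + c₃ * (α * β) ∧ v = c₀ - c₁ * α - c₂ * β + c₃ * (β * α)
  have sa : ∀ (e : ℤ) u v, I u v → I ((1 + e • α) * u) (v * (1 + (-e) • α)) := by
    rintro e _ _ ⟨c₀, c₁, c₂, c₃, h0, h1, h2, h3, rfl, rfl⟩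
    refine ⟨c₀, c₁ + e • c₀, c₂, c₃ + e • c₂, h0, add h1 (sm e h0), h2, add h3 (sm e h2), ?_, ?_⟩
    · rw [add_mul, smul_mul_assoc, mul_add α, mul_add α, mul_add α, h0.1.eq, h1.1.left_comm, h2.1.left_comm,
        h3.1.left_comm, ← mul_assoc α α, ha]
      noncomm_ring; module
    · rw [mul_add, mul_smul_comm, add_mul _ _ α, sub_mul _ _ α, sub_mul _ _ α, mul_assoc c₁, mul_assoc c₃,
        mul_assoc β α α, ha]
      noncomm_ring; module
  have sb : ∀ (e : ℤ) u v, I u v → I ((1 + e • β) * u) (v * (1 + (-e) • β)) := by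
    rintro e _ _ ⟨c₀, c₁, c₂, c₃, h0, h1, h2, h3, rfl, rfl⟩
    refine ⟨c₀ + e • (c₁ * (α * β + β * α)), c₁, c₂ + e • (c₀ + c₃ * (α * β + β * α)), c₃ + (-e) • c₁,
      add h0 (sm e (mul h1 hτ)), h1, add h2 (sm e (add h0 (mul h3 hτ))), add h3 (sm _ h1), ?_, ?_⟩
    · rw [add_mul, smul_mul_assoc, mul_add β, mul_add β, mul_add β, h0.2.eq, h1.2.left_comm, h2.2.left_comm,
        h3.2.left_comm, hb, add_mul c₂, smul_mul_assoc, add_mul c₀, mul_assoc c₃, add_mul (α * β), mul_assoc α β β, hb]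
      noncomm_ring; module
    · rw [mul_add, mul_smul_comm, add_mul _ _ β, sub_mul _ _ β, sub_mul _ _ β, mul_assoc c₂, hb,
        add_mul c₂, smul_mul_assoc, add_mul c₀, mul_assoc c₃ (α * β + β * α), add_mul (α * β), mul_assoc α β β, hb]
      noncomm_ring; module
  have key : I (ρ g) (ρ g⁻¹) := by
    induction hg using closure_induction_left with
    | one => exact ⟨1, 0, 0, 0, ⟨.one_right _, .one_right _⟩, ⟨.zero_right _, .zero_right _⟩,
        ⟨.zero_right _, .zero_right _⟩, ⟨.zero_right _, .zero_right _⟩, by simp, by simp⟩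
    | mul_left x hx y _ ih =>
      rw [mul_inv_rev, map_mul, map_mul]
      rcases hx with rfl | rfl
      · rw [ia, ea]; exact sa 1 _ _ ih
      · rw [ib, eb]; exact sb 1 _ _ ih
    | inv_mul_cancel x hx y _ ih =>
      rw [mul_inv_rev, map_mul, map_mul, inv_inv]
      rcases hx with rfl | rfl
      · rw [ia, ea]; exact sa (-1) _ _ ih
      · rw [ib, eb]; exact sb (-1) _ _ ih
  obtain ⟨c₀, c₁, c₂, c₃, h0, -, -, h3, e1, e2⟩ := key
  rw [e1, e2, ea, show c₀ + c₁ * α + c₂ * β + c₃ * (α * β) + (c₀ - c₁ * α - c₂ * β + c₃ * (β * α)) =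
    c₀ + c₀ + c₃ * (α * β + β * α) by noncomm_ring]
  exact (Commute.one_right _).add_right ((add (add h0 h0) (mul h3 hτ)).1.symm.smul_right _)

section
variable {G : Type*} [Group G] [Finite G] {p : ℕ} [hp : Fact p.Prime]

theorem comm_mem_cent_of_pair (hp2 : p ≠ 2) {V : Subgroup G} (hV : IsElementaryAbelian p V) {a b t : G}
    (han : a ∈ normalizer (V : Set G)) (hbn : b ∈ normalizer (V : Set G))
    (ha : ⁅⁅V, zpowers a⁆, zpowers a⁆ = ⊥) (hb : ⁅⁅V, zpowers b⁆, zpowers b⁆ = ⊥) (ht : t ∈ closure {a, b})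
    (h2 : t * t = 1) : (a * t)⁻¹ * (t * a) ∈ centralizer (V : Set G) := by
  set L := normalizer (V : Set G)
  let _ : CommGroup V := { (inferInstance : Group V) with mul_comm := hV.1.1.1 }
  obtain ⟨_, ρ, hρ⟩ := exists_zmod_rep (M := V) (fun v => Subtype.ext (hV.2 v v.2)) V.normalizerMonoidHom
  replace hρ : ∀ (x : L) (v : Additive V), ((ρ x v).toMul : G) = x * v.toMul * (x : G)⁻¹ :=
    fun x v => congrArg Subtype.val (hρ x v)
  have q1 : ∀ (x : L) (v : Additive V), (((ρ x - 1) v).toMul : G) = ⁅(x : G), (v.toMul : G)⁆ := fun x v => by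
    rw [LinearMap.sub_apply, toMul_sub, coe_div, hρ, div_eq_mul_inv]; rfl
  have sq : ∀ x : L, ⁅⁅V, zpowers (x : G)⁆, zpowers (x : G)⁆ = ⊥ → (ρ x - 1) * (ρ x - 1) = 0 := fun x hx => by
    refine LinearMap.ext fun v => Additive.toMul.injective (Subtype.ext ?_)
    rw [End.mul_apply, q1, q1]
    rw [commutator_comm, commutator_comm V] at hx
    exact mem_bot.1 (hx ▸ commutator_mem_commutator (mem_zpowers _)
      (commutator_mem_commutator (mem_zpowers _) v.toMul.2))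
  obtain ⟨t, ht', rfl⟩ : t ∈ (closure {(⟨a, han⟩ : L), ⟨b, hbn⟩}).map L.subtype := by
    rwa [MonoidHom.map_closure, Set.image_pair]
  have h := trace_central ρ (sq ⟨a, han⟩ ha) (sq ⟨b, hbn⟩ hb) ht'
  rw [inv_eq_of_mul_eq_one_right (Subtype.ext h2 : t * t = 1), ← two_smul (ZMod p), Commute, SemiconjBy,
    smul_mul_assoc, mul_smul_comm, ← map_mul, ← map_mul] at h
  have h0 : (2 : ZMod p) ≠ 0 := fun e => hp2 ((Nat.prime_dvd_prime_iff_eq hp.out Nat.prime_two).1
    ((ZMod.natCast_eq_zero_iff 2 p).1 (by exact_mod_cast e)))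
  have h1 := smul_right_injective _ h0 h
  refine mem_centralizer_iff.2 fun v hv => ?_
  have e := hρ (t * ⟨a, han⟩) (Additive.ofMul ⟨v, hv⟩)
  rw [h1, hρ] at e
  change a * t * v * (a * t)⁻¹ = t * a * v * (t * a)⁻¹ at e
  change v * ((a * t)⁻¹ * (t * a)) = (a * t)⁻¹ * (t * a) * v
  rw [show v * ((a * t)⁻¹ * (t * a)) = (a * t)⁻¹ * (a * t * v * (a * t)⁻¹) * (t * a) by group, e]; group

/-- `H` has a nontrivial real `p`-element -/
def Re (p : ℕ) (H : Subgroup G) : Prop :=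
  ∃ x ∈ H, x ≠ 1 ∧ IsPGroup p (zpowers x) ∧ ∃ g ∈ H, g * x * g⁻¹ = x⁻¹

theorem Re.mono {H K : Subgroup G} (h : Re p H) (hK : H ≤ K) : Re p K :=
  let ⟨x, h1, h2, h3, g, h4, h5⟩ := h; ⟨x, hK h1, h2, h3, g, hK h4, h5⟩

theorem Re.map {Γ : Type*} [Group Γ] {H : Subgroup G} (h : Re p H) (f : G →* Γ)
    (hk : (Nat.card (f.ker ⊓ H : Subgroup G)).Coprime p) : Re p (H.map f) := by
  obtain ⟨x, h1, h2, h3, g, h4, h5⟩ := h
  refine ⟨f x, mem_map_of_mem f h1, fun e => h2 (mem_bot.1 (inf_eq_bot_of_p_p' h3 hk ▸ mem_inf.2 ⟨mem_zpowers x, e, h1⟩)),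
    MonoidHom.map_zpowers f x ▸ h3.map f, f g, mem_map_of_mem f h4, by rw [← map_inv, ← map_mul, ← map_mul, h5, map_inv]⟩

theorem re_of_act {H P : Subgroup G} (hP : IsPGroup p P) (h : P ≤ H) (k : ℕ) : ∀ z ∈ H, z ∈ normalizer (P : Set G) →
    z ^ 2 ^ k ∈ centralizer (P : Set G) → z ∉ centralizer (P : Set G) → Re p H := by
  induction k with
  | zero => exact fun z _ _ h1 h2 => absurd (by simpa using h1) h2
  | succ k ih =>
    intro z h1 h2 h3 h4
    by_cases h5 : z ^ 2 ∈ centralizer (P : Set G)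
    · rw [mem_centralizer_iff] at h4 h5
      push Not at h4
      obtain ⟨q, hq, h4⟩ := h4
      have hy : q * (z * q⁻¹ * z⁻¹) ∈ P := mul_mem hq (conj_mem_of_le_normalizer le_rfl h2 (inv_mem hq))
      refine ⟨_, h hy, fun e => h4 ?_, isPGroup_zpowers_of_mem hP hy, z, h1, ?_⟩
      · rw [show q * z = q * (z * q⁻¹ * z⁻¹) * (z * q) by group, e, one_mul]
      · rw [show z * (q * (z * q⁻¹ * z⁻¹)) * z⁻¹ = z * q * z⁻¹ * (z ^ 2 * q⁻¹) * (z ^ 2)⁻¹ by
          simp only [pow_two]; group, ← h5 _ (inv_mem hq)]; group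
    · exact ih (z ^ 2) (pow_mem h1 _) (pow_mem h2 _) (by rwa [← pow_mul, ← pow_succ']) h5

theorem Re.of_map (hp2 : p ≠ 2) {Γ : Type*} [Group Γ] [Finite Γ] {H : Subgroup G} (f : G →* Γ) (h : Re p (H.map f)) :
    Re p H := by
  obtain ⟨y, h1, h2, h3, _, ⟨g, h4, rfl⟩, h5⟩ := h
  have hY := map_comap_inf f (zpowers_le.2 h1)
  obtain ⟨P, hP, -⟩ := exists_syl_ge (p := p) IsPGroup.of_bot (bot_le : ⊥ ≤ (zpowers y).comap f ⊓ H)
  have e : P.map f = zpowers y := by have := hP.map f; rw [hY] at this; exact this.eq_of_isPGroup h3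
  have hg : f g ∈ normalizer ((zpowers y : Subgroup Γ) : Set Γ) :=
    mem_normalizer_iff_cj.2 (by rw [cj_zpowers, h5, zpowers_inv])
  obtain ⟨c, hc, n, hn, rfl⟩ := hP.frattini' (g := g) (normalizer_inf (X := zpowers g) (zpowers_le.2 (le_normalizer_comap f hg))
    ((zpowers_le.2 h4).trans le_normalizer) (mem_zpowers g))
  have hnH : n ∈ H := (mul_mem_cancel_left (mem_inf.1 hc).2).1 h4
  have h6 : f n * y * (f n)⁻¹ = y⁻¹ := by
    obtain ⟨i, hi⟩ : f c ∈ zpowers y := hc.1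
    rw [map_mul, ← hi] at h5
    rw [show f n * y * (f n)⁻¹ = (y ^ i)⁻¹ * (y ^ i * f n * y * (y ^ i * f n)⁻¹) * y ^ i by group, h5]; group
  obtain ⟨k, m, hm, ho⟩ := Nat.exists_eq_two_pow_mul_odd (orderOf_pos n).ne'
  obtain ⟨x, hx, rfl⟩ : y ∈ P.map f := e ▸ mem_zpowers y
  refine re_of_act hP.isP (hP.le.trans inf_le_right) k (n ^ m) (pow_mem hnH _) (pow_mem hn _)
    (by rw [← pow_mul, mul_comm, ← ho, pow_orderOf_eq_one]; exact one_mem _) fun hc => h2 ?_
  have h7 : ∀ j : ℕ, f n ^ (2 * j + 1) * f x * (f n ^ (2 * j + 1))⁻¹ = (f x)⁻¹ := fun j => by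
    induction j with
    | zero => simpa using h6
    | succ j ih =>
      rw [show f n ^ (2 * (j + 1) + 1) * f x * (f n ^ (2 * (j + 1) + 1))⁻¹ =
        f n * (f n * (f n ^ (2 * j + 1) * f x * (f n ^ (2 * j + 1))⁻¹)⁻¹ * (f n)⁻¹)⁻¹ * (f n)⁻¹ by group, ih, inv_inv, h6,
        inv_inv, h6]
  obtain ⟨j, rfl⟩ := hm
  have h8 := h7 j
  rw [← map_pow, ← map_mul, ← mem_centralizer_iff.1 hc x hx, map_mul, mul_inv_cancel_right] at h8
  exact mem_bot.1 (mem_of_sq hp2 h3 (mem_zpowers _) (mem_bot.2 (eq_inv_iff_mul_eq_one.1 h8)))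

theorem odd_of_not_re (hp2 : p ≠ 2) {H Q : Subgroup G} (hQ : IsPGroup p Q) (h1 : Q ≤ H) (h2 : H ≤ normalizer (Q : Set G))
    (hc : centralizer (Q : Set G) ≤ Q) (h : ¬ Re p H) : Odd (Nat.card H) := by
  by_contra ho
  obtain ⟨t, ht, e⟩ := exists_orderOf_eq_of_dvd (p := 2) (even_iff_two_dvd.1 (Nat.not_odd_iff_even.1 ho))
  have e2 : t * t = 1 := by rw [← pow_two, ← e, pow_orderOf_eq_one]
  refine h (re_of_act hQ h1 1 t ht (h2 ht) (by rw [pow_one, pow_two, e2]; exact one_mem _) fun h3 => ?_)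
  rw [mem_bot.1 (mem_of_sq hp2 hQ (hc h3) (mem_bot.2 e2)), orderOf_one] at e
  omega

theorem pstN_of_odd_max (hp2 : p ≠ 2) {S M : Subgroup G} (hS : Syl p S ⊤) (hg : ncl S ⊤ = ⊤) (hM : UM S M ⊤)
    (ho : Odd (Nat.card M)) : PStN p G := by
  intro V _ hV a _ hq
  by_contra ha
  have hn := le_normalizer_Opm (p := p) ⊤ (centralizer (V : Set G))
  have hC : centralizer (V : Set G) ≤ Opm p ⊤ (centralizer (V : Set G)) :=
    (inf_top_eq _).ge.trans (inf_le_Opm (top_le_normalizer _))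
  obtain ⟨b, hb, c, hc, rfl, ⟨k, hk⟩, h2⟩ := H1.exists_p_part p a
  have q : ∀ x ∈ zpowers (b * c), ∀ g, ⁅⁅V, zpowers (g * x * g⁻¹)⁆, zpowers (g * x * g⁻¹)⁆ = ⊥ := fun x hx g => by
    rw [← cj_zpowers, ← cj_eq_of_normal g V, ← cj_commutator, ← cj_commutator, cj_eq_bot_iff]
    exact le_bot_iff.1 ((commutator_mono (commutator_mono le_rfl (zpowers_le.2 hx)) (zpowers_le.2 hx)).trans hq.le)
  have hb' : b ∉ Opm p ⊤ (centralizer (V : Set G)) := fun h => ha (mul_mem h (hC (le_centralizer_iff.1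
    (le_centralizer_iff'.2 (cop_comm_eq_bot (le_top.trans (top_le_normalizer V)) (copA_of_p' hV (by
      rw [Nat.card_zpowers]; exact cop_iff.2 h2)) (by simpa using q c hc 1))) (mem_zpowers c))))
  have hbp : IsPGroup p (zpowers b) := isPGroup_zpowers_of_pow (k := k) (hk ▸ pow_orderOf_eq_one b)
  obtain ⟨g, -, h3⟩ := hS.exists_cj_le hbp le_top
  have hap := hS.isP.to_le h3
  rw [cj_zpowers] at h3 hap
  have ha' : g * b * g⁻¹ ∉ Opm p ⊤ (centralizer (V : Set G)) := fun h => hb' ((mem_normalizer_iff.1 (hn (mem_top g)) b).2 h)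
  have qa : ∀ x, ⁅⁅V, zpowers (x * (g * b * g⁻¹) * x⁻¹)⁆, zpowers (x * (g * b * g⁻¹) * x⁻¹)⁆ = ⊥ := fun x => by
    simpa [mul_assoc] using q b hb (x * g)
  generalize g * b * g⁻¹ = a at h3 hap ha' qa
  obtain ⟨L, g, h4, h5, h6⟩ := l_lemma hS hg hM h3 fun h => ha' (Op_le_Opm _ _ (h (mem_zpowers a)))
  have haL : a ∈ L := h4 (mem_sup_left (mem_zpowers a))
  have hO : Ores p L ≤ centralizer (V : Set G) := by
    obtain ⟨x, hx, hx'⟩ := SetLike.exists_of_lt h5.lt
    have e := h6 x hx hx'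
    by_cases hL : Odd (Nat.card L)
    · have h1 := stOn_of_odd hp2 hL hV (le_top.trans (top_le_normalizer V)) a haL (by simpa using qa 1)
      refine (Ores_mono (e.ge.trans (sup_le (sup_le (zpowers_le.2 h1) ?_) (Op_le_Opm _ _)))).trans (Ores_Opm_le L _)
      rw [cj_zpowers, zpowers_le]
      exact conj_mem_of_le_normalizer (le_normalizer_Opm _ _) hx h1
    have hΓ : 2 ∣ Nat.card (zpowers a ⊔ cj x (zpowers a) : Subgroup G) := by
      by_contra h
      refine hL (Nat.coprime_two_right.1 ?_)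
      rw [← e]
      exact cop_sup (cop_iff.2 h) (cop_of_isPGroup_ne hp2 (Op_p p L))
        ((le_sup_left.trans e.le).trans (le_normalizer_Op p L))
    obtain ⟨t, ht, et⟩ := exists_orderOf_eq_of_dvd hΓ
    have e2 : t * t = 1 := by rw [← pow_two, ← et, pow_orderOf_eq_one]
    have htL : t ∈ L := (le_sup_left.trans e.le) ht
    have e' := h6 t htL fun h => by
      have := orderOf_dvd_natCard (⟨t, h.2⟩ : cj g M)
      rw [orderOf_mk, et, card_cj] at this
      exact Nat.not_even_iff_odd.2 ho (even_iff_two_dvd.2 this)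
    haveI : (_root_.L.Phi V).Normal := normalizer_eq_top_iff.1 (top_le_iff.1 (_root_.L.normalizer_Phi (top_le_normalizer V)))
    set f := QuotientGroup.mk' (_root_.L.Phi V)
    have hk : f.ker = _root_.L.Phi V := QuotientGroup.ker_mk' _
    haveI : (V.map f).Normal := Normal.map inferInstance _ (QuotientGroup.mk'_surjective _)
    have q' : ∀ y, ⁅⁅V, zpowers y⁆, zpowers y⁆ = ⊥ → ⁅⁅V.map f, zpowers (f y)⁆, zpowers (f y)⁆ = ⊥ := fun y h => by
      rw [← MonoidHom.map_zpowers, ← map_commutator, ← map_commutator, h, Subgroup.map_bot]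
    have h1 : (a * t)⁻¹ * (t * a) ∈ cmod V (_root_.L.Phi V) := by
      have := comm_mem_cent_of_pair hp2 (V := V.map f) (a := f a) (b := f (x * a * x⁻¹)) (t := f t) ⟨comm_iff_commutator.2 (by
        rw [← map_commutator, Subgroup.map_eq_bot_iff, hk]; exact _root_.L.commutator_le_Phi hV), by
          rintro _ ⟨v, hv, rfl⟩
          rw [← map_pow, ← MonoidHom.mem_ker, hk]; exact _root_.L.pow_mem_Phi hV hv⟩
        (top_le_normalizer _ (mem_top _)) (top_le_normalizer _ (mem_top _)) (q' _ (by simpa using qa 1)) (q' _ (qa x)) (by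
          rw [cj_zpowers, zpowers_eq_closure, zpowers_eq_closure, ← Subgroup.closure_union] at ht
          rw [← Set.image_pair, ← MonoidHom.map_closure]
          exact mem_map_of_mem f ht) (by rw [← map_mul, e2, map_one])
      rwa [← map_mul, ← map_mul, ← map_inv, ← map_mul] at this
    have h2 : Ores p L ≤ cmod V (_root_.L.Phi V) := Ores_le_of_sup (P := zpowers a ⊔ Op p L)
      (isP_sup hap (Op_p p L) ((zpowers_le.2 haL).trans (le_normalizer_Op p L)))
      (le_top.trans (top_le_normalizer _)) (e'.ge.trans (sup_le (sup_le (le_sup_of_le_right le_sup_left) (by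
        rw [cj_zpowers, zpowers_le, show t * a * t⁻¹ = a * ((a * t)⁻¹ * (t * a))⁻¹ by
          have := inv_eq_of_mul_eq_one_right e2
          rw [show a * ((a * t)⁻¹ * (t * a))⁻¹ = t⁻¹ * a * t by group, this]]
        exact mul_mem (mem_sup_right (mem_sup_left (mem_zpowers a))) (mem_sup_left (inv_mem h1))))
        (le_sup_of_le_right le_sup_right)))
    exact Ores_le_iff.2 fun R h7 h8 => le_centralizer_iff.1 (cop_le_centralizer_of_Phi (le_top.trans (top_le_normalizer V))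
      (copA_of_p' hV h8) (le_cmod_iff.1 ((Ores_le_iff.1 le_rfl R h7 h8).trans h2)))
  have hCM : centralizer (V : Set G) ≤ M := le_sup_left.trans (hM.max _ le_sup_right (lt_top_iff_ne_top.2 fun e =>
    ha' (le_Opm le_rfl le_normalizer (Ores_le_of_sup hS.isP (le_top.trans (top_le_normalizer _)) e.ge) (mem_top a))))
  obtain ⟨P, hP, h7⟩ := exists_syl_ge (isP_sup hap (Op_p p L) ((zpowers_le.2 haL).trans
    (le_normalizer_Op p L))) (h5.le.trans h5.lt.le)
  refine h5.lt.not_ge (hP.Ores_sup.ge.trans (sup_le (le_inf (Ores_le _ _) (hO.trans ?_)) (h5.max P h7 (lt_of_le_of_ne hP.le ?_))))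
  · rw [← cj_eq_of_normal g (centralizer (V : Set G))]; exact cj_mono g hCM
  · rintro rfl
    exact h5.lt.not_ge ((le_Op le_rfl le_normalizer hP.isP).trans (le_sup_right.trans h5.le))

end

theorem re_ZA {p : ℕ} [hp : Fact p.Prime] (hp2 : p ≠ 2) (n : ℕ) : ∀ {G : Type u} [Group G] [Finite G],
    Nat.card G = n → ∀ S : Subgroup G, Syl p S ⊤ → Re p (⊤ : Subgroup G) → Re p (normalizer (Zc (JA S) : Set G)) := by
  induction n using Nat.strong_induction_on with
  | _ n ih =>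
  intro G _ _ hn S hS h
  by_contra hM
  have rel : ∀ H T : Subgroup G, H ≠ ⊤ → Syl p T H → Re p H → Re p (normalizer (Zc (JA T) : Set G)) := fun H T h1 h2 h3 => by
    have := (ih _ (hn ▸ card_top (G := G) ▸ card_lt_of_lt h1.lt_top) rfl (T.subgroupOf H)
      (subgroupOf_self H ▸ h2.subgroupOf le_rfl) (Re.of_map hp2 H.subtype ((map_top_subtype H).symm ▸ h3))).map H.subtype
      (by simp)
    rw [map_normalizer_subtype, map_Zc H.subtype_injective, map_JA H.subtype_injective, map_subgroupOf_eq_of_le h2.le] at this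
    exact this.mono inf_le_right
  have ovr : ∀ H, S ≤ H → H ≠ ⊤ → ¬ Re p H := fun H h1 h2 h3 => hM (rel H S h2 (hS.mono h1 le_top) h3)
  have quot : ∀ (N : Subgroup G) [N.Normal], N ≠ ⊥ → Re p (⊤ : Subgroup (G ⧸ N)) →
      Re p (normalizer (Zc (JA (S.map (QuotientGroup.mk' N))) : Set (G ⧸ N))) := fun N _ h1 h2 =>
    ih _ (hn ▸ card_lt_of_mul_eq (X := ⊤) (by rw [card_top, card_eq_card_quotient_mul_card_subgroup N]) h1) rfl _ (syl_map_quot (QuotientGroup.mk'_surjective N) hS) h2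
  have hZ : ∀ T : Subgroup G, normalizer (T : Set G) ≤ normalizer (Zc (JA T) : Set G) := fun T =>
    normalizer_Zc (normalizer_JA le_rfl)
  obtain ⟨x, -, x1, x2, g, -, x3⟩ := id h
  by_cases h0 : Op p (⊤ : Subgroup G) = ⊥
  · have key : ∀ R T : Subgroup G, T ≠ ⊥ → IsPGroup p T → Syl p R (normalizer (T : Set G)) →
        ¬ Re p (normalizer (T : Set G)) := fun R => by
      induction R using WellFoundedGT.induction with
      | ind R ihR =>
      intro T h1 h2 h3 h4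
      have h5 := rel _ R (normalizer_ne_top_of_Op h2 (by rwa [h0, le_bot_iff])) h3 h4
      have hR : R ≠ ⊥ := fun e => h1 (le_bot_iff.1 (e ▸ h3.le_of_le_normalizer h2 le_normalizer (Or.inr h3.le)))
      obtain ⟨R', h6, h7⟩ := exists_syl_ge h3.isP (le_normalizer.trans (hZ R))
      rcases h7.eq_or_lt with rfl | h7
      · obtain ⟨y, -, rfl⟩ := (Syl.of_normalizer (H := ⊤) (h6.mono (le_inf le_top le_normalizer)
          (inf_le_right.trans (hZ _)))).conj hS
        refine hM ?_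
        have := h5.map (MulAut.conj y).toMonoidHom (by
          rw [(MonoidHom.ker_eq_bot_iff _).2 (MulAut.conj y).injective]; simp)
        rwa [← cj_def, cj_normalizer, cj_def, map_Zc (MulAut.conj y).injective, map_JA (MulAut.conj y).injective] at this
      · exact ihR R' h7 _ (ZA_ne_bot h3.isP hR) (h3.isP.to_le (inf_le_left.trans (JA_le _))) h6 h5
    obtain ⟨R, hR, -⟩ := exists_syl_ge (p := p) IsPGroup.of_bot (bot_le : ⊥ ≤ normalizer ((zpowers x : Subgroup G) : Set G))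
    exact key R _ (by rwa [Ne, zpowers_eq_bot]) x2 hR ⟨x, le_normalizer (mem_zpowers x), x1, x2, g,
      mem_normalizer_iff_cj.2 (by rw [cj_zpowers, x3, zpowers_inv]), x3⟩
  set Q := Op p (⊤ : Subgroup G)
  have hQ : IsPGroup p Q := Op_p p ⊤
  have hSC := hS.inf_normal le_top (top_le_normalizer (centralizer (Q : Set G)))
  by_cases h1 : normalizer ((S ⊓ centralizer (Q : Set G) : Subgroup G) : Set G) = ⊤
  swap
  · have hf := QuotientGroup.mk'_surjective Q
    have hx : x ∈ Q := by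
      by_contra hx
      have h2 := quot Q h0 ⟨QuotientGroup.mk' Q x, mem_top _, fun e => hx ((QuotientGroup.eq_one_iff x).1 e),
        MonoidHom.map_zpowers (QuotientGroup.mk' Q) x ▸ x2.map _, QuotientGroup.mk' Q g, mem_top _, by
          rw [← map_inv, ← map_mul, ← map_mul, x3, map_inv]⟩
      rw [← map_comap_eq_self_of_surjective hf (normalizer _)] at h2
      refine ovr _ (map_le_iff_le_comap.1 (normalizer_Zc (normalizer_JA le_normalizer))) (fun e => ?_) (h2.of_map hp2 _)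
      have h3 := (syl_map_quot hf hS).isP
      refine ZA_ne_bot h3 (fun e => h1 (top_le_iff.1 ?_)) (le_bot_iff.1 ((le_Op le_top ?_
        (h3.to_le (inf_le_left.trans (JA_le _)))).trans ?_))
      · rw [Subgroup.map_eq_bot_iff, QuotientGroup.ker_mk'] at e
        rw [le_antisymm e hS.Op_le]
        exact top_le_normalizer _
      · rw [← map_comap_eq_self_of_surjective hf (normalizer _), e, map_top_of_surjective _ hf]
      · rw [← map_top_of_surjective _ hf, ← map_Op_of_ker _ (by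
          rw [QuotientGroup.ker_mk']; exact hQ.to_le inf_le_left), le_bot_iff, Subgroup.map_eq_bot_iff, QuotientGroup.ker_mk']
    obtain ⟨c, hc, m, hm, rfl⟩ := hSC.frattini' (top_le_normalizer _ (mem_top g))
    have hS1 : S ≤ normalizer ((S ⊓ centralizer (Q : Set G) : Subgroup G) : Set G) :=
      normalizer_inf le_normalizer (le_top.trans (top_le_normalizer _))
    refine ovr _ hS1 h1 ⟨x, hS1 (hS.Op_le hx), x1, x2, m, hm, ?_⟩
    rw [← x3, show c * m * x * (c * m)⁻¹ = c * (m * x * m⁻¹) * c⁻¹ by group,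
      ← mem_centralizer_iff.1 hc _ (Normal.conj_mem inferInstance x hx m), mul_inv_cancel_right]
  have h2 : S ⊓ centralizer (Q : Set G) ≤ Q := le_Op le_top h1.ge hSC.isP
  have hO : Op' p (⊤ : Subgroup G) = ⊥ := by
    by_contra hO
    haveI : (Op' p (⊤ : Subgroup G)).Normal := normalizer_eq_top_iff.1 (top_le_iff.1 (le_normalizer_Op' p ⊤))
    have hf := QuotientGroup.mk'_surjective (Op' p (⊤ : Subgroup G))
    have hk : ∀ H : Subgroup G, (Nat.card ((QuotientGroup.mk' (Op' p (⊤ : Subgroup G))).ker ⊓ H : Subgroup G)).Coprime p :=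
      fun H => by rw [QuotientGroup.ker_mk']; exact cop_of_le (Op'_cop p ⊤) inf_le_left
    have h3 := quot _ hO (map_top_of_surjective _ hf ▸ h.map _ (hk _))
    have h4 : ∀ T ≤ S, (QuotientGroup.mk' (Op' p (⊤ : Subgroup G))).ker ⊓ T = ⊥ := fun T hT => by
      rw [QuotientGroup.ker_mk', inf_comm]; exact inf_eq_bot_of_p_p' (hS.isP.to_le hT) (Op'_cop p ⊤)
    rw [← map_JA_of_ker _ (h4 S le_rfl), ← map_Zc_of_ker _ (h4 _ (JA_le S)), ← top_inf_eq (normalizer _),
      ← map_top_of_surjective _ hf, ← map_normalizer_of_cop _ (hS.isP.to_le (inf_le_left.trans (JA_le S))) le_top (hk _)] at h3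
    exact hM ((h3.of_map hp2 _).mono inf_le_right)
  have hc : centralizer (Q : Set G) ≤ Q := (top_inf_eq _).ge.trans (centralizer_Op_le_of_syl hS hO h2)
  have odd : ∀ H, S ≤ H → ¬ Re p H → Odd (Nat.card H) := fun H h3 =>
    odd_of_not_re hp2 hQ (hS.Op_le.trans h3) (le_top.trans (top_le_normalizer Q)) hc
  have hne : normalizer (Zc (JA S) : Set G) ≠ ⊤ := fun e => hM (e ▸ h)
  have hU : UM S (normalizer (Zc (JA S) : Set G)) ⊤ := ⟨le_normalizer.trans (hZ S), hne.lt_top, fun X h3 h4 => by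
    have h5 := odd X h3 (ovr X h3 h4.ne)
    refine FT.t6_2' h5 (FT.feit_thompson X h5) (hS.mono h3 le_top) (le_bot_iff.1 ?_)
    rw [← inf_eq_bot_of_p_p' hQ (Op'_cop p X)]
    exact le_inf (le_trans (le_centralizer_iff.1 (le_centralizer_iff'.2 (commutator_eq_bot_of_p_p' hQ (Op'_cop p X)
      ((hS.Op_le.trans h3).trans (le_normalizer_Op' p X)) (le_top.trans (top_le_normalizer Q))))) hc) le_rfl⟩
  have hg : ncl S ⊤ = ⊤ := by
    by_contra hg
    refine hne (top_le_iff.1 (((hS.mono (le_ncl S ⊤) le_top).frattini le_top (le_normalizer_ncl _ _)).ge.trans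
      (sup_le (hU.max _ (le_ncl S ⊤) (Ne.lt_top hg)) (inf_le_right.trans (hZ S)))))
  exact hne (normalizer_eq_top_iff.2 (ZA_normal hp2 hS (pstN_of_odd_max hp2 hS hg hU (odd _ hU.le hM)) hc))

theorem syl_Op_of_not_re {G : Type*} [Group G] [Finite G]
    (h : ∀ (q : ℕ) [Fact q.Prime], q ≠ 2 → ¬ Re q (⊤ : Subgroup G)) : Syl 2 (Op 2 (⊤ : Subgroup G)) ⊤ := by
  have hf := QuotientGroup.mk'_surjective (Op 2 (⊤ : Subgroup G))
  refine ⟨le_top, Op_p 2 ⊤, fun h2 => ?_⟩
  rw [relIndex_top_right, index_eq_card, ← card_top] at h2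
  obtain ⟨t, -, ht⟩ := exists_orderOf_eq_of_dvd h2
  obtain ⟨x, x1, x2, x3⟩ := H1.exists_inverted_of_notMem (t := t) (by rw [← pow_two]; exact orderOf_dvd_iff_pow_eq_one.1 ht.dvd) fun h3 => by
    rw [← Op_top, ← map_top_of_surjective _ hf, ← map_Op_of_ker _ (by
      rw [QuotientGroup.ker_mk']; exact (Op_p 2 ⊤).to_le inf_le_left), QuotientGroup.map_mk'_self, mem_bot] at h3
    simp [h3] at ht
  obtain ⟨q, hq, h4⟩ := Nat.exists_prime_and_dvd (fun e => x1 (orderOf_eq_one_iff.1 e))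
  haveI := Fact.mk hq
  have hq2 : q ≠ 2 := fun e => Nat.not_even_iff_odd.2 x2 (even_iff_two_dvd.2 (e ▸ h4))
  have h5 := orderOf_pow_orderOf_div (orderOf_pos x).ne' h4
  refine h q hq2 (Re.of_map hq2 (QuotientGroup.mk' (Op 2 (⊤ : Subgroup G))) ?_)
  rw [map_top_of_surjective _ hf]
  refine ⟨_, mem_top _, fun e => ?_, isPGroup_zpowers_of_orderOf h5, t, mem_top _, by rw [← conj_pow, x3, inv_pow]⟩
  rw [e, orderOf_one] at h5
  exact hq.one_lt.ne h5

theorem not_inverted {G : Type*} [Group G] [Finite G] {q : ℕ} [Fact q.Prime] (hq : q ≠ 2) {H P : Subgroup G}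
    (hP : Syl 2 P H) (hn : H ≤ normalizer (P : Set G)) {x g : G} (hx : x ∈ H) (h1 : IsPGroup q (zpowers x))
    (hg : g ∈ H) (e : g * x * g⁻¹ = x⁻¹) : x = 1 := by
  by_contra h
  obtain ⟨k, m, ⟨j, rfl⟩, ho⟩ := Nat.exists_eq_two_pow_mul_odd (orderOf_pos g).ne'
  have h7 : ∀ j : ℕ, g ^ (2 * j + 1) * x * (g ^ (2 * j + 1))⁻¹ = x⁻¹ := fun j => by
    induction j with
    | zero => simpa using e
    | succ j ih =>
      rw [show g ^ (2 * (j + 1) + 1) * x * (g ^ (2 * (j + 1) + 1))⁻¹ =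
        g * (g * (g ^ (2 * j + 1) * x * (g ^ (2 * j + 1))⁻¹)⁻¹ * g⁻¹)⁻¹ * g⁻¹ by group, ih, inv_inv, e, inv_inv, e]
  have h2 : g ^ (2 * j + 1) ∈ P := hP.le_of_le_normalizer (isPGroup_zpowers_of_pow (k := k) (by
    rw [← pow_mul, mul_comm, ← ho, pow_orderOf_eq_one])) (zpowers_le.2 (pow_mem hg _))
    (Or.inl ((zpowers_le.2 (pow_mem hg _)).trans hn)) (mem_zpowers _)
  have h3 : x * x ∈ P ⊓ zpowers x := mem_inf.2 ⟨by
    rw [show x * x = x * x⁻¹⁻¹ by rw [inv_inv], ← h7 j, show x * (g ^ (2 * j + 1) * x * (g ^ (2 * j + 1))⁻¹)⁻¹ =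
      x * g ^ (2 * j + 1) * x⁻¹ * (g ^ (2 * j + 1))⁻¹ by group]
    exact mul_mem (conj_mem_of_le_normalizer hn hx h2) (inv_mem h2), mul_mem (mem_zpowers x) (mem_zpowers x)⟩
  rw [inf_eq_bot_of_p_p' hP.isP (cop_of_isPGroup_ne hq h1)] at h3
  exact h (mem_bot.1 (mem_of_sq hq h1 (mem_zpowers x) h3))

end H9
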