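import Cfsg.Agent.H2.Fus30
import Cfsg.Agent.H6.CA3

/-! Simplicity of fusion systems of linear groups in the defining characteristic: the abstract criteria. -/

set_option autoImplicit false
set_option linter.unusedSectionVars false

namespace H9.SF
open Subgroup Cfsg H2 H6.CA H5 Module

section abs
variable {L : Type*} [Group L] {p : ℕ} [hp : Fact p.Prime] {G S : Subgroup L}

/-- a union of classes meeting every `p`-subgroup in a subgroup -/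
structure CC (p : ℕ) (G : Subgroup L) (C : L → Prop) : Prop where
  conj : ∀ x, C x → ∀ g ∈ G, C (g * x * g⁻¹)
  sub : ∀ R ≤ G, IsP p R → ∃ K : Subgroup L, ∀ x, x ∈ K ↔ x ∈ R ∧ C x

theorem simple_sub [Finite L] (hS : IsSylowIn p S G) (h1 : S ≠ ⊥)
    (hA : ∀ C, CC p G C → ∀ z ∈ S, z ≠ 1 → z ∈ centralizer (S : Set L) → C z → ∀ x ∈ S, C x)
    (hB : ∀ K : Subgroup L, S ≤ K → (∀ Q ≤ S, S ≤ normalizer (Q : Set L) →
      S ⊓ centralizer (Q : Set L) ≤ Q → normalizer (S : Set L) ⊓ Oq p (G ⊓ normalizer (Q : Set L)) ≤ K) →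
      G ⊓ normalizer (S : Set L) ≤ K) : (fusionSystemOfSubgroup G S hS.le).IsSimple p := by
  refine (sat_sub hS).simple_of h1 (fun T hT => or_iff_not_imp_left.2 fun h0 => ?_) fun E hE => ?_
  · obtain ⟨z, hz, h2⟩ := (bot_or_exists_ne_one _).resolve_left
      (inf_centralizer_ne_bot hS.pgroup hT.1 (sc_normalizer hT) h0)
    have k := (sc_sub_iff.1 hT).2
    refine hT.1.antisymm fun x hx => ?_
    obtain ⟨g, hg, m⟩ := hA (fun x => ∃ g ∈ G, g * x * g⁻¹ ∈ T) ⟨fun x ⟨g, hg, m⟩ a ha =>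
      ⟨g * a⁻¹, mul_mem hg (inv_mem ha), by simpa [mul_assoc] using m⟩, fun R hR hRp => by
        obtain ⟨h, hh, m⟩ := hS.exists_cj_le (isP_iff.1 hRp) hR
        refine ⟨R ⊓ cj h⁻¹ T, fun x => ⟨fun ⟨a, b⟩ => ⟨a, h, hh, by simpa using mem_cj.1 b⟩,
          fun ⟨a, g, hg, b⟩ => ⟨a, mem_cj.2 ?_⟩⟩⟩
        have := k _ b _ (mul_mem hh (inv_mem hg))
          (by simpa [mul_assoc] using cj_le_iff_forall.1 m x a)
        simpa [mul_assoc] using this⟩ z (hT.1 hz.1) h2 hz.2 ⟨1, one_mem _, by simpa using hz.1⟩ x hx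
    simpa [mul_assoc] using k _ m _ (inv_mem hg) (by simpa [mul_assoc] using hx)
  · rw [Aut_sub le_rfl, AutS_le_iff]
    refine fun g hG hg => (hB (Nk G S (Aut E S)) (fun s hs => ⟨hS.le hs, le_normalizer hs,
      cP_mem_Aut E le_rfl hs (le_normalizer hs)⟩)
      (fun Q h1 h2 h3 a ha => ⟨(Oq_le _ _ ha.2).1, ha.1, ?_⟩) ⟨hG, hg⟩).2.2
    have k := Oq_le _ _ ha.2
    refine hE.mem_Aut_of_Oq h1 h2 h3 ?_ (β := cP Q a) ?_ fun x hx => ?_
    · rw [Aut_sub le_rfl]; exact cP_mem_AutS k.1 ha.1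
    · rw [Aut_sub h1]; exact cP_mem_Oq ha.2
    · rw [cP_apply k.2 hx, cP_apply ha.1 (h1 hx)]

theorem simple_quot [Finite L] (hS : IsSylowIn p S G) (h : (fusionSystemOfSubgroup G S hS.le).IsSimple p)
    {H : Type*} [Group H] (e : H ≃* G) (hz : ∀ z ∈ G, (∀ g ∈ G, g * z = z * g) → Pel p z → z = 1)
    (T : Sylow p (H ⧸ center H)) : (groupFusionSystem (T : Subgroup (H ⧸ center H))).IsSimple p := by
  have := Finite.of_equiv _ e.toEquiv.symm
  have h1 : IsSylowIn p (S.subgroupOf G) ⊤ := by simpa using hS.subgroupOf le_rfl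
  let f : G →* H ⧸ center H := (QuotientGroup.mk' _).comp e.symm.toMonoidHom
  have hf : Function.Surjective f := (QuotientGroup.mk'_surjective _).comp e.symm.surjective
  obtain ⟨θ₀, i1, -⟩ := (iso_subgroupOf hS).trans ⟨surjM_group h1 f hf, (injective_iff_map_eq_one _).2 fun x hx => by
    have k : e.symm x.1 ∈ center H := (QuotientGroup.eq_one_iff _).1 hx
    refine Subtype.ext (Subtype.ext (hz _ x.1.2 (fun g hg => ?_) (exists_pow_eq_one_of_mem hS.pgroup x.2)))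
    simpa using congrArg (fun y => (e y).1) (mem_center_iff.1 k (e.symm ⟨g, hg⟩))⟩
  obtain ⟨θ, i2, -⟩ := i1.exists_symm
  have h2 := h1.map f
  rw [map_top_of_surjective f hf] at h2
  exact simple_of_equiv (MulEquiv.refl _) h2 (i2.simple (i1.sat (sat_sub hS)) h) T

theorem mem_Oq' {t : L} (ht : Pel p t) (h : t ∈ G) : t ∈ Oq p G :=
  le_Oq (isPGroup_zpowers ht) (zpowers_le.2 h) (mem_zpowers t)

theorem syl_ne_bot (hS : IsSylowIn p S G) {t : L} (ht : Pel p t) (h : t ∈ G) (h1 : t ≠ 1) : S ≠ ⊥ := fun e =>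
  h1 (mem_bot.1 (e ▸ hS.le_of_le_normalizer (isPGroup_zpowers ht) (zpowers_le.2 h) (e ▸ bot_le) (mem_zpowers t)))

theorem mem_nz [Finite L] {g : L} (h : ∀ t ∈ S, g * t * g⁻¹ ∈ S) : g ∈ normalizer (S : Set L) :=
  mem_normalizer_of_cj_le (cj_le_iff_forall.2 h)

theorem CC.one {C : L → Prop} (h : CC p G C) : C 1 := by
  obtain ⟨K, hK⟩ := h.sub ⊥ bot_le (isP_iff.2 IsPGroup.of_bot)
  exact ((hK 1).1 (one_mem _)).2

/-- the inductive step: Sylow subgroups of a complement -/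
theorem syl_step [Finite L] {G' E : Subgroup L} (hS : IsSylowIn p S G) (hG : G' ≤ G) (hE : E ≤ G) (hp : IsP p E)
    (hn : ∀ g, g ∈ S ∨ g ∈ G' → ∀ t ∈ E, g * t * g⁻¹ ∈ E) (h : ∀ g ∈ S, ∃ t ∈ E, t * g ∈ G') :
    E ≤ S ∧ IsSylowIn p (S ⊓ G') G' ∧ S ≤ E ⊔ S ⊓ G' := by
  have h1 : E ≤ S := hS.le_of_le_normalizer (isP_iff.1 hp) hE fun g hg => mem_nz (hn g (Or.inl hg))
  have h2 : S ≤ E ⊔ S ⊓ G' := fun g hg => by
    obtain ⟨t, ht, m⟩ := h g hg
    simpa using mul_mem (mem_sup_left (inv_mem ht)) (mem_sup_right (S := E) (T := S ⊓ G') ⟨mul_mem (h1 ht) hg, m⟩)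
  refine ⟨h1, isSylowIn_of_maximal (hS.pgroup.to_le inf_le_left) inf_le_right fun R hR h3 h4 => le_inf ?_ h3, h2⟩
  exact le_sup_left.trans (hS.eq_of_le (isP_iff.1 ((isP_iff.2 hR).sup hp fun g hg => hn g (Or.inr (h3 hg))))
    (sup_le (h3.trans hG) hE) (h2.trans (sup_le le_sup_right (h4.trans le_sup_left)))).le

end abs

variable {F : Type*} [Field F] {V : Type*} [AddCommGroup V] [Module F V] [FiniteDimensional F V]
  {p : ℕ} [Fact p.Prime] {G S : Subgroup (V ≃ₗ[F] V)}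

theorem borel_le [Finite (V ≃ₗ[F] V)] (hS : IsSylowIn p S G) {e : V} (e0 : e ≠ 0) (he : ∀ g ∈ S, g e = e)
    (hN : ∀ g ∈ G ⊓ normalizer (S : Set (V ≃ₗ[F] V)), ∃ c : F, g e = c • e) {M₁ M₂ K : Subgroup (V ≃ₗ[F] V)}
    (h1 : ∀ g ∈ G, g e = e → g ∈ M₁) (h2 : ∀ c : F, c ≠ 0 → ∃ m ∈ M₂, m e = c • e) (h3 : S ≤ M₂) (h4 : M₂ ≤ G)
    (k1 : normalizer (S : Set (V ≃ₗ[F] V)) ⊓ M₁ ≤ K) (k2 : normalizer (S : Set (V ≃ₗ[F] V)) ⊓ M₂ ≤ K) :
    G ⊓ normalizer (S : Set (V ≃ₗ[F] V)) ≤ K := fun g hg => by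
  obtain ⟨c, hc⟩ := hN g hg
  have c0 := eigen_ne hc e0
  obtain ⟨m, hm, me⟩ := h2 c c0
  have k : ∀ {t : V ≃ₗ[F] V}, t ∈ fixSub (F ∙ e) ↔ t e = e := by
    intro t; rw [mem_fixSub_span]; simp
  have m1 : m⁻¹ e = c⁻¹ • e := by
    apply m.injective; simp [me, c0]
  obtain ⟨n, hn, a, ha, rfl⟩ := (hS.of_le (K := M₂ ⊓ fixSub (F ∙ e)) (le_inf h3 fun s hs => k.2 (he s hs))
    (inf_le_left.trans h4)).frattini (g := m) (mem_nz fun t ht => ⟨M₂.mul_mem (M₂.mul_mem hm ht.1) (M₂.inv_mem hm), k.2 (by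
      rw [LinearEquiv.mul_apply, LinearEquiv.mul_apply, m1, map_smul, k.1 ht.2, map_smul, me, smul_smul,
        inv_mul_cancel₀ c0, one_smul])⟩)
  have ha2 : a ∈ M₂ := (M₂.mul_mem_cancel_left hn.1).1 hm
  have ae : a e = c • e := n.injective (by rw [map_smul, k.1 hn.2]; exact me)
  have := mul_mem (k2 ⟨ha, ha2⟩) (k1 (x := a⁻¹ * g) ⟨Subgroup.mul_mem _ (inv_mem ha) hg.2,
    h1 _ (G.mul_mem (inv_mem (h4 ha2)) hg.1) (a.injective (by simp [hc, ae]))⟩)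
  simpa using this

end H9.SF
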