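import Cfsg.Agent.H9.SF1

/-! Simplicity of the fusion systems of the symplectic and unitary groups in the defining characteristic. -/

set_option autoImplicit false
set_option linter.unusedSectionVars false

namespace H9.SF
open Subgroup Cfsg H2 H6.CA H5 H5.Form Module

variable {F : Type*} [Field F] [Fintype F] {κ : Kind F} {V : Type*} [AddCommGroup V] [Module F V]
  [FiniteDimensional F V] {Φ : Form κ V} {p : ℕ} [Fact p.Prime] [CharP F p] {g t : V ≃ₗ[F] V} {e f u w x y : V}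
  {D S K : Subgroup (V ≃ₗ[F] V)} {H X : Submodule F V}

theorem fixv (hQ : ∀ x, Φ.B x x = 0 → Φ.Q x = 0) (hD : D ≤ Φ.isom) (hp : IsPGroup p D) (h1 : D ≠ ⊥)
    (hH : D ≤ fixSub H) : ∃ u, u ≠ 0 ∧ Φ.Q u = 0 ∧ u ∈ Φ.perp H ∧ ∀ g ∈ D, g u = u := by
  have := finite_aut (F := F) (V := V)
  obtain ⟨z, hz, z1⟩ := (bot_or_exists_ne_one _).resolve_left (inf_centralizer_ne_bot hp le_rfl le_normalizer h1)
  obtain ⟨_, ⟨y, rfl⟩, u0, hu⟩ := (isP_iff.2 hp).exists_fix'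
    (T := LinearMap.range ((z : V →ₗ[F] V) - LinearMap.id)) (by
      rintro g hg _ ⟨y, rfl⟩
      exact ⟨g y, by simpa using (DFunLike.congr_fun (hz.2 g hg) y).symm⟩)
    fun e => z1 (LinearEquiv.ext fun y => by
      simpa [sub_eq_zero] using DFunLike.congr_fun (LinearMap.range_eq_bot.1 e) y)
  exact ⟨_, u0, hQ _ (sub_perp (hD hz.1) (hu z hz.1) y), fun h hh => sub_perp (hD hz.1) (hH hz.1 h hh) y, hu⟩

theorem exists_t (hg : g ∈ Φ.isom) (hu : Φ.Q u = 0) (gu : g u = u) (hf : Φ.B f u ≠ 0) :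
    ∃ t ∈ Φ.EU u, (t * g) f = f ∧ ∀ h, g h = h → Φ.B h u = 0 → t h = h := by
  have k : Φ.B (g f) u = Φ.B f u := by rw [← hg.1 f u, gu]
  obtain ⟨a, hv, ha, m⟩ := exists_eich_map (x := g f) (y := f) hu (hg.2 f) k (k ▸ hf)
  refine ⟨_, eich_mem_EU hu hv ha, m, fun h hh h1 => eich_fix h1 (Φ.B_zero_symm ?_)⟩
  rw [B_smul_left, ← neg_sub, map_neg, LinearMap.neg_apply, sub_perp hg hh, neg_zero, mul_zero]

theorem step (hD : IsSylowIn p D (Φ.EG ⊓ fixSub H)) (hu : Φ.Q u = 0) (uH : u ∈ Φ.perp H) (Du : ∀ g ∈ D, g u = u)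
    (hf : Φ.B f u ≠ 0) {H' : Submodule F V} (e : H' = H ⊔ Submodule.span F {u, f}) :
    Φ.EU u ⊓ fixSub H ≤ D ∧ IsSylowIn p (D ⊓ (Φ.EG ⊓ fixSub H')) (Φ.EG ⊓ fixSub H') ∧
      D ≤ Φ.EU u ⊓ fixSub H ⊔ D ⊓ (Φ.EG ⊓ fixSub H') := by
  have := finite_aut (F := F) (V := V)
  have k : ∀ {g}, g ∈ fixSub H' ↔ g ∈ fixSub H ∧ g u = u ∧ g f = f := fun {g} => by
    subst e
    refine ⟨fun h => ⟨fun v hv => h v (Submodule.mem_sup_left hv),
      h _ (Submodule.mem_sup_right (Submodule.subset_span (by simp))),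
      h _ (Submodule.mem_sup_right (Submodule.subset_span (by simp)))⟩, fun h v hv => ?_⟩
    obtain ⟨a, ha, b, hb, rfl⟩ := Submodule.mem_sup.1 hv
    rw [map_add, h.1 a ha, mem_fixSub_span.2 (by simpa using h.2) b hb]
  refine syl_step hD (fun g hg => ⟨hg.1, (k.1 hg.2).1⟩) (inf_le_inf_right _ (EU_le_EG u))
    (fun g hg => isP_EU hu g hg.1) (fun g hg t ht => ?_) fun g hg => ?_
  · have h1 : g ∈ Φ.EG ⊓ fixSub H ∧ g u = u :=
      hg.elim (fun h => ⟨hD.le h, Du g h⟩) fun h => ⟨⟨h.1, (k.1 h.2).1⟩, (k.1 h.2).2.1⟩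
    exact ⟨EU_conj (EG_le_isom h1.1.1) one_ne_zero (by simpa using h1.2) t ht.1,
      Subgroup.mul_mem _ (Subgroup.mul_mem _ h1.1.2 ht.2) (Subgroup.inv_mem _ h1.1.2)⟩
  · obtain ⟨t, ht, m1, m2⟩ := exists_t (EG_le_isom (hD.le hg).1) hu (Du g hg) hf
    have m3 : t ∈ fixSub H := fun h hh => m2 h ((hD.le hg).2 h hh) (Φ.mem_perp'.1 uH h hh)
    exact ⟨t, ⟨ht, m3⟩, Subgroup.mul_mem _ (EU_le_EG u ht) (hD.le hg).1, k.2 ⟨mul_mem m3 (hD.le hg).2,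
      by rw [LinearEquiv.mul_apply, Du g hg, EU_fix hu ht], m1⟩⟩

theorem gen (hΦ : Φ.Nondeg) (hQ : ∀ x, Φ.B x x = 0 → Φ.Q x = 0) (H : Submodule F V) :
    ∀ D, IsSylowIn p D (Φ.EG ⊓ fixSub H) → (∀ u, Φ.Q u = 0 → Φ.EU u ⊓ D ≤ K) → D ≤ K := by
  induction H using WellFoundedGT.induction with
  | _ H ih =>
  intro D hD h
  by_cases h1 : D = ⊥
  · simp [h1]
  obtain ⟨u, u0, hu, uH, Du⟩ := fixv hQ (fun g hg => EG_le_isom (hD.le hg).1) hD.pgroup h1 fun g hg => (hD.le hg).2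
  obtain ⟨f, hf⟩ := hΦ.exists_ne u0
  obtain ⟨k1, k2, k3⟩ := step hD hu uH Du hf rfl
  refine k3.trans (sup_le (fun t ht => h u hu ⟨ht.1, k1 ht⟩) (ih _ (lt_of_le_of_ne le_sup_left fun e => hf ?_) _ k2
    fun v hv t ht => h v hv ⟨ht.1, ht.2.1⟩))
  exact Φ.mem_perp'.1 uH f (e ▸ Submodule.mem_sup_right (Submodule.subset_span (by simp)))

theorem transv_ne (hΦ : Φ.Nondeg) (u0 : u ≠ 0) {a : F} (a0 : a ≠ 0) {hu hv ha} : Φ.eich u 0 a hu hv ha ≠ 1 := fun e => by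
  obtain ⟨y, hy⟩ := hΦ.exists_ne u0
  simpa [eich_apply, κ.ε_ne, a0, hy, u0] using DFunLike.congr_fun e y

theorem qx_cent (hΦ : Φ.Nondeg) (hκ : KN κ) (hX : Φ.TS X) (xX : x ∈ X) (x0 : x ≠ 0) (hg : g ∈ Φ.EG) (hp : Pel p g)
    (hc : g ∈ centralizer (QX Φ X : Set (V ≃ₗ[F] V))) : g ∈ QX Φ X := by
  obtain ⟨a, a0, ha⟩ := hκ
  have h1 : ∀ x ∈ X, g x = x := fun x hx => by
    obtain ⟨c, hc⟩ := hΦ.fix_of_comm_transv (hX.1 x hx) a0 (ha.trans Φ.Q_zero.symm)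
      (hc _ (eich_mem_QX hX hx (zero_mem _))).symm
    exact hp.eigen hc
  refine mem_QX hg h1 fun y hy => ?_
  obtain ⟨b, hb⟩ := Φ.Q_range y
  obtain ⟨f, hf⟩ := hΦ.exists_ne x0
  have k := hc _ (eich_mem_QX hX xX (a := b) (hu := hX.1 x xX) (hv := hy x xX) (ha := hb) hy)
  rw [eq_comm, ← mul_inv_eq_iff_eq_mul, conj_eich (EG_le_isom hg)] at k
  have k2 := DFunLike.congr_fun k f
  simp only [eich_apply, h1 x xX] at k2
  refine (X.smul_mem_iff hf).1 ?_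
  rw [show Φ.B f x • (g y - y) = (κ.ε * (Φ.B f (g y) + b * Φ.B f x) - κ.ε * (Φ.B f y + b * Φ.B f x)) • x by
    linear_combination (norm := module) k2]
  exact X.smul_mem _ xX

theorem qx_le (h : Φ.Hyp e f) : QX Φ (F ∙ e) ≤ Φ.EU e := fun g hg => by
  have ge := hg.2.1 e (Submodule.mem_span_singleton_self e)
  obtain ⟨t, ht, m, -⟩ := exists_t (EG_le_isom hg.1) h.Qe ge (f := f) (by rw [h.Bfe]; exact κ.ε_ne)
  have k := mul_mem (EU_le_QX h.Qe ht) hg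
  rw [eq_inv_of_mul_eq_one_right (LinearEquiv.ext fun v => ?_ : t * g = 1)]
  · exact inv_mem ht
  obtain ⟨w, a, b, c⟩ := h.decomp v
  obtain ⟨s, hs⟩ := Submodule.mem_span_singleton.1 (k.2.2 w (Φ.mem_perp_singleton.2 a)).1
  have k2 := sub_perp (EG_le_isom k.1) m w
  rw [← hs, B_smul_left, h.Bef, mul_one] at k2
  rw [k2, zero_smul, eq_comm, sub_eq_zero] at hs
  rw [c, map_add, map_add, map_smul, map_smul, k.2.1 e (Submodule.mem_span_singleton_self e), m, hs]; rfl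

theorem move (hΦ : Φ.Nondeg) (hX : Φ.TS X) (hx : x ∈ X) (hy : y ∈ X) (h : x ∉ F ∙ (y - x)) :
    ∃ t ∈ Φ.EU (y - x), t x = y := by
  obtain ⟨v, h1, h2⟩ := hΦ.exists_sep h (-κ.ε)
  obtain ⟨a, ha⟩ := Φ.Q_range v
  refine ⟨_, eich_mem_EU (hX.1 _ (sub_mem hy hx)) (Φ.B_zero_symm (h2 _ (Submodule.mem_span_singleton_self _))) ha, ?_⟩
  simp only [eich_apply, hX.2 _ hx _ (sub_mem hy hx), h1]
  simp

theorem scale (hΦ : Φ.Nondeg) (hX : Φ.TS X) (he : e ∈ X) (hw : w ∈ X) (ef : Φ.B e f ≠ 0) (wf : Φ.B w f = 0)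
    (w0 : w ≠ 0) (hK : ∀ u ∈ X, Φ.EU u ≤ K) {c : F} (c0 : c ≠ 0) : ∃ m ∈ K, m e = c • e := by
  obtain ⟨t, ht, m⟩ := move hΦ hX he hw fun h => by
    obtain ⟨s, hs⟩ := Submodule.mem_span_singleton.1 h
    have k := congrArg (Φ.B · f) hs
    simp only [map_smul, map_sub, LinearMap.smul_apply, LinearMap.sub_apply, wf, smul_eq_mul] at k
    obtain rfl : s = -1 := mul_right_cancel₀ ef (by linear_combination -k)
    exact w0 (by linear_combination (norm := module) -hs)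
  obtain ⟨t', ht', m'⟩ := move hΦ hX hw (X.smul_mem c he) fun h => by
    obtain ⟨s, hs⟩ := Submodule.mem_span_singleton.1 h
    have k := congrArg (Φ.B · f) hs
    simp only [map_smul, map_sub, LinearMap.smul_apply, LinearMap.sub_apply, wf, smul_eq_mul] at k
    obtain rfl : s = 0 := by simpa [c0, ef] using k
    exact w0 (by simpa using hs.symm)
  exact ⟨t' * t, mul_mem (hK _ (sub_mem (X.smul_mem c he) hw) ht') (hK _ (sub_mem hw he) ht),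
    by rw [LinearEquiv.mul_apply, m, m']⟩

theorem ts_two (he : Φ.Q e = 0) (hw : Φ.Q w = 0) (h : Φ.B w e = 0) : Φ.TS ((F ∙ e) ⊔ F ∙ w) :=
  (ts_singleton he).sup (ts_singleton hw) ((Submodule.span_singleton_le_iff_mem _ _).2
    (Φ.mem_perp_singleton.2 (Φ.B_zero_symm h)))

theorem mem_l : e ∈ (F ∙ e) ⊔ F ∙ w := Submodule.mem_sup_left (Submodule.mem_span_singleton_self e)
theorem mem_r : w ∈ (F ∙ e) ⊔ F ∙ w := Submodule.mem_sup_right (Submodule.mem_span_singleton_self w)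

theorem EU_stab (hX : Φ.TS X) (hu : u ∈ X) : Φ.EU u ≤ stabSub X := fun t ht => by
  obtain ⟨v, a, hv, ha, rfl⟩ := EU_elim (hX.1 u hu) ht
  refine mem_stabSub'.2 fun x hx => ?_
  simp only [eich_apply, hX.2 x hx u hu, zero_smul, add_zero]
  exact sub_mem hx (X.smul_mem _ hu)

/-- the hypotheses on the formed space -/
structure Ok (Φ : Form κ V) : Prop where
  nd : Φ.Nondeg
  kn : KN κ
  hQ : ∀ x, Φ.B x x = 0 → Φ.Q x = 0
  hyp : ∃ e f, Φ.Hyp e f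
  W : ∀ e f, Φ.Hyp e f → ∃ x y, (Φ.res (Wp Φ e f)).Hyp x y
  E : ∀ e f, Φ.Hyp e f → (Φ.res (Wp Φ e f)).sisom ≤ (Φ.res (Wp Φ e f)).EG
  sp : ∀ a, a ≠ 0 → κ.π a = 0 → ∀ A : AddSubgroup F, (∀ c, c * κ.σ c * a ∈ A) → ∀ b, κ.π b = 0 → b ∈ A
  Z : NA κ ∨ ∀ e f w a, Φ.Hyp e f → Φ.B w e = 0 → Φ.B w f = 0 → w ≠ 0 → ∃ g ∈ Φ.EG, ∃ g' ∈ Φ.EG,
    g e = e ∧ g' e = e ∧ w + g w + g' w = 0 ∧ a + a + Φ.B (g w) w + a + Φ.B (g' w) (w + g w) ≠ 0

theorem Ok.exW (hΦ : Ok Φ) (h : Φ.Hyp e f) : ∃ w, w ≠ 0 ∧ Φ.Q w = 0 ∧ Φ.B w e = 0 ∧ Φ.B w f = 0 := by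
  obtain ⟨x, y, k⟩ := hΦ.W e f h
  exact ⟨x, fun e => k.e_ne (Subtype.ext e), k.Qe, Φ.mem_perp_pair.1 x.2⟩

theorem Ok.trans (hΦ : Ok Φ) (hx : Φ.Q x = 0) (hy : Φ.Q y = 0) (x0 : x ≠ 0) (y0 : y ≠ 0) : ∃ g ∈ Φ.EG, g x = y := by
  obtain ⟨t, ht, c, c0, m⟩ := hΦ.nd.EG_point (Or.inl hΦ.kn) hx hy x0 y0
  obtain ⟨f, h⟩ := hΦ.nd.exists_hyp hy y0
  obtain ⟨w, w0, hw, h1, h2⟩ := hΦ.exW h
  obtain ⟨s, hs, m'⟩ := scale hΦ.nd (ts_two hy hw h1) mem_l mem_r (by simp [h.Bef]) h2 w0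
    (fun u _ => EU_le_EG u) (inv_ne_zero c0)
  exact ⟨s * t, mul_mem hs ht, by rw [LinearEquiv.mul_apply, m, map_smul, m', smul_smul, mul_inv_cancel₀ c0, one_smul]⟩

theorem Ok.stab (hΦ : Ok Φ) (h : Φ.Hyp e f) (hK : ∀ u, Φ.Q u = 0 → ∀ t ∈ Φ.EU u, t e = e → t ∈ K) (hg : g ∈ Φ.EG)
    (ge : g e = e) : g ∈ K := by
  obtain ⟨t, ht, m, -⟩ := exists_t (EG_le_isom hg) h.Qe ge (f := f) (by rw [h.Bfe]; exact κ.ε_ne)
  have te := EU_fix h.Qe ht
  have k := mul_mem (EU_le_EG e ht) hg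
  obtain ⟨s, hs, m'⟩ := hΦ.nd.exists_extend h.nondeg (EG_le_isom k)
    (mem_fixSub_span.2 (by simpa [te, ge] using m))
  rw [← K.mul_mem_cancel_left (hK e h.Qe t ht te), ← m']
  refine EG_le (K := K.comap (hΦ.nd.extend h.nondeg)) (fun u v a hu hv ha => ?_) (hΦ.E e f h ⟨hs, ?_⟩)
  · have k1 := hΦ.nd.extend_eich h.nondeg u v a hu hv ha
    refine hK u hu _ (k1 ▸ eich_mem_EU _ _ _) (hΦ.nd.extend_left _ _ (Submodule.subset_span (by simp)))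
  · refine MonoidHom.mem_ker.2 ?_
    rw [← hΦ.nd.det_extend h.nondeg, m']; exact (EG_le_sisom k).2

variable {C : (V ≃ₗ[F] V) → Prop}

theorem Ok.all (hΦ : Ok Φ) (hC : CC p Φ.EG C) (e0 : e ≠ 0) {b : F} (b0 : b ≠ 0) {he hv hb}
    (h : C (Φ.eich e 0 b he hv hb)) (hu : Φ.Q u = 0) : ∀ t ∈ Φ.EU u, C t := by
  have h1 : ∀ x hx hv, C (Φ.eich x 0 b hx hv hb) := fun x hx hv => by
    by_cases x0 : x = 0
    · subst x0
      rw [show Φ.eich 0 0 b hx hv hb = 1 from LinearEquiv.ext fun y => by simp [eich_apply]]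
      exact hC.one
    obtain ⟨g, hg, rfl⟩ := hΦ.trans he hx e0 x0
    have := hC.conj _ h g hg
    rwa [conj_eich (EG_le_isom hg), eich_congr rfl (map_zero g) rfl] at this
  obtain ⟨K, hK⟩ := hC.sub _ (EU_le_EG u) (isP_EU hu)
  have h0 : Φ.EIn K u 0 := fun a hu hv ha => by
    obtain ⟨_, k⟩ := hΦ.sp b b0 (by simpa using hb)
      { carrier := {a | ∃ ha, Φ.eich u 0 a hu hv ha ∈ K}
        zero_mem' := ⟨by simp, by rw [eich_zero]; exact one_mem _⟩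
        add_mem' := fun {a a'} ⟨_, k⟩ ⟨_, k'⟩ => by
          have := mul_mem k k'
          rw [eich_mul, eich_congr rfl (add_zero _) (a' := a + a') (by simp)] at this
          exact ⟨_, this⟩
        neg_mem' := fun {a} ⟨ha, k⟩ => by
          have := inv_mem k
          rw [eich_inv, eich_congr rfl neg_zero (a' := -a)
            (by linear_combination Φ.ker_π (a := a) (by simpa using ha))] at this
          exact ⟨_, this⟩ } (fun c => by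
          have := h1 (c • u) (Φ.Q_smul_zero hu c) (by simp)
          rw [eich_smul hu hv, eich_congr rfl (smul_zero _) rfl] at this
          exact ⟨_, (hK _).2 ⟨eich_mem_EU _ _ _, this⟩⟩) a (by simpa using ha)
    exact k
  have h2 : ∀ w, Φ.Q w = 0 → Φ.B w u = 0 → ∀ c : F, Φ.EIn K u (c • w) := fun w hw wu c => by
    have hX := ts_two hu hw wu
    obtain ⟨K', hK'⟩ := hC.sub (QX Φ ((F ∙ u) ⊔ F ∙ w)) (fun _ h => h.1) (isP_QX _)
    obtain ⟨d, rfl⟩ : ∃ d, c = -(κ.ε * b * κ.σ d) :=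
      ⟨κ.σ (-(κ.ε * c / b)), by rw [κ.σσ]; field_simp; linear_combination -c * κ.εε⟩
    have m := add_mem (mem_r (F := F) (e := u) (w := w)) (Submodule.smul_mem _ d mem_l)
    have k1 := (hK' _).2 ⟨eich_mem_QX hX m (zero_mem _), h1 _ (hX.1 _ m) (by simp)⟩
    have k2 := (hK' _).2 ⟨eich_mem_QX hX mem_r (zero_mem _), h1 _ hw (by simp)⟩
    have hb' : b + κ.ε * κ.σ b = 0 := Φ.ker_π (by simpa using hb)
    have k3 : Φ.eich (w + d • u) 0 b (hX.1 _ m) (by simp) hb = Φ.eich u (-(κ.ε * b * κ.σ d) • w) (d * κ.σ d * b) hu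
        (by simp [wu]) (by rw [κ.π_norm, hb, Φ.Q_smul_zero hw]; simp) * Φ.eich w 0 b hw (by simp) hb :=
      LinearEquiv.ext fun x => by
        simp only [LinearEquiv.mul_apply, eich_apply, map_add, map_sub, map_smul, B_smul_right, B_smul_left, map_zero,
          LinearMap.add_apply, LinearMap.sub_apply, LinearMap.smul_apply, wu, Φ.B_self_of_Q hw, smul_zero, add_zero,
          zero_add, map_neg, map_mul, κ.σσ, κ.σε, smul_eq_mul, mul_zero, sub_zero]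
        match_scalars
        · ring
        · ring
        · linear_combination (-κ.ε * d * Φ.B x w) * hb'
    rw [k3, K'.mul_mem_cancel_right k2] at k1
    exact h0.of_one ((hK _).2 ⟨eich_mem_EU _ _ _, ((hK' _).1 k1).2⟩)
  intro t ht
  obtain ⟨v, a, hv, ha, rfl⟩ := EU_elim hu ht
  refine ((hK _).1 ((?_ : Φ.EIn K u v) a hu hv ha)).2
  by_cases u0 : u = 0
  · subst u0; exact EIn.zero_left
  obtain ⟨f, hf⟩ := hΦ.nd.exists_hyp hu u0
  obtain ⟨x, y, k⟩ := hΦ.W u f hf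
  exact hf.EIn_of_perp h0 (fun w a b => h0.of_res_span (fun w hw => (Φ.mem_perp_pair.1 hw).1) k.span_sing
    (fun s hs => h2 s hs (Φ.mem_perp_pair.1 s.2).1) (Φ.mem_perp_pair.2 ⟨a, b⟩)) v

theorem Ok.transv (hΦ : Ok Φ) (hC : CC p Φ.EG C) (h : Φ.Hyp e f) (hg : g ∈ Φ.EU e) (g1 : g ≠ 1) (hc : C g)
    (hz : ∀ t ∈ Φ.EU e, t * g = g * t) : ∃ b, b ≠ 0 ∧ ∃ hb, C (Φ.eich e 0 b h.Qe (by simp) hb) := by
  obtain ⟨w, a, hv, ha, hw, rfl⟩ := EU_elim' h hg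
  by_cases w0 : w = 0
  · subst w0
    exact ⟨a, by rintro rfl; exact g1 (eich_zero _), ha, hc⟩
  obtain ⟨g, hg, g', hg', m1, m2, m3, m4⟩ := (hΦ.Z.resolve_left fun hn => w0 (hn.cent hΦ.nd h hw hz)) e f w a h hv hw w0
  obtain ⟨K, hK⟩ := hC.sub _ (EU_le_EG e) (isP_EU h.Qe)
  have k1 := hC.conj _ hc g hg
  have k2 := hC.conj _ hc g' hg'
  rw [conj_eich (EG_le_isom hg), eich_congr m1 rfl rfl] at k1
  rw [conj_eich (EG_le_isom hg'), eich_congr m2 rfl rfl] at k2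
  have := ((hK _).1 (mul_mem (mul_mem ((hK _).2 ⟨eich_mem_EU _ _ _, hc⟩) ((hK _).2 ⟨eich_mem_EU _ _ _, k1⟩))
    ((hK _).2 ⟨eich_mem_EU _ _ _, k2⟩))).2
  rw [eich_mul, eich_mul, eich_congr rfl m3 rfl] at this
  exact ⟨_, m4, _, this⟩

theorem Ok.ne_bot (hΦ : Ok Φ) (hD : IsSylowIn p D (Φ.EG ⊓ fixSub H)) (u0 : u ≠ 0) (hu : Φ.Q u = 0)
    (uH : u ∈ Φ.perp H) : D ≠ ⊥ := by
  obtain ⟨a, a0, ha⟩ := hΦ.kn
  exact syl_ne_bot hD (isP_EU hu _ (eich_mem_EU hu (v := 0) (by simp) (ha.trans Φ.Q_zero.symm)))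
    ⟨eich_mem_EG _ _ _, fun h hh => eich_fix (Φ.mem_perp'.1 uH h hh) (by simp)⟩ (transv_ne hΦ.nd u0 a0)

theorem Ok.simple (hΦ : Ok Φ) (hS : IsSylowIn p S Φ.EG) : (fusionSystemOfSubgroup Φ.EG S hS.le).IsSimple p := by
  have := finite_aut (F := F) (V := V)
  have hS' : IsSylowIn p S (Φ.EG ⊓ fixSub ⊥) := by
    rwa [inf_eq_left.2 fun g _ v hv => by rw [(Submodule.mem_bot F).1 hv, map_zero]]
  have h1 : S ≠ ⊥ := by
    obtain ⟨e, f, h⟩ := hΦ.hyp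
    exact hΦ.ne_bot hS' h.e_ne h.Qe (by simp)
  obtain ⟨e, e0, he, -, Se⟩ := fixv hΦ.hQ (fun g hg => EG_le_isom (hS.le hg)) hS.pgroup h1 fun g hg => (hS'.le hg).2
  obtain ⟨f, h⟩ := hΦ.nd.exists_hyp he e0
  obtain ⟨k1, k2, k3⟩ := step hS' he (by simp) Se (f := f) (by rw [h.Bfe]; exact κ.ε_ne) (bot_sup_eq _).symm
  have k4 : Φ.EU e ≤ S := fun t ht => k1 ⟨ht, fun v hv => by rw [(Submodule.mem_bot F).1 hv, map_zero]⟩
  obtain ⟨w, w0, hw, hwp, Dw⟩ := fixv hΦ.hQ (k2.le.trans (inf_le_left.trans EG_le_isom)) k2.pgroup (by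
    obtain ⟨w, w0, hw, a⟩ := hΦ.exW h
    exact hΦ.ne_bot k2 w0 hw (Φ.mem_perp_pair.2 a)) (k2.le.trans inf_le_right)
  obtain ⟨we, wf⟩ := Φ.mem_perp_pair.1 hwp
  have hX := ts_two he hw we
  have q : ∀ X, Φ.TS X → e ∈ X → S ≤ stabSub X → QX Φ X ≤ S ∧ S ≤ normalizer (QX Φ X : Set (V ≃ₗ[F] V)) ∧
      S ⊓ centralizer (QX Φ X : Set (V ≃ₗ[F] V)) ≤ QX Φ X := fun X hX eX hs => by
    have a : S ≤ normalizer (QX Φ X : Set (V ≃ₗ[F] V)) := fun g hg => mem_nz (QX_conj (hS.le hg) (hs hg))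
    exact ⟨hS.le_of_le_normalizer (isP_iff.1 (isP_QX X)) (fun _ h => h.1) a, a, fun g hg =>
      qx_cent hΦ.nd hΦ.kn hX eX e0 (hS.le hg.1) (isP_iff.2 hS.pgroup g hg.1) hg.2⟩
  have q1 := q _ (ts_singleton he) (Submodule.mem_span_singleton_self e) fun g hg =>
    mem_stab_line.2 ⟨1, by simp [Se g hg]⟩
  have s2 : S ≤ stabSub ((F ∙ e) ⊔ F ∙ w) := k3.trans (sup_le (inf_le_left.trans (EU_stab hX mem_l)) fun g hg =>
    mem_stabSub'.2 fun v hv => by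
      obtain ⟨_, a, _, b, rfl⟩ := Submodule.mem_sup.1 hv
      obtain ⟨s, rfl⟩ := Submodule.mem_span_singleton.1 a
      obtain ⟨s', rfl⟩ := Submodule.mem_span_singleton.1 b
      rwa [map_add, map_smul, map_smul, Se g hg.1, Dw g hg])
  have q2 := q _ hX mem_l s2
  refine simple_sub hS h1 (fun C hC z hz z1 zc Cz x hx => ?_) fun K _ hK => ?_
  · obtain ⟨b, b0, hb, m⟩ := hΦ.transv hC h (qx_le h (q1.2.2 ⟨hz, centralizer_le q1.1 zc⟩)) z1 Cz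
      fun t ht => zc t (k4 ht)
    obtain ⟨K, hK⟩ := hC.sub S hS.le (isP_iff.2 hS.pgroup)
    exact ((hK x).1 (gen hΦ.nd hΦ.hQ ⊥ S hS' (fun u hu t ht => (hK t).2 ⟨ht.2, hΦ.all hC e0 b0 m hu t ht.1⟩) hx)).2
  · refine borel_le hS e0 Se (fun g ⟨_, hg⟩ => ?_) (fun g hg ge => hΦ.stab h (fun u hu t ht te => ?_) hg ge)
      (fun c c0 => scale hΦ.nd hX mem_l mem_r (by simp [h.Bef]) wf w0 (fun u hu t ht => ?_) c0)
      (le_Oq hS.pgroup (le_inf hS.le q2.2.1)) ((Oq_le _ _).trans inf_le_left) (hK _ q1.1 q1.2.1 q1.2.2)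
      (hK _ q2.1 q2.2.1 q2.2.2)
    · obtain ⟨c, hc⟩ := Submodule.mem_span_singleton.1 (mem_of_fix hΦ.nd (Or.inl hΦ.kn) he e0 (x := g e) fun t ht =>
        ⟨1, by simpa using congrArg g (Se _ ((mem_normalizer_iff''.1 hg t).1 (k4 ht)))⟩)
      exact ⟨c, hc.symm⟩
    · exact mem_Oq' (isP_EU hu t ht) ⟨EU_le_EG u ht, mem_nz (QX_conj (EU_le_EG u ht) (mem_stab_line.2 ⟨1, by simp [te]⟩))⟩
    · exact mem_Oq' (isP_EU (hX.1 u hu) t ht) ⟨EU_le_EG u ht, mem_nz (QX_conj (EU_le_EG u ht) (EU_stab hX hu ht))⟩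

theorem Ok.quot (hΦ : Ok Φ) {H : Type*} [Group H] (e : H ≃* Φ.EG) (T : Sylow p (H ⧸ center H)) :
    (groupFusionSystem (T : Subgroup (H ⧸ center H))).IsSimple p := by
  have := finite_aut (F := F) (V := V)
  obtain ⟨S, hS, -⟩ := exists_sylowIn (p := p) (H := Φ.EG) IsPGroup.of_bot bot_le
  refine simple_quot hS (hΦ.simple hS) e (fun z _ hc hp => LinearEquiv.ext fun v => ?_) T
  obtain ⟨a, a0, ha⟩ := hΦ.kn
  obtain ⟨e, f, h⟩ := hΦ.hyp
  refine mem_fixSub_span.2 (fun x hx => ?_) v (h.span_sing ▸ Submodule.mem_top)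
  obtain ⟨c, k⟩ := hΦ.nd.fix_of_comm_transv hx a0 (ha.trans Φ.Q_zero.symm) (hc _ (eich_mem_EG _ _ _)).symm
  exact hp.eigen k

theorem ok_unit {q : ℕ} {hF : Fintype.card F = q ^ 2} {Φ : Form (unitK hF) V} (hΦ : Φ.Nondeg) (h : 4 ≤ finrank F V) :
    Ok Φ where
  nd := hΦ
  kn := unit_ker
  hQ x hx := by
    obtain ⟨a, ha⟩ := Φ.Q_range x
    rw [← ha]; simpa [hx] using (Φ.B_self x a ha).symm
  hyp := hΦ.unit_hyp (by omega)
  W _ _ hef := (hef.perp_nondeg hΦ).unit_hyp (by have := hef.finrank_perp hΦ; omega)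
  E _ _ hef := (hef.perp_nondeg hΦ).unit_EG.ge
  sp a a0 ha A hA b hb := by
    simp only [Kind.unit_π] at ha hb
    obtain ⟨c, hc⟩ := exists_norm_eq hF (μ := b / a) (by
      rw [map_div₀, eq_neg_of_add_eq_zero_right ha, eq_neg_of_add_eq_zero_right hb, neg_div_neg_eq])
    simpa [hc, a0] using hA c
  Z := Or.inl (na_unit hF)

theorem ok_symp {Φ : Form (Kind.symp F) V} (hΦ : Φ.Nondeg) (h : 4 ≤ finrank F V)
    (h' : finrank F V = 4 → Fintype.card F ≠ 2) : Ok Φ where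
  nd := hΦ
  kn := symp_ker
  hQ x _ := Φ.symp_Q x
  hyp := hΦ.symp_hyp (by omega)
  W _ _ hef := (hef.perp_nondeg hΦ).symp_hyp (by have := hef.finrank_perp hΦ; omega)
  E _ _ hef := sisom_le_isom.trans (hef.perp_nondeg hΦ).symp_EG.ge
  sp a a0 _ A hA b _ := by
    simpa [a0] using all_of_sq (A.comap (AddMonoidHom.mulRight a)) (by simpa using hA) (b / a)
  Z := by
    by_cases h2 : (2 : F) = 0
    swap
    · refine Or.inl fun b h => (mul_eq_zero.1 ?_).resolve_left h2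
      have := h 1
      simp only [Kind.symp_ε, Kind.symp_σ] at this; linear_combination this
    refine Or.inr fun e f w a hef we wf w0 => ?_
    obtain ⟨v, ve, vf, v0, v1, v2⟩ : ∃ v, Φ.B v e = 0 ∧ Φ.B v f = 0 ∧ v ≠ 0 ∧ w + v ≠ 0 ∧ a + Φ.B v w ≠ 0 := by
      by_cases a0 : a = 0
      · obtain ⟨v, hv⟩ := (hef.perp_nondeg hΦ).exists_ne (y := ⟨w, Φ.mem_perp_pair.2 ⟨we, wf⟩⟩)
          fun e => w0 (congrArg Subtype.val e)
        rw [res_B] at hv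
        refine ⟨v, (Φ.mem_perp_pair.1 v.2).1, (Φ.mem_perp_pair.1 v.2).2, fun e => hv (by simp [e]), fun e => hv ?_,
          by simpa [a0] using hv⟩
        rw [eq_neg_of_add_eq_zero_right e]; simp [symp_self]
      by_cases h4 : finrank F V = 4
      · obtain ⟨c, c0, c1⟩ := exists_ne_zero_one (h' h4)
        refine ⟨-c • w, by simp [we], by simp [wf], by simp [c0, w0], fun e => w0 ?_, by simpa [symp_self] using a0⟩
        exact (smul_eq_zero.1 (show (1 - c) • w = 0 by rw [← e]; module)).resolve_left (sub_ne_zero.2 c1.symm)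
      obtain ⟨v, hv, k⟩ : ∃ v ∈ Φ.perp (Submodule.span F {e, f} ⊔ F ∙ w), v ∉ F ∙ w := by
        by_contra! k
        have k1 := Submodule.finrank_mono (show _ ≤ _ from k)
        have k2 := hΦ.finrank_perp (Submodule.span F {e, f} ⊔ F ∙ w)
        have k3 := Submodule.finrank_add_le_finrank_add_finrank (Submodule.span F {e, f}) (F ∙ w)
        rw [hef.finrank_span] at k3
        rw [finrank_span_singleton w0] at k1 k3
        omega
      rw [perp_sup] at hv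
      refine ⟨v, (Φ.mem_perp_pair.1 hv.1).1, (Φ.mem_perp_pair.1 hv.1).2, fun e => k (by simp [e]), fun e => k ?_,
        by simpa [Φ.mem_perp_singleton.1 hv.2] using a0⟩
      rw [eq_neg_of_add_eq_zero_right e]; simp
    have k : ∀ x, Φ.B x e = 0 → Φ.B x f = 0 → x ≠ 0 → ∃ g ∈ Φ.EG, g e = e ∧ g w = x := fun x xe xf x0 => by
      have n : ∀ y, Φ.B y f = 0 → y ≠ 0 → y ∉ F ∙ e := fun y yf y0 hy => by
        obtain ⟨s, rfl⟩ := Submodule.mem_span_singleton.1 hy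
        exact y0 (by simp [show s = 0 by simpa [hef.Bef] using yf])
      obtain ⟨g, hg, m1, m2⟩ := hΦ.symp_exists_map (n w wf w0) (n x xf x0) fun z hz => by
        obtain ⟨s, rfl⟩ := Submodule.mem_span_singleton.1 hz
        simp [Φ.B_zero_symm we, Φ.B_zero_symm xe]
      exact ⟨g, hΦ.symp_EG ▸ hg, m2 e (Submodule.mem_span_singleton_self e), m1⟩
    obtain ⟨g, hg, m1, m2⟩ := k v ve vf v0
    obtain ⟨g', hg', m3, m4⟩ := k (-(w + v)) (by simp [we, ve]) (by simp [wf, vf]) (neg_ne_zero.2 v1)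
    refine ⟨g, hg, g', hg', m1, m3, by simp [m2, m4], fun e => v2 ?_⟩
    rw [m2, m4, map_neg, LinearMap.neg_apply, symp_self] at e
    linear_combination e - a * h2

end H9.SF
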