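import Cfsg.Agent.H9.SF1

/-! Simplicity of the fusion systems of the linear groups in the defining characteristic. -/

set_option autoImplicit false
set_option linter.unusedSectionVars false

namespace H9.SF
open Subgroup Cfsg H6.CA H5 Module
open H2 hiding fixSub
open LinearEquiv (transvection)

variable {F : Type*} [Field F] [Fintype F] {V : Type*} [AddCommGroup V] [Module F V]
  [FiniteDimensional F V] {p : ℕ} [Fact p.Prime] [CharP F p] {g t : V ≃ₗ[F] V} {e u v w x y : V}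
  {D S K : Subgroup (V ≃ₗ[F] V)} {A H X : Submodule F V} {φ φ' ψ : Dual F V}

/-- trivial action on the quotient -/
def triv (H : Submodule F V) : Subgroup (V ≃ₗ[F] V) where
  carrier := {g | ∀ y, g y - y ∈ H}
  one_mem' y := by simp
  mul_mem' {a b} ha hb y := by simpa using add_mem (ha (b y)) (hb y)
  inv_mem' {a} ha y := by simpa using neg_mem (ha (a⁻¹ y))

/-- the unipotent radical -/
def QL (X : Submodule F V) : Subgroup (V ≃ₗ[F] V) := triv X ⊓ fixSub X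

variable (F V) in
/-- the special linear group -/
noncomputable def SG : Subgroup (V ≃ₗ[F] V) := LinearEquiv.det.ker

theorem ex_dual (h : x ∉ A) : ∃ φ : Dual F V, φ x = 1 ∧ ∀ w ∈ A, φ w = 0 := by
  obtain ⟨f, h1, h2⟩ := A.exists_dual_map_eq_bot_of_notMem h inferInstance
  exact ⟨(f x)⁻¹ • f, by simp [h1], fun w hw => by
    simp [show f w = 0 from by simpa [h2] using Submodule.mem_map_of_mem (f := f) hw]⟩

theorem isP_QL (X : Submodule F V) : IsP p (QL X) := fun g hg => pel_of_cube fun x => hg.2 _ (hg.1 _)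

theorem pel_SG (h : Pel p g) : g ∈ SG F V := by
  obtain ⟨k, hk⟩ := h
  have := congrArg (fun g => ((LinearEquiv.det g : Fˣ) : F)) hk
  simp only [map_pow, map_one, Units.val_pow_eq_pow_val, Units.val_one] at this
  refine Units.ext (sub_eq_zero.1 (pow_eq_zero_iff (pow_ne_zero k (Fact.out : p.Prime).ne_zero) |>.1 ?_))
  rw [sub_pow_char_pow, this]; simp

include p in
theorem QL_le (X : Submodule F V) : QL X ≤ SG F V := fun g hg => pel_SG (isP_QL (p := p) X g hg)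

theorem tv_mem (h : φ u = 0) (hu : u ∈ X) (hX : ∀ x ∈ X, φ x = 0) : transvection h ∈ QL X :=
  ⟨fun y => by simpa [LinearMap.transvection.apply] using X.smul_mem _ hu, fun x hx => by simp [LinearMap.transvection.apply, hX x hx]⟩

theorem msp (u : V) : u ∈ F ∙ u := Submodule.mem_span_singleton_self u

theorem tv_mem' (h : φ u = 0) : transvection h ∈ QL (F ∙ u) :=
  tv_mem h (msp u) fun x hx => by obtain ⟨s, rfl⟩ := Submodule.mem_span_singleton.1 hx; simp [h]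

theorem QL_elim (u0 : u ≠ 0) (h : t ∈ QL (F ∙ u)) : ∃ (φ : Dual F V) (h : φ u = 0), t = transvection h := by
  obtain ⟨ψ, h1, -⟩ := ex_dual (A := ⊥) (F := F) u0
  refine ⟨ψ ∘ₗ ((t : V →ₗ[F] V) - LinearMap.id), by simp [h.2 u (msp u)], LinearEquiv.ext fun y => ?_⟩
  obtain ⟨s, hs⟩ := Submodule.mem_span_singleton.1 (h.1 y)
  have : ψ (t y) - ψ y = s := by rw [← map_sub, ← hs]; simp [h1]
  simp [LinearMap.transvection.apply, this, hs]

theorem QL_conj (hg : g ∈ stabSub X) : ∀ t ∈ QL X, g * t * g⁻¹ ∈ QL X := fun t ht =>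
  ⟨fun y => by simpa using mem_stabSub'.1 hg _ (ht.1 (g⁻¹ y)), fun x hx => by
    rw [LinearEquiv.mul_apply, LinearEquiv.mul_apply, ht.2 _ (mem_stabSub'.1 (inv_mem hg) x hx)]; simp⟩

theorem triv_stab (h : A ≤ X) : triv A ≤ stabSub X := fun g hg =>
  mem_stabSub'.2 fun x hx => by simpa using add_mem hx (h (hg x))

theorem tv_conj (h : φ u = 0) (h' : φ' v = 0) (h1 : g u = v) (h2 : ∀ y, φ' (g y) = φ y) :
    g * transvection h * g⁻¹ = transvection h' := LinearEquiv.ext fun y => by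
  obtain ⟨y, rfl⟩ := g.surjective y
  simp [LinearMap.transvection.apply, h1, h2]

theorem fix_sup : g ∈ fixSub (A ⊔ F ∙ u) ↔ g ∈ fixSub A ∧ g u = u := by
  refine ⟨fun h => ⟨fun v hv => h v (Submodule.mem_sup_left hv), h _ (Submodule.mem_sup_right (msp u))⟩,
    fun h v hv => ?_⟩
  obtain ⟨a, ha, _, hb, rfl⟩ := Submodule.mem_sup.1 hv
  obtain ⟨s, rfl⟩ := Submodule.mem_span_singleton.1 hb
  rw [map_add, map_smul, h.1 a ha, h.2]

theorem stepL (hD : IsSylowIn p D (SG F V ⊓ (triv H ⊓ fixSub A))) (uH : u ∈ H) (Du : ∀ g ∈ D, g u = u) (hψ : ψ u = 1)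
    {G' : Subgroup (V ≃ₗ[F] V)} (e : G' = SG F V ⊓ (triv (H ⊓ LinearMap.ker ψ) ⊓ fixSub (A ⊔ F ∙ u))) :
    QL (F ∙ u) ⊓ fixSub A ≤ D ∧ IsSylowIn p (D ⊓ G') G' ∧ D ≤ QL (F ∙ u) ⊓ fixSub A ⊔ D ⊓ G' := by
  have := finite_aut (F := F) (V := V)
  have k : QL (F ∙ u) ≤ triv H := fun g hg y => (Submodule.span_singleton_le_iff_mem _ _).2 uH (hg.1 y)
  subst e
  refine syl_step hD (fun g hg => ⟨hg.1, fun y => (hg.2.1 y).1, (fix_sup.1 hg.2.2).1⟩)
    (fun g hg => ⟨QL_le (p := p) _ hg.1, k hg.1, hg.2⟩) (fun g hg => isP_QL _ g hg.1) (fun g hg t ht => ?_) fun g hg => ?_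
  · have h1 : g ∈ fixSub A ∧ g u = u := hg.elim (fun h => ⟨(hD.le h).2.2, Du g h⟩) fun h => fix_sup.1 h.2.2
    exact ⟨QL_conj (mem_stab_line.2 ⟨1, by simp [h1.2]⟩) t ht.1,
      Subgroup.mul_mem _ (Subgroup.mul_mem _ h1.1 ht.2) (Subgroup.inv_mem _ h1.1)⟩
  · have h1 : (ψ ∘ₗ (g⁻¹ : V ≃ₗ[F] V).toLinearMap - ψ) u = 0 := by
      simpa [sub_eq_zero] using congrArg ψ (Du _ (inv_mem hg))
    have h2 : transvection h1 ∈ fixSub A := fun a ha => by
      have := congrArg ψ ((fixSub A).inv_mem (hD.le hg).2.2 a ha)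
      rw [LinearEquiv.transvection.apply, LinearMap.sub_apply, LinearMap.comp_apply, LinearEquiv.coe_coe, this]; simp
    refine ⟨_, ⟨tv_mem' h1, h2⟩, Subgroup.mul_mem _ (QL_le (p := p) _ (tv_mem' h1)) (hD.le hg).1,
      fun y => ⟨mul_mem (k (tv_mem' h1)) (hD.le hg).2.1 y, ?_⟩, fix_sup.2 ⟨mul_mem h2 (hD.le hg).2.2, ?_⟩⟩
    · simp [LinearMap.transvection.apply, hψ]
    · rw [LinearEquiv.mul_apply, Du g hg, LinearEquiv.transvection.apply, h1]; simp

theorem genL (H : Submodule F V) : ∀ A D, IsSylowIn p D (SG F V ⊓ (triv H ⊓ fixSub A)) →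
    (∀ u, u ≠ 0 → QL (F ∙ u) ⊓ D ≤ K) → D ≤ K := by
  induction H using WellFoundedLT.induction with
  | _ H ih =>
  intro A D hD h
  by_cases h1 : H = ⊥
  · intro g hg
    rw [show g = 1 from LinearEquiv.ext fun y => by simpa [h1, sub_eq_zero] using (hD.le hg).2.1 y]
    exact one_mem _
  obtain ⟨u, uH, u0, Du⟩ := (isP_iff.2 hD.pgroup).exists_fix' (T := H)
    (fun g hg => mem_stabSub'.1 (triv_stab le_rfl (hD.le hg).2.1)) h1
  obtain ⟨ψ, hψ, -⟩ := ex_dual (A := ⊥) (F := F) u0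
  obtain ⟨k1, k2, k3⟩ := stepL hD uH Du hψ rfl
  refine k3.trans (sup_le (fun t ht => h u u0 ⟨ht.1, k1 ht⟩) (ih _ (lt_of_le_of_ne inf_le_left fun e => ?_) _ _ k2
    fun v hv t ht => h v hv ⟨ht.1, ht.2.1⟩))
  simpa [hψ] using (e.ge uH).2

theorem exch (hx : x ∉ A) (hy : y ∉ A ⊔ F ∙ x) {c : F} : x ∉ A ⊔ F ∙ (y - c • x) := fun h => by
  obtain ⟨a, ha, _, hb, e⟩ := Submodule.mem_sup.1 h
  obtain ⟨s, rfl⟩ := Submodule.mem_span_singleton.1 hb
  by_cases s0 : s = 0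
  · exact hx (by rwa [← e, s0, zero_smul, add_zero])
  refine hy ((Submodule.smul_mem_iff _ s0).1 ?_)
  rw [show s • y = -a + (1 + s * c) • x by rw [add_smul, one_smul]; nth_rewrite 1 [← e]; module]
  exact Submodule.add_mem_sup (neg_mem ha) (Submodule.smul_mem _ _ (msp x))

theorem moveL (hx : x ∉ A) (hy : y ∉ A ⊔ F ∙ x) : ∃ t ∈ QL (F ∙ (y - x)) ⊓ fixSub A, t x = y := by
  obtain ⟨φ, h1, h2⟩ := ex_dual (exch hx hy (c := 1))
  rw [one_smul] at h2
  exact ⟨_, ⟨tv_mem' (h2 _ (Submodule.mem_sup_right (msp _))), fun a ha => by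
    simp [LinearMap.transvection.apply, h2 a (Submodule.mem_sup_left ha)]⟩, by simp [LinearMap.transvection.apply, h1]⟩

theorem transL (xX : x ∈ X) (yX : y ∈ X) (wX : w ∈ X) (hx : x ∉ A) (hy : y ∉ A) (hw : w ∉ A ⊔ F ∙ x)
    (hK : ∀ u ∈ X, QL (F ∙ u) ⊓ fixSub A ≤ K) : ∃ m ∈ K, m x = y := by
  by_cases h : y ∈ A ⊔ F ∙ x
  · obtain ⟨t, ht, m⟩ := moveL hx hw
    obtain ⟨t', ht', m'⟩ := moveL (fun e => hw (Submodule.mem_sup_left e)) (y := y) fun e =>
      exch hy (c := 0) (fun e' => hw (sup_le le_sup_left ((Submodule.span_singleton_le_iff_mem _ _).2 h) e'))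
        (by simpa using e)
    exact ⟨t' * t, mul_mem (hK _ (sub_mem yX wX) ht') (hK _ (sub_mem wX xX) ht), by
      rw [LinearEquiv.mul_apply, m, m']⟩
  · obtain ⟨t, ht, m⟩ := moveL hx h
    exact ⟨t, hK _ (sub_mem yX xX) ht, m⟩

include p in
theorem stabL (A : Submodule F V) : ∀ g ∈ SG F V ⊓ fixSub A, (∀ u, QL (F ∙ u) ⊓ fixSub A ≤ K) → g ∈ K := by
  induction A using WellFoundedGT.induction with
  | _ A ih =>
  intro g hg hK
  by_cases h1 : A = ⊤
  · rw [show g = 1 from LinearEquiv.ext fun y => hg.2 y (h1 ▸ trivial)]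
    exact one_mem _
  obtain ⟨v, hv⟩ : ∃ v, v ∉ A := by by_contra! k; exact h1 (eq_top_iff.2 fun v _ => k v)
  by_cases h2 : A ⊔ F ∙ v = ⊤
  · obtain ⟨φ, k1, k2⟩ := ex_dual hv
    have k3 : (g : V →ₗ[F] V) = LinearMap.transvection φ (g v - v) := LinearMap.ext fun y => by
      obtain ⟨a, ha, _, hb, rfl⟩ := Submodule.mem_sup.1 (h2.ge (Submodule.mem_top (x := y)))
      obtain ⟨s, rfl⟩ := Submodule.mem_span_singleton.1 hb
      simp [LinearMap.transvection.apply, k1, k2 a ha, hg.2 a ha, smul_sub]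
    have k4 := congrArg Units.val (MonoidHom.mem_ker.1 hg.1)
    rw [LinearEquiv.coe_det, k3, LinearMap.transvection.det, Units.val_one, add_eq_left] at k4
    have k5 : g = transvection k4 := LinearEquiv.ext fun y => DFunLike.congr_fun k3 y
    exact hK (g v - v) ⟨by have := tv_mem' k4; rwa [← k5] at this, hg.2⟩
  obtain ⟨w, hw⟩ : ∃ w, w ∉ A ⊔ F ∙ v := by by_contra! k; exact h2 (eq_top_iff.2 fun v _ => k v)
  obtain ⟨m, hm, e⟩ := transL (X := ⊤) (K := K ⊓ (SG F V ⊓ fixSub A)) (y := g v) trivial trivial trivial hv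
    (fun k => hv (by rwa [g.injective (hg.2 _ k)] at k)) hw fun u _ t ht => ⟨hK u ht, QL_le (p := p) _ ht.1, ht.2⟩
  have k := Subgroup.mul_mem _ (Subgroup.inv_mem _ hm.2) hg
  exact (K.mul_mem_cancel_left (K.inv_mem hm.1)).1 (ih _ (lt_of_le_of_ne le_sup_left fun e' =>
    hv (e' ▸ Submodule.mem_sup_right (msp v))) _ ⟨k.1, fix_sup.2 ⟨k.2, m.injective (by simp [e])⟩⟩
    fun u t ht => hK u ⟨ht.1, (fix_sup.1 ht.2).1⟩)

theorem ql_cent (hX : v ∉ X) (xX : x ∈ X) (x0 : x ≠ 0) (hp : Pel p g)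
    (hc : g ∈ centralizer (QL X : Set (V ≃ₗ[F] V))) : g ∈ QL X := by
  have k : ∀ φ : Dual F V, (∀ x ∈ X, φ x = 0) → ∀ x ∈ X, ∀ y, φ (g y) • x = φ y • g x := fun φ h x hx y => by
    simpa [LinearMap.transvection.apply] using DFunLike.congr_fun (hc _ (tv_mem (h x hx) hx h)) y
  have h1 : g ∈ fixSub X := fun x hx => by
    obtain ⟨φ, a, b⟩ := ex_dual hX
    exact hp.eigen (by simpa [a] using (k φ b x hx v).symm)
  refine ⟨fun y => by_contra fun h => ?_, h1⟩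
  obtain ⟨φ, a, b⟩ := ex_dual h
  have := k φ b x xX y
  rw [h1 x xX, ← sub_eq_zero, ← sub_smul, ← map_sub, a, one_smul] at this
  exact x0 this

theorem ex_out (h : finrank F A < finrank F X) : ∃ w ∈ X, w ∉ A := by
  by_contra! k
  exact (Submodule.finrank_mono (show X ≤ A from k)).not_gt h

theorem rk_ker (φ : Dual F V) : finrank F V ≤ finrank F (LinearMap.ker φ) + 1 := by
  have := φ.finrank_range_add_finrank_ker
  have := (Submodule.finrank_le (LinearMap.range φ)).trans_eq (finrank_self F)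
  omega

variable {C : (V ≃ₗ[F] V) → Prop}

theorem allL (h3 : 3 ≤ finrank F V) (hC : CC p (SG F V) C) (e0 : e ≠ 0) (φ0 : φ ≠ 0) {h : φ e = 0}
    (hc : C (transvection h)) (u0 : u ≠ 0) : ∀ t ∈ QL (F ∙ u), C t := by
  have h1 : ∀ (φ : Dual F V) x y (hx : φ x = 0) (hy : φ y = 0), x ≠ 0 → y ≠ 0 → C (transvection hx) →
      C (transvection hy) := fun φ x y hx hy x0 y0 hc => by
    obtain ⟨w, wX, hw⟩ := ex_out (A := ⊥ ⊔ F ∙ x) (X := LinearMap.ker φ) (by
      rw [bot_sup_eq, finrank_span_singleton x0]; have := rk_ker φ; omega)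
    obtain ⟨m, hm, e⟩ := transL (X := LinearMap.ker φ) (K := SG F V ⊓ triv (LinearMap.ker φ)) hx hy wX x0 y0 hw
      fun u hu t ht => ⟨QL_le (p := p) _ ht.1, fun y => (Submodule.span_singleton_le_iff_mem _ _).2 hu (ht.1.1 y)⟩
    exact tv_conj hx hy e (fun y => by simpa [sub_eq_zero] using hm.2 y) ▸ hC.conj _ hc m hm.1
  intro t ht
  obtain ⟨ψ, hψ, rfl⟩ := QL_elim u0 ht
  by_cases ψ0 : ψ = 0
  · subst ψ0
    rw [show transvection hψ = 1 from LinearEquiv.ext fun y => by simp [LinearMap.transvection.apply]]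
    exact hC.one
  obtain ⟨b, hb⟩ : ∃ b, φ b = 1 := by
    obtain ⟨b, hb⟩ := DFunLike.ne_iff.1 φ0
    exact ⟨(φ b)⁻¹ • b, by rw [map_smul, smul_eq_mul, inv_mul_cancel₀ hb]⟩
  by_cases k : LinearMap.ker φ ≤ LinearMap.ker ψ
  · have k1 : ∀ y, ψ y = ψ b * φ y := fun y => by
      have := k (show y - φ y • b ∈ _ by simp [hb])
      simpa [sub_eq_zero, mul_comm] using this
    have c0 : ψ b ≠ 0 := fun c => ψ0 (LinearMap.ext fun y => by simp [k1 y, c])
    have k2 : φ (ψ b • u) = 0 := by simpa [k1 u] using hψ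
    rw [show transvection hψ = transvection k2 from LinearEquiv.ext fun y => by
      simp [LinearMap.transvection.apply, k1 y, smul_smul, mul_comm]]
    exact h1 φ e _ h k2 e0 (smul_ne_zero c0 u0) hc
  obtain ⟨a, a1, a2⟩ := SetLike.not_le_iff_exists.1 k
  replace a1 : φ a = 0 := a1
  replace a2 : ψ a ≠ 0 := a2
  obtain ⟨x, hx, x0⟩ := ex_out (A := ⊥) (X := LinearMap.ker φ ⊓ LinearMap.ker ψ) (by
    have := Submodule.finrank_sup_add_finrank_inf_eq (LinearMap.ker φ) (LinearMap.ker ψ)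
    have := Submodule.finrank_le (LinearMap.ker φ ⊔ LinearMap.ker ψ)
    have := rk_ker φ
    have := rk_ker ψ
    rw [finrank_bot]; omega)
  have x1 : φ x = 0 := hx.1
  have x2 : ψ x = 0 := hx.2
  have k1 : (φ - ψ) (b + ((1 - ψ b) / ψ a) • a) = 0 := by simp [hb, a1, a2]
  refine h1 ψ x u x2 hψ x0 u0 (tv_conj x1 x2 (g := transvection k1) (by simp [LinearMap.transvection.apply, x1, x2])
    (fun y => by simp [LinearMap.transvection.apply, a2]; ring) ▸ hC.conj _ (h1 φ e x h x1 e0 x0 hc) _ (LinearEquiv.transvection.det_eq_one k1))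

theorem simpleL (h3 : 3 ≤ finrank F V) (hS : IsSylowIn p S (SG F V)) :
    (fusionSystemOfSubgroup (SG F V) S hS.le).IsSimple p := by
  have := finite_aut (F := F) (V := V)
  have fb : ∀ g : V ≃ₗ[F] V, g ∈ fixSub ⊥ := fun g v hv => by rw [(Submodule.mem_bot F).1 hv, map_zero]
  have hS' : IsSylowIn p S (SG F V ⊓ (triv ⊤ ⊓ fixSub ⊥)) := by
    rwa [inf_eq_left.2 fun g _ => ⟨fun _ => trivial, fb g⟩]
  obtain ⟨e, -, e0, Se⟩ := (isP_iff.2 hS.pgroup).exists_fix' (T := ⊤) (fun _ _ _ _ => trivial)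
    fun h => by rw [← finrank_top, h, finrank_bot] at h3; omega
  obtain ⟨ψ, hψ, -⟩ := ex_dual (A := ⊥) (F := F) e0
  obtain ⟨k1, k2, k3⟩ := stepL hS' trivial Se hψ rfl
  have k4 : QL (F ∙ e) ≤ S := fun t ht => k1 ⟨ht, fb t⟩
  obtain ⟨w, hw, w0, Dw⟩ := (isP_iff.2 k2.pgroup).exists_fix' (T := LinearMap.ker ψ)
    (fun g hg => mem_stabSub'.1 (triv_stab inf_le_right (k2.le hg).2.1))
    fun h => by have := rk_ker ψ; rw [h, finrank_bot] at this; omega
  have we : w ∉ ⊥ ⊔ F ∙ e := fun h => by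
    obtain ⟨s, rfl⟩ := Submodule.mem_span_singleton.1 (bot_sup_eq (F ∙ e) ▸ h)
    exact w0 (by simp [show s = 0 by simpa [hψ] using hw])
  obtain ⟨v, -, hv⟩ := ex_out (A := (F ∙ e) ⊔ F ∙ w) (X := ⊤) (by
    have := Submodule.finrank_add_le_finrank_add_finrank (F ∙ e) (F ∙ w)
    rw [finrank_span_singleton e0, finrank_span_singleton w0] at this
    rw [finrank_top]; omega)
  have nf : ∀ x, (∀ t ∈ S, t x = x) → x ∈ F ∙ e := fun x hx => by_contra fun h => by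
    obtain ⟨φ, a, b⟩ := ex_dual h
    simpa [LinearMap.transvection.apply, a, e0] using hx _ (k4 (tv_mem' (b e (msp e))))
  have q : ∀ X, v ∉ X → e ∈ X → S ≤ stabSub X → QL X ≤ S ∧ S ≤ normalizer (QL X : Set (V ≃ₗ[F] V)) ∧
      S ⊓ centralizer (QL X : Set (V ≃ₗ[F] V)) ≤ QL X := fun X hX eX hs => by
    have a : S ≤ normalizer (QL X : Set (V ≃ₗ[F] V)) := fun g hg => mem_nz (QL_conj (hs hg))
    exact ⟨hS.le_of_le_normalizer (isP_iff.1 (isP_QL X)) (QL_le (p := p) _) a, a, fun g hg =>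
      ql_cent hX eX e0 (isP_iff.2 hS.pgroup g hg.1) hg.2⟩
  have q1 := q _ (fun h => hv (Submodule.mem_sup_left h)) (msp e) fun g hg => mem_stab_line.2 ⟨1, by simp [Se g hg]⟩
  have s2 : S ≤ stabSub ((F ∙ e) ⊔ F ∙ w) := k3.trans (sup_le (fun t ht => triv_stab le_sup_left ht.1.1) fun g hg =>
    mem_stabSub'.2 fun v hv => by rwa [fix_sup.2 ⟨mem_fixSub_span.2 (by simpa using Se g hg.1), Dw g hg⟩ v hv])
  have eX : e ∈ (F ∙ e) ⊔ F ∙ w := Submodule.mem_sup_left (msp e)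
  have q2 := q _ hv eX s2
  refine simple_sub hS (fun h => hv (Submodule.mem_sup_left (nf v fun t ht => by rw [h, mem_bot] at ht; rw [ht]; rfl)))
    (fun C hC z hz z1 zc Cz x hx => ?_) fun K _ hK => ?_
  · obtain ⟨φ, h, rfl⟩ := QL_elim e0 (q1.2.2 ⟨hz, centralizer_le q1.1 zc⟩)
    obtain ⟨K, hK⟩ := hC.sub S hS.le (isP_iff.2 hS.pgroup)
    exact ((hK x).1 (genL ⊤ ⊥ S hS' (fun u hu t ht => (hK t).2 ⟨ht.2, allL h3 hC e0 (by
      rintro rfl; exact z1 (LinearEquiv.ext fun y => by simp [LinearMap.transvection.apply])) Cz hu t ht.1⟩) hx)).2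
  · refine borel_le hS e0 Se (fun g ⟨_, hg⟩ => ?_) (fun g hg ge => stabL (p := p) (F ∙ e) g
      ⟨hg, mem_fixSub_span.2 (by simpa using ge)⟩ fun u t ht => ?_)
      (fun c c0 => transL eX (Submodule.smul_mem _ c eX) (Submodule.mem_sup_right (msp w)) e0 (smul_ne_zero c0 e0) we
        fun u hu t ht => ?_)
      (le_Oq hS.pgroup (le_inf hS.le q2.2.1)) ((Oq_le _ _).trans inf_le_left) (hK _ q1.1 q1.2.1 q1.2.2)
      (hK _ q2.1 q2.2.1 q2.2.2)
    · obtain ⟨c, hc⟩ := Submodule.mem_span_singleton.1 (nf (g e) fun t ht => by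
        simpa using congrArg g (Se _ ((mem_normalizer_iff''.1 hg t).1 ht)))
      exact ⟨c, hc.symm⟩
    · exact mem_Oq' (isP_QL _ t ht.1) ⟨QL_le (p := p) _ ht.1,
        mem_nz (QL_conj (mem_stab_line.2 ⟨1, by simp [ht.2 e (msp e)]⟩))⟩
    · exact mem_Oq' (isP_QL _ t ht.1) ⟨QL_le (p := p) _ ht.1,
        mem_nz (QL_conj (triv_stab ((Submodule.span_singleton_le_iff_mem _ _).2 hu) ht.1.1))⟩

theorem quotL (h3 : 3 ≤ finrank F V) {H : Type*} [Group H] (e : H ≃* SG F V) (T : Sylow p (H ⧸ center H)) :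
    (groupFusionSystem (T : Subgroup (H ⧸ center H))).IsSimple p := by
  have := finite_aut (F := F) (V := V)
  obtain ⟨S, hS, -⟩ := exists_sylowIn (p := p) (H := SG F V) IsPGroup.of_bot bot_le
  refine simple_quot hS (simpleL h3 hS) e (fun z _ hc hp => LinearEquiv.ext fun x => ?_) T
  by_cases x0 : x = 0
  · simp [x0]
  obtain ⟨v, -, hv⟩ := ex_out (A := F ∙ x) (X := ⊤) (by rw [finrank_span_singleton x0, finrank_top]; omega)
  exact (ql_cent hv (msp x) x0 hp fun t ht => hc t (QL_le (p := p) _ ht)).2 x (msp x)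

end H9.SF
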