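import Cfsg.Agent.H9.SF1
import Cfsg.Agent.H5.PW

/-! Simplicity of fusion systems: a second criterion, and elements of prime order of alternating groups. -/

set_option autoImplicit false
set_option linter.unusedSectionVars false

namespace H9.SF
open Subgroup Cfsg H2 H6.CA Equiv Equiv.Perm

section abs
variable {L : Type*} [Group L] {p : ℕ} [hp : Fact p.Prime] {G S : Subgroup L}

/-- the properties of the elements inducing automorphisms of a subsystem of index prime to `p` -/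
structure KK (p : ℕ) (G S : Subgroup L) (K : Subgroup L → Subgroup L) : Prop where
  oq : ∀ Q ≤ S, Oq p (G ⊓ normalizer (Q : Set L)) ≤ K Q
  up : ∀ Q P, Q ≤ P → P ≤ S → G ⊓ centralizer (Q : Set L) ≤ Q → G ⊓ normalizer (P : Set L) ⊓ K Q ≤ K P
  down : ∀ Q P, Q ≤ P → P ≤ S → K P ⊓ normalizer (Q : Set L) ≤ K Q

theorem simple_sub2 [Finite L] (hS : IsSylowIn p S G) (h1 : S ≠ ⊥)
    (hA : ∀ C, CC p G C → ∀ z ∈ S, z ≠ 1 → z ∈ centralizer (S : Set L) → C z → ∀ x ∈ S, C x)
    (hB : ∀ K, KK p G S K → G ⊓ normalizer (S : Set L) ≤ K S) : (fusionSystemOfSubgroup G S hS.le).IsSimple p := by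
  refine (sat_sub hS).simple_of h1 (fun T hT => or_iff_not_imp_left.2 fun h0 => ?_) fun E hE => ?_
  · obtain ⟨z, hz, h2⟩ := (bot_or_exists_ne_one _).resolve_left
      (inf_centralizer_ne_bot hS.pgroup hT.1 (sc_normalizer hT) h0)
    have k := (sc_sub_iff.1 hT).2
    refine hT.1.antisymm fun x hx => ?_
    obtain ⟨g, hg, m⟩ := hA (fun x => ∃ g ∈ G, g * x * g⁻¹ ∈ T) ⟨fun x ⟨g, hg, m⟩ a ha =>
      ⟨g * a⁻¹, mul_mem hg (inv_mem ha), by simpa [mul_assoc] using m⟩, fun R hR hRp => by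
        obtain ⟨h, hh, m⟩ := hS.exists_cj_le (isP_iff.1 hRp) hR
        refine ⟨R ⊓ cj h⁻¹ T, fun x => ⟨fun ⟨a, b⟩ => ⟨a, h, hh, by simpa using mem_cj.1 b⟩,
          fun ⟨a, g, hg, b⟩ => ⟨a, mem_cj.2 ?_⟩⟩⟩
        have := k _ b _ (mul_mem hh (inv_mem hg))
          (by simpa [mul_assoc] using cj_le_iff_forall.1 m x a)
        simpa [mul_assoc] using this⟩ z (hT.1 hz.1) h2 hz.2 ⟨1, one_mem _, by simpa using hz.1⟩ x hx
    simpa [mul_assoc] using k _ m _ (inv_mem hg) (by simpa [mul_assoc] using hx)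
  · rw [Aut_sub le_rfl, AutS_le_iff]
    have k := hE.inv.pi hE.satF
    refine fun g hG hg => (hB (fun Q => Nk G Q (Aut E Q)) ⟨fun Q hQ a ha => ?_, fun Q P h1 h2 h3 a ha => ?_,
      fun Q P h1 h2 a ha => ?_⟩ ⟨hG, hg⟩).2.2
    · exact ⟨(Oq_le _ _ ha).1, (Oq_le _ _ ha).2, k.le Q hQ (by rw [Aut_sub hQ]; exact cP_mem_Oq ha)⟩
    · refine ⟨ha.1.1, ha.1.2, (mem_Aut h2).2 ⟨hE.mor_of_centric ⟨hE.satF, hE.satF, inv_refl _⟩
        ((k.centric_iff hE.satF).2 (centric_iff.2 ⟨h1.trans h2, fun σ hσ x hx => ?_⟩)) h1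
        (Aut.mor h2 (by rw [Aut_sub h2]; exact cP_mem_AutS ha.1.1 ha.1.2))
        ((Aut.mor (h1.trans h2) ha.2.2.2).congr fun x hx => by
          rw [cP_apply ha.2.2.1 hx, cP_apply ha.1.2 (h1 hx)]), cP_mem_Sym _ _⟩⟩
      obtain ⟨-, -, b, hb, e⟩ := mor_sub_iff.1 hσ
      rw [img_congr (g := cg b) e, img_cg] at hx ⊢
      exact mem_cj.2 (h3 ⟨G.mul_mem (G.mul_mem (G.inv_mem hb) (hS.le hx.1)) hb, mem_cj.1 (cj_centralizer b Q ▸ hx.2)⟩)
    · exact ⟨ha.1.1, ha.2, (mem_Aut (h1.trans h2)).2 ⟨((Aut.mor h2 ha.1.2.2).mono h1).congr fun x hx => by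
        rw [cP_apply ha.2 hx, cP_apply ha.1.2.1 (h1 hx)], cP_mem_Sym _ _⟩⟩

theorem simple_coe [Finite L] (hS : IsSylowIn p S G) (h : (fusionSystemOfSubgroup G S hS.le).IsSimple p)
    (T : Sylow p G) : (groupFusionSystem (T : Subgroup G)).IsSimple p := by
  have h1 : IsSylowIn p (S.subgroupOf G) ⊤ := by simpa using hS.subgroupOf le_rfl
  obtain ⟨θ, i2, -⟩ := (iso_subgroupOf hS).exists_symm
  exact simple_of_equiv (MulEquiv.refl _) h1 (i2.simple ((iso_subgroupOf hS).sat (sat_sub hS)) h) T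

theorem CC.two {C : L → Prop} (h : CC p G C) {x y : L} (hx : x ∈ G) (hy : y ∈ G) (px : x ^ p = 1) (py : y ^ p = 1)
    (c : Commute x y) (Cx : C x) : C (x * y) ↔ C y := by
  obtain ⟨K, hK⟩ := h.sub (zpowers x ⊔ zpowers y) (sup_le (zpowers_le.2 hx) (zpowers_le.2 hy))
    ((isP_iff.2 (isPGroup_zpowers ⟨1, by simpa⟩)).sup (isP_iff.2 (isPGroup_zpowers ⟨1, by simpa⟩)) (by
      rintro _ ⟨m, rfl⟩ _ ⟨n, rfl⟩
      exact ⟨n, by simp only [(c.zpow_zpow m n).eq, mul_inv_cancel_right]⟩))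
  have a : x ∈ zpowers x ⊔ zpowers y := mem_sup_left (mem_zpowers x)
  have b : y ∈ zpowers x ⊔ zpowers y := mem_sup_right (mem_zpowers y)
  have := K.mul_mem_cancel_left (y := y) ((hK x).2 ⟨a, Cx⟩)
  rw [hK, hK] at this
  simpa [b, mul_mem a b] using this

/-- generated by elements of order `p` -/
def GP (p : ℕ) (G : Type*) [Group G] : Prop := ∀ U : Subgroup G, (∀ x, x ^ p = 1 → x ∈ U) → ∀ x, x ∈ U

theorem gp_step (X : Type*) [Fintype X] [DecidableEq X] (P : Sylow p (Perm X))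
    (ih : ∀ T : Sylow p (Perm (Fin (Fintype.card X / p))), GP p T) : GP p P := fun U hU x => by
  obtain ⟨φ, h1, -, h2⟩ := H5.PW.exists_sym (p := p) X default
  obtain ⟨e⟩ := H5.PW.sylow_equiv φ h1 h2 P
  obtain ⟨w, rfl⟩ := e.symm.surjective x
  rw [← SemidirectProduct.inl_left_mul_inr_right w, map_mul]
  refine mul_mem (hU _ ?_) (ih _ (U.comap (e.symm.toMonoidHom.comp SemidirectProduct.inr)) (fun t ht => hU _ ?_) _)
  · rw [← map_pow, ← map_pow, show w.left ^ p = 1 from funext fun i => Multiplicative.toAdd.injective (by simp)]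
    simp
  · rw [← map_pow, ht, map_one]

theorem gp_sym (X : Type*) [Fintype X] [DecidableEq X] (P : Sylow p (Perm X)) : GP p P := by
  refine gp_step X P ?_
  generalize Fintype.card X / p = n
  induction n using Nat.strong_induction_on with
  | _ n ih =>
    intro P
    rcases n.eq_zero_or_pos with rfl | h
    · exact fun U _ x => Subsingleton.elim (1 : P) x ▸ one_mem _
    exact gp_step _ P (ih _ (by simpa using Nat.div_lt_self h hp.out.one_lt))

end abs

variable {X : Type*} [Fintype X] [DecidableEq X] {p : ℕ} [hp : Fact p.Prime] {C : Perm X → Prop} {x y z : Perm X}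

theorem mem_alt_odd (h2 : p ≠ 2) (h : Pel p x) : x ∈ alternatingGroup X := by
  obtain ⟨k, hk⟩ := h
  have := congrArg sign hk
  rwa [map_pow, map_one, Int.units_pow_eq_pow_mod_two, Nat.odd_iff.1 (hp.out.odd_of_ne_two h2).pow, pow_one] at this

theorem CC.same (hC : CC p (alternatingGroup X) C) (hx : x ∈ alternatingGroup X) (hy : y ∈ alternatingGroup X)
    (px : x ^ p = 1) (py : y ^ p = 1) (e : x.support.card = y.support.card) (h : x.support.card + 2 ≤ Fintype.card X)
    (Cx : C x) : C y := by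
  have k : IsConj x y := by
    rw [← sum_cycleType, ← sum_cycleType, cycleType_of_pow_prime_eq_one px, cycleType_of_pow_prime_eq_one py,
      Multiset.sum_replicate, Multiset.sum_replicate] at e
    rw [isConj_iff_cycleType_eq, cycleType_of_pow_prime_eq_one px, cycleType_of_pow_prime_eq_one py,
      Nat.eq_of_mul_eq_mul_right hp.out.pos e]
  obtain ⟨g, hg⟩ := isConj_iff.1 (alternatingGroup.isConj_of (σ := ⟨x, hx⟩) (τ := ⟨y, hy⟩) k h)
  exact (show g.1 * x * g.1⁻¹ = y from congrArg Subtype.val hg) ▸ hC.conj _ Cx g.1 g.2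

theorem disj_pow (h : x.Disjoint y) (e : (x * y) ^ p = 1) : x ^ p = 1 ∧ y ^ p = 1 :=
  (h.pow_disjoint_pow p p).mul_eq_one_iff.1 (h.commute.mul_pow p ▸ e)

theorem cyc_card (h : x.IsCycle) (e : x ^ p = 1) : x.support.card = p :=
  h.orderOf.symm.trans (orderOf_eq_prime e h.ne_one)

theorem CC.odd (hC : CC p (alternatingGroup X) C) (h2 : p ≠ 2) (h : p + 2 ≤ Fintype.card X) (px : x ^ p = 1)
    (e : x.support.card = p) (Cx : C x) (y : Perm X) : y ^ p = 1 → C y := by
  have a : ∀ y : Perm X, y ^ p = 1 → y ∈ alternatingGroup X := fun y hy => mem_alt_odd h2 ⟨1, by simpa⟩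
  induction y using cycle_induction_on with
  | base_one => exact fun _ => hC.one
  | base_cycles y hy => exact fun py => hC.same (a _ px) (a _ py) px py (e.trans (cyc_card hy py).symm) (e ▸ h) Cx
  | induction_disjoint σ τ hd _ h1 h2 =>
    intro py
    obtain ⟨k1, k2⟩ := disj_pow hd py
    exact (hC.two (a _ k1) (a _ k2) k1 k2 hd.commute (h1 k1)).2 (h2 k2)

theorem CC.even (hC : CC 2 (alternatingGroup X) C) (h : 6 ≤ Fintype.card X) (hx : x ∈ alternatingGroup X)
    (px : x ^ 2 = 1) (e : x.support.card = 4) (Cx : C x) (y : Perm X) : y ^ 2 = 1 → (sign y = 1 → C y) ∧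
      (sign y = -1 → ∀ r : Perm X, r.IsSwap → r.Disjoint y → C (r * y)) := by
  have a : ∀ r s : Perm X, r.IsSwap → s.IsSwap → r.Disjoint s → r * s ∈ alternatingGroup X ∧ (r * s) ^ 2 = 1 ∧
      C (r * s) := fun r s hr hs hd => by
    have k1 : r * s ∈ alternatingGroup X := by simp [hr.sign_eq, hs.sign_eq]
    have k2 : (r * s) ^ 2 = 1 := by
      rw [hd.commute.mul_pow, ← hr.orderOf, pow_orderOf_eq_one, hr.orderOf, ← hs.orderOf, pow_orderOf_eq_one, one_mul]
    exact ⟨k1, k2, hC.same hx k1 px k2 (by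
      rw [e, hd.card_support_mul, card_support_eq_two.2 hr, card_support_eq_two.2 hs]) (e ▸ h) Cx⟩
  induction y using cycle_induction_on with
  | base_one => exact fun _ => ⟨fun _ => hC.one, fun h => absurd h (by simp)⟩
  | base_cycles y hy =>
    intro py
    have k := card_support_eq_two.1 (cyc_card hy py)
    exact ⟨fun h => absurd (h.symm.trans k.sign_eq) (by decide), fun _ r hr hd => (a r y hr k hd).2.2⟩
  | induction_disjoint σ τ hd hc h1 h2 =>
    intro py
    obtain ⟨k1, k2⟩ := disj_pow hd py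
    have k := card_support_eq_two.1 (cyc_card hc k1)
    rw [map_mul, k.sign_eq]
    refine ⟨fun h => (h2 k2).2 (by simpa [neg_eq_iff_eq_neg] using h) σ k hd, fun h r hr hd' => ?_⟩
    have h3 : sign τ = 1 := by simpa using h
    have h4 := disjoint_iff_disjoint_support.1 hd'
    rw [hd.support_mul, Finset.disjoint_union_right, ← disjoint_iff_disjoint_support,
      ← disjoint_iff_disjoint_support] at h4
    obtain ⟨m1, m2, m3⟩ := a r σ hr k h4.1
    rw [← mul_assoc]
    exact (hC.two m1 h3 m2 k2 (h4.2.mul_left hd).commute m3).2 ((h2 k2).1 h3)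

theorem CC.dbl (hC : CC 2 (alternatingGroup X) C) (hz : z ∈ alternatingGroup X) (pz : z ^ 2 = 1) (z1 : z ≠ 1)
    (Cz : C z) : ∃ x ∈ alternatingGroup X, x ^ 2 = 1 ∧ x.support.card = 4 ∧ C x := by
  have zz : ∀ a, z (z a) = a := fun a => by simpa [sq] using DFunLike.congr_fun pz a
  obtain ⟨a, ha⟩ : ∃ a, z a ≠ a := by by_contra! k; exact z1 (Perm.ext k)
  obtain ⟨c, h1, h2, h3⟩ : ∃ c, c ≠ a ∧ c ≠ z a ∧ z c ≠ c := by
    by_contra! k
    have : z = swap a (z a) := Perm.ext fun c => by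
      by_cases h1 : c = a
      · simp [h1]
      by_cases h2 : c = z a
      · simp [h2, zz]
      rw [swap_apply_of_ne_of_ne h1 h2, k c h1 h2]
    rw [this, mem_alternatingGroup, sign_swap ha.symm] at hz
    exact absurd hz (by decide)
  have h4 : z c ≠ a := fun e => h2 (by rw [← e, zz])
  have h5 : z c ≠ z a := z.injective.ne h1
  have hd : (swap a (z c)).Disjoint (swap (z a) c) := disjoint_swap_swap (by simp; grind)
  have k1 : swap a (z c) * swap (z a) c ∈ alternatingGroup X := by simp [sign_swap h4.symm, sign_swap h2.symm]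
  have k2 : (swap a (z c) * swap (z a) c) ^ 2 = 1 := by rw [hd.commute.mul_pow]; simp [sq]
  have k3 : (swap (z a) (z c) * swap (z a) c) * z * (swap (z a) (z c) * swap (z a) c)⁻¹ =
      z * (swap a (z c) * swap (z a) c) := by
    rw [mul_inv_eq_iff_eq_mul]
    ext x
    by_cases e1 : x = a
    · simp [e1, swap_apply_of_ne_of_ne, ha.symm, h1.symm, h4.symm, h3.symm, h2, zz]
    by_cases e2 : x = z a
    · simp [e2, swap_apply_of_ne_of_ne, ha, ha.symm, h1.symm, h4.symm, h3.symm, h5.symm, h2, zz]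
    by_cases e3 : x = c
    · simp [e3, swap_apply_of_ne_of_ne, ha, h3, h5, h4.symm, h3.symm, h5.symm, h2, zz]
    by_cases e4 : x = z c
    · simp [e4, swap_apply_of_ne_of_ne, ha, h1, h3, h5, h4.symm, h3.symm, h5.symm, h2, zz]
    have e5 : z x ≠ z a := z.injective.ne e1
    have e6 : z x ≠ z c := z.injective.ne e3
    have e7 : z x ≠ c := fun e => e4 (by rw [← e, zz])
    simp [swap_apply_of_ne_of_ne, e1, e2, e3, e4, e5, e6, e7]
  refine ⟨_, k1, k2, by rw [hd.card_support_mul, card_support_swap h4.symm, card_support_swap h2.symm],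
    (hC.two hz k1 pz k2 ?_ Cz).1 (k3 ▸ hC.conj _ Cz _ (by simp [sign_swap h5.symm, sign_swap h2.symm]))⟩
  ext x
  simp only [Perm.mul_apply, swap_apply_def]
  grind

end H9.SF
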