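import Cfsg.Agent.H9.SF4

/-! Simplicity of the fusion systems of alternating groups: the block structure of a Sylow subgroup. -/

set_option autoImplicit false
set_option linter.unusedSectionVars false

namespace H9.SF
open Subgroup Cfsg H2 H6.CA Equiv Equiv.Perm

variable {ι : Type*} [Fintype ι] [DecidableEq ι] {p : ℕ} [hp : Fact p.Prime] {g t : Perm (ι × ZMod p)}
  {T : Subgroup (Perm ι)} {R : Subgroup (Perm (ι × ZMod p))} {π : Perm ι} {μ : ι → (ZMod p)ˣ} {b : ι → ZMod p}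

variable (p) in
/-- permutations of the blocks -/
def sg : Perm ι →* Perm (ι × ZMod p) where
  toFun π := prodCongrLeft fun _ => π
  map_one' := rfl
  map_mul' _ _ := rfl

/-- translations in the blocks -/
def tr (b : ι → ZMod p) : Perm (ι × ZMod p) := prodCongrRight fun i => MulAction.toPerm (Multiplicative.ofAdd (b i))

/-- scalings in the blocks -/
def ml : (ι → (ZMod p)ˣ) →* Perm (ι × ZMod p) where
  toFun μ := prodCongrRight fun i => MulAction.toPerm (μ i)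
  map_one' := by ext x <;> simp [prodCongrRight]
  map_mul' _ _ := by ext x <;> simp [prodCongrRight, mul_smul]

@[simp] theorem sg_apply (i x) : sg p π (i, x) = (π i, x) := rfl
@[simp] theorem tr_apply (i x) : tr b (i, x) = (i, b i + x) := rfl
@[simp] theorem ml_apply (i x) : ml μ (i, x) = (i, μ i * x) := rfl

theorem pext {g t : Perm (ι × ZMod p)} (h : ∀ i x, g (i, x) = t (i, x)) : g = t := Perm.ext fun x => h x.1 x.2

theorem sign_sg : sign (sg p π) = sign π ^ p := by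
  exact (sign_prodCongrLeft fun _ : ZMod p => π).trans (by rw [Finset.prod_const, Finset.card_univ, ZMod.card])

theorem sign_tr (h : ∑ i, b i = 0) : tr b ∈ alternatingGroup (ι × ZMod p) := by
  have := map_prod (sign.comp (MulAction.toPermHom (Multiplicative (ZMod p)) (ZMod p)))
    (fun i => Multiplicative.ofAdd (b i)) Finset.univ
  rw [← ofAdd_sum, h, ofAdd_zero, map_one] at this
  exact (sign_prodCongrRight _).trans this.symm

theorem sign_ml : sign (ml μ) = sign (MulAction.toPerm (∏ i, μ i) : Perm (ZMod p)) :=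
  (sign_prodCongrRight _).trans (map_prod (sign.comp (MulAction.toPermHom (ZMod p)ˣ (ZMod p))) μ Finset.univ).symm

theorem sg_even (h : Pel p π) : sg p π ∈ alternatingGroup (ι × ZMod p) := by
  by_cases h2 : p = 2
  · rw [mem_alternatingGroup, sign_sg, h2, Int.units_sq]
  · exact mem_alt_odd h2 (h.imp fun k hk => by rw [← map_pow, hk, map_one])

variable (p) in
/-- wreath products -/
def WT (T : Subgroup (Perm ι)) : Subgroup (Perm (ι × ZMod p)) where
  carrier := {g | ∃ π ∈ T, ∃ b : ι → ZMod p, ∀ i x, g (i, x) = (π i, b i + x)}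
  one_mem' := ⟨1, one_mem _, 0, by simp⟩
  mul_mem' := fun ⟨π, h, b, e⟩ ⟨π', h', b', e'⟩ =>
    ⟨π * π', mul_mem h h', fun i => b (π' i) + b' i, fun i x => by simp [e, e', add_assoc]⟩
  inv_mem' {g} := fun ⟨π, h, b, e⟩ =>
    ⟨π⁻¹, inv_mem h, fun i => -b (π⁻¹ i), fun i x => g.injective (by rw [e (π⁻¹ i)]; simp)⟩

theorem WT_mono {T' : Subgroup (Perm ι)} (h : T ≤ T') : WT p T ≤ WT p T' := fun _ ⟨π, a, b⟩ => ⟨π, h a, b⟩

theorem tr_mem (b : ι → ZMod p) : tr b ∈ WT p T := ⟨1, one_mem _, b, fun _ _ => rfl⟩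

theorem sg_mem (h : π ∈ T) : sg p π ∈ WT p T := ⟨π, h, 0, by simp⟩

theorem tr_pow (b : ι → ZMod p) : tr b ^ p = 1 := by
  have : ∀ n : ℕ, tr b ^ n = tr (n • b) := fun n => by
    induction n with
    | zero => exact pext (by simp)
    | succ n ih => rw [pow_succ, ih]; exact pext fun i x => by simp; ring
  rw [this]; exact pext (by simp)

theorem WT_bot (h : g ∈ WT p (⊥ : Subgroup (Perm ι))) : ∃ b, g = tr b := by
  obtain ⟨π, h, b, e⟩ := h
  exact ⟨b, pext (by simpa [mem_bot.1 h] using e)⟩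

theorem isP_WT (h : IsP p T) : IsP p (WT p T) := fun g ⟨π, hπ, b, e⟩ => by
  obtain ⟨k, hk⟩ := h π hπ
  have : ∀ n : ℕ, ∃ c : ι → ZMod p, ∀ i x, (g ^ n) (i, x) = ((π ^ n) i, c i + x) := fun n => by
    induction n with
    | zero => exact ⟨0, by simp⟩
    | succ n ih =>
      obtain ⟨c, hc⟩ := ih
      exact ⟨fun i => c (π i) + b i, fun i x => by simp [pow_succ, e, hc, add_assoc]⟩
  obtain ⟨c, hc⟩ := this (p ^ k)
  exact ⟨k + 1, by rw [pow_succ, pow_mul, show g ^ p ^ k = tr c from pext (by simpa [hk] using hc), tr_pow]⟩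

theorem card_WT : Nat.card T * p ^ Fintype.card ι ≤ Nat.card (WT p T) := by
  have := Nat.card_le_card_of_injective (fun x : T × (ι → ZMod p) => (⟨_, mul_mem (sg_mem x.1.2) (tr_mem x.2)⟩ : WT p T))
    fun x y h => by
      have k := fun i => Prod.ext_iff.1 (DFunLike.congr_fun (congrArg Subtype.val h) (i, 0))
      exact Prod.ext (Subtype.ext (Perm.ext fun i => (k i).1)) (funext fun i => by simpa using (k i).2)
  simpa [Nat.card_prod, Nat.card_pi] using this

theorem aff_nz (e : ∀ i x, g (i, x) = (π i, b i + μ i * x)) (hμ : ∀ τ ∈ T, ∀ i, μ (τ i) = μ i)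
    (hπ : ∀ τ ∈ T, π * τ * π⁻¹ ∈ T) : g ∈ normalizer (WT p T : Set (Perm (ι × ZMod p))) :=
  mem_nz fun t ⟨τ, hτ, c, e'⟩ => ⟨_, hπ τ hτ, fun j => b (τ (π⁻¹ j)) + μ (π⁻¹ j) * c (π⁻¹ j) - b (π⁻¹ j), fun j y => by
    obtain ⟨⟨i, x⟩, h⟩ := g.surjective (j, y)
    rw [← h, Perm.mul_apply, Perm.mul_apply, Perm.coe_inv, symm_apply_apply, e', e]
    obtain ⟨rfl, rfl⟩ := Prod.ext_iff.1 ((e i x).symm.trans h)
    simp [hμ τ hτ]; ring⟩

variable (ι p) in
/-- the even part of the base group -/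
def EZ : Subgroup (Perm (ι × ZMod p)) := WT p ⊥ ⊓ alternatingGroup (ι × ZMod p)

theorem nz_alt {R : Subgroup (Perm (ι × ZMod p))} (h : g ∈ normalizer (R : Set (Perm (ι × ZMod p)))) :
    g ∈ normalizer ((R ⊓ alternatingGroup (ι × ZMod p) : Subgroup _) : Set (Perm (ι × ZMod p))) :=
  mem_nz fun t ht => ⟨(mem_normalizer_iff.1 h t).1 ht.1, (alternatingGroup.normal).conj_mem t ht.2 g⟩

theorem aff_EZ (e : ∀ i x, g (i, x) = (π i, b i + μ i * x)) : g ∈ normalizer (EZ ι p : Set (Perm (ι × ZMod p))) :=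
  nz_alt (aff_nz e (fun τ h i => by rw [mem_bot.1 h]; rfl) fun τ h => by simp [mem_bot.1 h])

theorem tr2 (i j : ι) : tr (Pi.single i 1 - Pi.single j 1) ∈ EZ ι p :=
  ⟨tr_mem _, sign_tr (by simp [Finset.sum_sub_distrib])⟩

theorem third (h3 : 3 ≤ Fintype.card ι) (i j : ι) : ∃ k, k ≠ i ∧ k ≠ j := by
  by_contra! h
  have : Fintype.card ι ≤ ({i, j} : Finset ι).card :=
    Finset.card_le_card fun k _ => by by_cases e : k = i; exacts [by simp [e], by simp [h k e]]
  have := Finset.card_le_two (a := i) (b := j)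
  omega

theorem moves (h3 : 3 ≤ Fintype.card ι) (h : EZ ι p ≤ R) (x : ι × ZMod p) : ∃ s ∈ R, s x ≠ x := by
  obtain ⟨i, x⟩ := x
  obtain ⟨j, a, -⟩ := third h3 i i
  exact ⟨_, h (tr2 i j), by simp [a.symm]⟩

theorem aff (h3 : 3 ≤ Fintype.card ι) (h1 : EZ ι p ≤ R) (h2 : R ≤ WT p ⊤)
    (hg : g ∈ normalizer (R : Set (Perm (ι × ZMod p)))) :
    ∃ (π : Perm ι) (μ : ι → (ZMod p)ˣ) (b : ι → ZMod p), ∀ i x, g (i, x) = (π i, b i + μ i * x) := by
  have k1 : ∀ x y : ι × ZMod p, x.1 = y.1 ↔ ∀ s ∈ R, s x = x → s y = y := fun ⟨i, x⟩ ⟨j, y⟩ => by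
    refine ⟨?_, fun h => by_contra fun e => ?_⟩
    · rintro (rfl : i = j) s hs e
      obtain ⟨π, -, b, m⟩ := h2 hs
      simpa [m] using e
    · obtain ⟨l, a, b⟩ := third h3 i j
      replace e : i ≠ j := e
      simpa [b.symm] using h _ (h1 (tr2 j l)) (by simp [e, a.symm])
  have k2 : ∀ g ∈ normalizer (R : Set (Perm (ι × ZMod p))), ∀ x y : ι × ZMod p, x.1 = y.1 → (g x).1 = (g y).1 :=
    fun g hg x y e => (k1 _ _).2 fun s hs m => by
      simpa [symm_apply_eq] using (k1 x y).1 e _ ((mem_normalizer_iff''.1 hg s).1 hs) (by simp [m])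
  have k3 : Function.Injective fun i => (g (i, 0)).1 := fun i j e => by simpa using k2 _ (inv_mem hg) _ _ e
  have k4 : ∀ i, ∃ c : ZMod p, ∀ x, (g (i, 1 + x)).2 = c + (g (i, x)).2 := fun i => by
    obtain ⟨j, a, -⟩ := third h3 i i
    obtain ⟨π, -, c, e⟩ := h2 ((mem_normalizer_iff.1 hg _).1 (h1 (tr2 i j)))
    refine ⟨c (g (i, 0)).1, fun x => ?_⟩
    rw [k2 g hg (i, 0) (i, x) rfl]
    simpa [a.symm] using congrArg Prod.snd (e (g (i, x)).1 (g (i, x)).2)
  choose c hc using k4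
  have k5 : ∀ i x, (g (i, x)).2 = (g (i, 0)).2 + c i * x := fun i x => by
    obtain ⟨n, rfl⟩ := ZMod.natCast_zmod_surjective x
    induction n with
    | zero => simp
    | succ n ih => rw [Nat.cast_succ, add_comm (n : ZMod p), hc, ih]; ring
  refine ⟨ofBijective _ (Finite.injective_iff_bijective.1 k3), fun i => Units.mk0 (c i) fun e => ?_,
    fun i => (g (i, 0)).2, fun i x => Prod.ext (k2 g hg _ _ rfl) (k5 i x)⟩
  simpa using g.injective (Prod.ext (k2 g hg (i, 1) (i, 0) rfl) (by simp [k5 i 1, e]))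

theorem cent_EZ (h3 : 3 ≤ Fintype.card ι) (hg : g ∈ centralizer (EZ ι p : Set (Perm (ι × ZMod p)))) :
    g ∈ WT p (⊥ : Subgroup (Perm ι)) := by
  obtain ⟨π, μ, b, e⟩ := aff h3 le_rfl (inf_le_left.trans (WT_mono le_top)) (centralizer_le_normalizer _ hg)
  have k : ∀ i, π i = i ∧ (μ i : ZMod p) = 1 := fun i => by
    obtain ⟨j, a, a'⟩ := third h3 i (π i)
    have := congrArg Prod.snd (DFunLike.congr_fun (hg _ (tr2 i j)) (i, 0))
    by_cases h : π i = i
    · exact ⟨h, by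
        simp [e, h, a.symm] at this
        linear_combination -this⟩
    · simp [e, h, a.symm, a'.symm] at this
  exact ⟨1, one_mem _, b, fun i x => by simp [e, k i]⟩

theorem ml_even (h : ∏ i, μ i = 1) : ml μ ∈ alternatingGroup (ι × ZMod p) := by
  rw [mem_alternatingGroup, sign_ml, h]
  exact map_one (sign.comp (MulAction.toPermHom (ZMod p)ˣ (ZMod p)))

variable {C : Perm (ι × ZMod p) → Prop}

theorem all_ord (h3 : 3 ≤ Fintype.card ι) (hC : CC p (alternatingGroup (ι × ZMod p)) C) (hb : tr b ∈ EZ ι p)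
    (b1 : tr b ≠ 1) (Cb : C (tr b)) : ∀ y ∈ alternatingGroup (ι × ZMod p), y ^ p = 1 → C y := by
  have hc : Fintype.card (ι × ZMod p) = Fintype.card ι * p := by simp
  by_cases h2 : p = 2
  · subst h2
    obtain ⟨x, hx, a, b, c⟩ := hC.dbl hb.2 (tr_pow _) b1 Cb
    exact fun y hy py => (hC.even (by omega) hx a b c y py).1 hy
  obtain ⟨i, hi⟩ : ∃ i, b i ≠ 0 := by by_contra! k; exact b1 (pext (by simp [k]))
  obtain ⟨j, ji, -⟩ := third h3 i i
  obtain ⟨l, li, lj⟩ := third h3 i j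
  have ev : ∀ b : ι → ZMod p, tr b ∈ alternatingGroup (ι × ZMod p) := fun b => mem_alt_odd h2 ⟨1, by simpa using tr_pow b⟩
  have k : ∀ (b : ι → ZMod p) j, i ≠ j → C (tr b) →
      C (tr (-(Pi.single i (2 * b i) + Pi.single j (2 * b j)))) := fun b j ij h => by
    have := hC.conj _ h _ (ml_even (μ := Pi.mulSingle i (-1) * Pi.mulSingle j (-1)) (by simp [Finset.prod_mul_distrib]))
    refine (hC.two (ev b) (ev _) (tr_pow _) (tr_pow _) (pext fun i x => by simp [add_left_comm]) h).1 ?_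
    convert this using 1
    rw [eq_mul_inv_iff_mul_eq]
    refine pext fun m x => ?_
    by_cases h1 : m = i
    · subst h1; simp [ij]; ring
    by_cases h2 : m = j
    · subst h2; simp [h1]; ring
    simp [h1, h2]
  have k1 := k _ l li.symm (k b j ji.symm Cb)
  have two : (2 : ZMod p) ≠ 0 := fun e => h2 ((Nat.prime_dvd_prime_iff_eq hp.out Nat.prime_two).1
    ((ZMod.natCast_eq_zero_iff 2 p).1 e))
  refine fun y _ => hC.odd h2 (by have := hp.out.two_le; nlinarith) (tr_pow _) ?_ k1 y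
  rw [show support _ = ({i} : Finset ι) ×ˢ (Finset.univ : Finset (ZMod p)) from
    Finset.ext fun ⟨m, x⟩ => by
      by_cases h1 : m = i
      · subst h1; simp [ji.symm, li.symm, two, hi]
      · simp [h1, Ne.symm h1, li, lj, Pi.single_apply]]
  simp

theorem hA0 (h3 : 3 ≤ Fintype.card ι) (T : Sylow p (Perm ι)) (hC : CC p (alternatingGroup (ι × ZMod p)) C)
    {S : Subgroup (Perm (ι × ZMod p))} (hS : S = WT p T ⊓ alternatingGroup (ι × ZMod p)) {z} (hz : z ∈ S) (z1 : z ≠ 1)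
    (zc : z ∈ centralizer (S : Set (Perm (ι × ZMod p)))) (Cz : C z) : ∀ x ∈ S, C x := by
  subst hS
  have k := cent_EZ h3 (centralizer_le (inf_le_inf_right _ (WT_mono bot_le)) zc)
  obtain ⟨b, rfl⟩ := WT_bot k
  have H := all_ord h3 hC ⟨k, hz.2⟩ z1 Cz
  obtain ⟨K, hK⟩ := hC.sub (WT p T ⊓ _) inf_le_right fun g hg => isP_WT (isP_iff.2 T.2) g hg.1
  rintro x ⟨⟨π, hπ, c, e⟩, hx⟩
  have m : ∀ π ∈ T, sg p π ∈ alternatingGroup (ι × ZMod p) := fun π h => sg_even (isP_iff.2 T.2 π h)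
  have m1 : sg p π ∈ K := gp_sym ι T (K.comap ((sg p).comp T.1.subtype)) (fun t ht =>
    (hK _).2 ⟨⟨sg_mem t.2, m _ t.2⟩, H _ (m _ t.2) (by rw [← map_pow, ht, map_one])⟩) ⟨π, hπ⟩
  obtain rfl : x = sg p π * tr c := pext e
  have m2 := (Subgroup.mul_mem_cancel_left _ (m π hπ)).1 hx
  exact ((hK _).1 (mul_mem m1 ((hK _).2 ⟨⟨tr_mem c, m2⟩, H _ m2 (tr_pow c)⟩))).2

section odd
variable {κ : Type*} [Fintype κ] [DecidableEq κ]

/-- the permutations of the model -/
abbrev PP (p : ℕ) (κ : Type*) := Perm ((ZMod p ⊕ κ) × ZMod p)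

variable (p κ) in
/-- rotation of the first `p` blocks -/
def rho : Multiplicative (ZMod p) →* Perm (ZMod p ⊕ κ) :=
  (sumCongrHom _ _).comp ((MonoidHom.inl _ _).comp (MulAction.toPermHom _ _))

@[simp] theorem rho_inl (a y) : rho p κ a (.inl y) = .inl (a.toAdd + y) := rfl
@[simp] theorem rho_inr (a y) : rho p κ a (.inr y) = .inr y := rfl

theorem isP_rho : IsP p (rho p κ).range := by
  rintro _ ⟨a, rfl⟩
  exact ⟨1, by rw [← map_pow, pow_one, show a ^ p = 1 from Multiplicative.toAdd.injective (by simp), map_one]⟩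

variable (p κ) in
/-- a regular group on the first `p` blocks, times the base group on the others -/
def Q2 : Subgroup (PP p κ) where
  carrier := {g | ∃ a c : ZMod p, ∃ b : κ → ZMod p, (∀ y x, g (.inl y, x) = (.inl (a + y), c + x)) ∧
    ∀ i x, g (.inr i, x) = (.inr i, b i + x)}
  one_mem' := ⟨0, 0, 0, by simp⟩
  mul_mem' := fun ⟨a, c, b, e, f⟩ ⟨a', c', b', e', f'⟩ =>
    ⟨a + a', c + c', b + b', by simp [e, e', add_assoc], by simp [f, f', add_assoc]⟩
  inv_mem' {g} := fun ⟨a, c, b, e, f⟩ => ⟨-a, -c, -b, fun y x => g.injective (by rw [e (-a + y)]; simp),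
    fun i x => g.injective (by rw [f i ((-b) i + x)]; simp)⟩

theorem Q2_le : Q2 p κ ≤ WT p (rho p κ).range := fun _ ⟨a, c, b, e, f⟩ =>
  ⟨_, ⟨.ofAdd a, rfl⟩, Sum.elim (fun _ => c) b, by rintro (y | i) x <;> simp [e, f]⟩

theorem mk_Q2 (a c : ZMod p) (b : κ → ZMod p) : sg p (rho p κ (.ofAdd a)) * tr (Sum.elim (fun _ => c) b) ∈ Q2 p κ :=
  ⟨a, c, b, by simp, by simp⟩

theorem Q2_moves (x) : ∃ s ∈ Q2 p κ, s x ≠ x :=
  ⟨_, mk_Q2 0 1 1, by rcases x with ⟨y | i, x⟩ <;> simp⟩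

theorem cent_Q2 {g} (hg : g ∈ centralizer (Q2 p κ : Set (PP p κ))) : g ∈ Q2 p κ := by
  have k := fun a c b x => DFunLike.congr_fun (hg _ (mk_Q2 a c b)) x
  simp only [Perm.mul_apply] at k
  have k1 : ∃ a c, g (.inl 0, 0) = (.inl a, c) := by
    rcases h : g (.inl 0, 0) with ⟨a | i, c⟩
    · exact ⟨a, c, rfl⟩
    · have := k 0 1 0 (.inl 0, 0)
      simp [h] at this
      simpa using g.injective (h.trans this)
  have k2 : ∀ i, ∃ c, g (.inr i, 0) = (.inr i, c) := fun i => by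
    have := k 0 0 (Pi.single i 1) (.inr i, 0)
    rcases h : g (.inr i, 0) with ⟨a | j, c⟩
    · simp [h] at this
      simpa using g.injective (h.trans this)
    · obtain rfl : j = i := by
        by_contra e
        simp [h, e] at this
        simpa using g.injective (h.trans this)
      exact ⟨c, rfl⟩
  obtain ⟨a, c, h⟩ := k1
  choose b hb using k2
  exact ⟨a, c, b, fun y x => by simpa [h, add_comm] using (k y x 0 (.inl 0, 0)).symm,
    fun i x => by simpa [hb, add_comm] using (k 0 0 (fun _ => x) (.inr i, 0)).symm⟩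

variable (κ) in
/-- a shear -/
def lw (s : ZMod p) : PP p κ :=
  prodCongrLeft fun x => rho p κ (.ofAdd (s * x))

@[simp] theorem lw_inl (s y x : ZMod p) : lw κ s (.inl y, x) = (.inl (s * x + y), x) := rfl
@[simp] theorem lw_inr (s x : ZMod p) (i) : lw κ s (.inr i, x) = (.inr i, x) := rfl

theorem lw_pow (s : ZMod p) : lw κ s ^ p = 1 := by
  have : ∀ n : ℕ, lw κ s ^ n = lw κ ((n : ZMod p) * s) := fun n => by
    induction n with
    | zero => exact pext (by rintro (y | i) x <;> simp)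
    | succ n ih => rw [pow_succ, ih]; exact pext (by rintro (y | i) x <;> simp; ring)
  rw [this]; exact pext (by rintro (y | i) x <;> simp)

theorem lw_nz (s : ZMod p) : lw κ s ∈ normalizer (Q2 p κ : Set (PP p κ)) :=
  mem_nz fun t ⟨a, c, b, e, f⟩ => by
    have : (lw κ s)⁻¹ = lw κ (-s) := inv_eq_of_mul_eq_one_right (pext (by rintro (y | i) x <;> simp))
    rw [this]
    exact ⟨a + s * c, c, b, fun y x => by simp [e]; ring, fun i x => by simp [f]⟩

theorem up_nz (s : ZMod p) :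
    tr (Sum.elim (s * ·) 0) ∈ normalizer (Q2 p κ : Set (PP p κ)) :=
  mem_nz fun t ⟨a, c, b, e, f⟩ => by
    have : (tr (Sum.elim (s * ·) 0))⁻¹ = tr (Sum.elim (-s * ·) (0 : κ → ZMod p)) :=
      inv_eq_of_mul_eq_one_right (pext (by rintro (y | i) x <;> simp))
    rw [this]
    exact ⟨a, c + s * a, b, fun y x => by simp [e]; ring, fun i x => by simp [f]⟩

theorem hB0 (h3 : 3 ≤ Fintype.card (ZMod p ⊕ κ)) {T : Subgroup (Perm (ZMod p ⊕ κ))} (hT : (rho p κ).range ≤ T)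
    {A S : Subgroup (PP p κ)} (hA : A = alternatingGroup _) (hS : S = WT p T ⊓ A)
    {K : Subgroup (PP p κ) → Subgroup (PP p κ)}
    (oq : ∀ Q ≤ S, Oq p (A ⊓ normalizer (Q : Set (PP p κ))) ≤ K Q)
    (up : ∀ Q P, Q ≤ P → P ≤ S → (∀ x, ∃ s ∈ Q, s x ≠ x) → A ⊓ centralizer (Q : Set (PP p κ)) ≤ Q →
      A ⊓ normalizer (P : Set (PP p κ)) ⊓ K Q ≤ K P)
    (down : ∀ Q P, Q ≤ P → P ≤ S → K P ⊓ normalizer (Q : Set (PP p κ)) ≤ K Q) :
    A ⊓ normalizer (S : Set (PP p κ)) ≤ K S := by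
  subst hA
  intro g hg
  have E1 : EZ _ p ≤ S := hS ▸ inf_le_inf_right _ (WT_mono bot_le)
  obtain ⟨π, μ, b, e⟩ := aff h3 E1 (hS ▸ inf_le_left.trans (WT_mono le_top)) hg.2
  refine up _ _ E1 le_rfl (moves h3 le_rfl) (fun t ht => ⟨cent_EZ h3 ht.2, ht.1⟩) ⟨hg, ?_⟩
  obtain ⟨M, hM⟩ : ∃ M, M = Oq p (alternatingGroup _ ⊓ normalizer (EZ (ZMod p ⊕ κ) p : Set (PP p κ))) := ⟨_, rfl⟩
  have M1 : M ≤ K (EZ _ p) := hM ▸ oq _ E1
  have M2 : ∀ t ∈ normalizer (EZ (ZMod p ⊕ κ) p : Set (PP p κ)), t ∈ alternatingGroup _ → t ^ p = 1 → t ∈ M :=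
    fun t h1 h2 h3 => hM ▸ mem_Oq' ⟨1, by simpa⟩ ⟨h2, h1⟩
  have M3 : ∀ t ∈ normalizer (EZ (ZMod p ⊕ κ) p : Set (PP p κ)), ∀ m ∈ M, t * m * t⁻¹ ∈ M := fun t ht m hm => by
    subst hM
    refine (mem_normalizer_iff.1 (normalizer_le_normalizer_Oq p _ ?_) m).1 hm
    rw [inf_comm]; exact nz_alt (le_normalizer ht)
  have n1 : ∀ π, sg p π ∈ normalizer (EZ (ZMod p ⊕ κ) p : Set (PP p κ)) := fun π =>
    aff_EZ (π := π) (b := 0) (μ := 1) (by simp)
  have n2 : ∀ b, tr b ∈ normalizer (EZ (ZMod p ⊕ κ) p : Set (PP p κ)) := fun b => aff_EZ (π := 1) (b := b) (μ := 1) (by simp)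
  have n3 : ∀ μ, ml μ ∈ normalizer (EZ (ZMod p ⊕ κ) p : Set (PP p κ)) := fun μ => aff_EZ (π := 1) (b := 0) (μ := μ) (by simp)
  obtain rfl : g = sg p π * tr b * ml μ := pext e
  by_cases h2 : p = 2
  · subst h2
    have k : ∀ π, sg 2 π ∈ M := fun π => by
      induction π using swap_induction_on with
      | one => rw [map_one]; exact one_mem _
      | swap_mul f x y _ ih =>
        rw [map_mul]
        exact mul_mem (M2 _ (n1 _) (sg_even ⟨1, by simp [sq]⟩) (by rw [← map_pow]; simp [sq])) ih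
    obtain rfl : μ = 1 := Subsingleton.elim _ _
    rw [map_one, mul_one] at hg ⊢
    exact M1 (mul_mem (k π) (M2 _ (n2 b) ((Subgroup.mul_mem_cancel_left _ (by
      rw [mem_alternatingGroup, sign_sg, Int.units_sq])).1 hg.1) (tr_pow b)))
  have ev : ∀ t : PP p κ, t ^ p = 1 → t ∈ alternatingGroup _ := fun t h => mem_alt_odd h2 ⟨1, by simpa⟩
  have two : (2 : ZMod p) ≠ 0 := fun e => h2 ((Nat.prime_dvd_prime_iff_eq hp.out Nat.prime_two).1
    ((ZMod.natCast_eq_zero_iff 2 p).1 e))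
  have M4 : ∀ π : Perm (ZMod p ⊕ κ), sign π = 1 → sg p π ∈ M := by
    have hN : (M.comap (sg p)).Normal := ⟨fun m hm π => by simpa using M3 _ (n1 π) _ hm⟩
    have r : rho p κ (.ofAdd 1) ∈ M.comap (sg p) := by
      have : sg p (rho p κ (.ofAdd 1)) ^ p = 1 := by
        rw [← map_pow, ← map_pow, show Multiplicative.ofAdd (1 : ZMod p) ^ p = 1 from
          Multiplicative.toAdd.injective (by simp), map_one, map_one]
      exact M2 _ (n1 _) (ev _ this) this
    have r2 := mul_mem (hN.conj_mem _ r (swap (.inl 0) (.inl 1))) (inv_mem r)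
    rw [mul_assoc, mul_assoc, ← mul_assoc (rho p κ _), swap_inv, ← swap_apply_apply, swap_comm] at r2
    have r3 := isThreeCycle_swap_mul_swap_same (a := (.inl 1 : ZMod p ⊕ κ)) (b := .inl 0) (c := .inl (1 + 1))
      (by simp) (by simp) (by simpa [one_add_one_eq_two] using two.symm)
    have r4 : alternatingGroup _ ≤ M.comap (sg p) := by
      rw [← closure_three_cycles_eq_alternating, closure_le]
      intro c hc
      obtain ⟨u, rfl⟩ := isConj_iff.1 (isConj_iff_cycleType_eq.2 (r3.cycleType.trans hc.cycleType.symm))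
      exact hN.conj_mem _ (by simpa using r2) u
    exact fun π h => r4 h
  have M5 : ∀ μ : ZMod p ⊕ κ → (ZMod p)ˣ, ∏ i, μ i = 1 → ml μ ∈ M := fun μ h => by
    have k : ∀ i c, Pi.mulSingle i c * (Pi.mulSingle (.inl 0) c)⁻¹ ∈ M.comap ml := fun i c => by
      by_cases h : i = .inl 0
      · simp [h]
      obtain ⟨l, a, b⟩ := third h3 i (.inl 0)
      have m := M4 (swap i (.inl 0) * swap i l) (by simp [h, a.symm])
      have := mul_mem m (M3 _ (n3 (Pi.mulSingle (.inl 0) c)) _ (inv_mem m))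
      have e1 : (swap i (.inl 0) * swap i l) (.inl 0) = i := by
        rw [Perm.mul_apply, swap_apply_of_ne_of_ne (Ne.symm h) b.symm, swap_apply_right]
      generalize swap i (.inl 0) * swap i l = π at this e1
      have e2 : sg p π * ml (Pi.mulSingle (.inl 0) c) = ml (Pi.mulSingle i c) * sg p π := pext fun j x => by
        simp [Pi.mulSingle_apply, ← e1]
      rwa [← mul_assoc, ← mul_assoc, e2, mul_inv_cancel_right, ← map_inv, ← map_mul] at this
    have := prod_mem (t := Finset.univ) fun i _ => k i (μ i)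
    rwa [Finset.prod_mul_distrib, Finset.univ_prod_mulSingle, Finset.prod_inv_distrib,
      show ∏ i, (Pi.mulSingle (.inl 0) (μ i) : ZMod p ⊕ κ → (ZMod p)ˣ) = 1 from
        (map_prod (MonoidHom.mulSingle (fun _ : ZMod p ⊕ κ => (ZMod p)ˣ) (.inl 0)) _ _).symm.trans (by rw [h, map_one]),
      inv_one, mul_one] at this
  obtain ⟨c, hc⟩ : ∃ c, c = ∏ i, μ i := ⟨_, rfl⟩
  obtain ⟨π', hπ, hπ'⟩ : ∃ π' : Perm (ZMod p ⊕ κ), (∀ y, π' (.inl y) = .inl ((c : ZMod p)⁻¹ * y)) ∧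
      ∀ i, π' (.inr i) = .inr i := ⟨Perm.sumCongr (MulAction.toPerm c⁻¹) 1, by simp [Units.smul_def, -ZMod.inv_coe_unit], by simp⟩
  obtain ⟨μ', hμ, hμ'⟩ : ∃ μ' : ZMod p ⊕ κ → (ZMod p)ˣ, (∀ y, μ' (.inl y) = c) ∧ ∀ i, μ' (.inr i) = 1 :=
    ⟨Sum.elim (fun _ => c) 1, by simp, by simp⟩
  have hc' : ∏ i, μ' i = c := by
    simp [hμ, hμ', Units.ext_iff, ZMod.pow_card]
  have R1 : WT p (rho p κ).range ≤ S := fun t ht => hS ▸ ⟨WT_mono hT ht, mem_alt_odd h2 (isP_WT isP_rho t ht)⟩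
  have h1 : sg p π' * ml μ' ∈ Oq p (alternatingGroup _ ⊓ normalizer (Q2 p κ : Set (PP p κ))) := by
    have a : ∀ s, lw κ s ∈ Oq p (alternatingGroup _ ⊓ normalizer (Q2 p κ : Set (PP p κ))) := fun s =>
      mem_Oq' ⟨1, by simpa using lw_pow s⟩ ⟨ev _ (lw_pow s), lw_nz s⟩
    have b : ∀ s : ZMod p, tr (Sum.elim (s * ·) 0) ∈ Oq p (alternatingGroup _ ⊓ normalizer (Q2 p κ : Set (PP p κ))) :=
      fun s => mem_Oq' ⟨1, by simpa using tr_pow _⟩ ⟨ev _ (tr_pow _), up_nz s⟩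
    convert mul_mem (mul_mem (mul_mem (mul_mem (mul_mem (a (c : ZMod p)⁻¹) (b (-c))) (a (c : ZMod p)⁻¹)) (a (-1)))
      (b 1)) (a (-1)) using 1
    refine pext ?_
    rintro (y | i) x
    · have := c.ne_zero
      simp [hπ, hμ, -ZMod.inv_coe_unit]
      constructor <;> field_simp <;> ring
    · simp [hπ', hμ', -ZMod.inv_coe_unit]
  have h2' := (Oq_le _ _ h1).1
  have h4 : sg p π' * ml μ' ∈ K (EZ _ p) := down _ _ (inf_le_left.trans (WT_mono bot_le)) R1
    ⟨up _ _ Q2_le R1 Q2_moves (fun t ht => cent_Q2 ht.2) ⟨⟨h2', aff_nz (π := π') (b := 0) (μ := μ') (by simp)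
      (by rintro _ ⟨a, rfl⟩ (y | i) <;> simp [hμ, hμ']) (by
        rintro _ ⟨a, rfl⟩
        refine ⟨.ofAdd ((c : ZMod p)⁻¹ * a.toAdd), (eq_mul_inv_of_mul_eq (Perm.ext ?_))⟩
        rintro (y | i) <;> simp [hπ, hπ', mul_add, -ZMod.inv_coe_unit])⟩, oq _ (Q2_le.trans R1) h1⟩, mul_mem (n1 _) (n3 _)⟩
  have h5 : sign (π * π'⁻¹) = 1 := by
    have a := mem_alternatingGroup.1 hg.1
    replace h2' := mem_alternatingGroup.1 h2'
    rw [map_mul, map_mul, ev _ (tr_pow b), sign_ml, sign_sg, ← hc] at a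
    rw [map_mul, sign_ml, sign_sg, hc'] at h2'
    have := (mul_right_cancel ((mul_one (sign π ^ p) ▸ a).trans h2'.symm))
    rw [Int.units_pow_eq_pow_mod_two, Int.units_pow_eq_pow_mod_two (sign π'),
      Nat.odd_iff.1 (hp.out.odd_of_ne_two h2), pow_one, pow_one] at this
    simp [this]
  have h6 := mul_mem (M3 _ (n1 π) _ (mul_mem (M2 _ (n2 b) (ev _ (tr_pow b)) (tr_pow b))
    (M5 (μ * μ'⁻¹) (by simp [Finset.prod_mul_distrib, hc', hc])))) (M4 _ h5)
  simpa [mul_assoc] using mul_mem (M1 h6) h4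

end odd

end H9.SF
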