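import Cfsg.Agent.H9.SF5

/-! Simplicity of the fusion systems of alternating groups. -/

set_option autoImplicit false
set_option linter.unusedSectionVars false

namespace H9.SF
open Subgroup Cfsg H2 H6.CA Equiv Equiv.Perm

variable {X Y : Type*} [Fintype X] [DecidableEq X] [Fintype Y] [DecidableEq Y] {em : Y ↪ X} {p : ℕ} [hp : Fact p.Prime]

theorem sign_via (g : Perm Y) : sign (viaEmbeddingHom em g) = sign g := by
  simp [viaEmbeddingHom_apply, viaEmbedding, sign_extendDomain]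

theorem lift_nz (hs : ∀ a b, a ∉ Set.range em → b ∉ Set.range em → a = b) {R : Subgroup (Perm Y)}
    (hR : ∀ x, ∃ s ∈ R, s x ≠ x) {g : Perm X} (hg : g ∈ normalizer (R.map (viaEmbeddingHom em) : Set (Perm X))) :
    ∃ t, viaEmbeddingHom em t = g := by
  have k1 : ∀ y, y ∉ Set.range em → g y = y := fun y hy => hs _ _ (by
    rintro ⟨x, e⟩
    obtain ⟨s, h1, h2⟩ := hR x
    obtain ⟨s', -, m⟩ := (mem_normalizer_iff''.1 hg _).1 (mem_map_of_mem (viaEmbeddingHom em) h1)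
    have := DFunLike.congr_fun m y
    rw [viaEmbeddingHom_apply, viaEmbedding_apply_of_notMem _ _ _ hy, Perm.mul_apply, Perm.mul_apply, ← e,
      viaEmbeddingHom_apply, viaEmbedding_apply, Perm.eq_inv_iff_eq, ← e] at this
    exact h2 (em.injective this).symm) hy
  have k2 : ∀ x, ∃ y, em y = g (em x) := fun x => by_contra fun h => h ⟨x, (g.injective (k1 _ h)).symm⟩
  choose f hf using k2
  refine ⟨ofBijective f (Finite.injective_iff_bijective.1 fun x y e =>
    em.injective (g.injective (by rw [← hf, ← hf, e]))), Perm.ext fun y => ?_⟩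
  by_cases h : y ∈ Set.range em
  · obtain ⟨x, rfl⟩ := h
    rw [viaEmbeddingHom_apply, viaEmbedding_apply]; exact hf x
  · rw [viaEmbeddingHom_apply, viaEmbedding_apply_of_notMem _ _ _ h, k1 y h]

theorem simple_alt {κ : Type*} [Fintype κ] [DecidableEq κ] (h3 : 3 ≤ Fintype.card (ZMod p ⊕ κ))
    (hk : Fintype.card (ZMod p ⊕ κ) = Fintype.card X / p) (hn : Fintype.card X % p ≤ 1)
    (P : Sylow p (alternatingGroup X)) : (groupFusionSystem (P : Subgroup (alternatingGroup X))).IsSimple p := by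
  have hc : Fintype.card ((ZMod p ⊕ κ) × ZMod p) = Fintype.card X / p * p := by rw [Fintype.card_prod, hk, ZMod.card]
  obtain ⟨em⟩ := Function.Embedding.nonempty_of_card_le (α := (ZMod p ⊕ κ) × ZMod p) (β := X)
    (hc ▸ Nat.div_mul_le_self _ _)
  have hs : ∀ a b, a ∉ Set.range em → b ∉ Set.range em → a = b := fun a b ha hb => by_contra fun e => by
    have := Finset.card_le_univ (insert a (insert b (Finset.univ.map em)))
    rw [Finset.card_insert_of_notMem (by simpa [e] using ha), Finset.card_insert_of_notMem (by simpa using hb),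
      Finset.card_map, Finset.card_univ, hc] at this
    have := Nat.div_add_mod' (Fintype.card X) p
    omega
  obtain ⟨T, hT⟩ := (isP_iff.1 (isP_rho (p := p) (κ := κ))).exists_le_sylow
  obtain ⟨Θ, hΘ⟩ : ∃ Θ, Θ = viaEmbeddingHom em := ⟨_, rfl⟩
  have inj : Function.Injective Θ := hΘ ▸ viaEmbeddingHom_injective em
  have ev : ∀ {g}, Θ g ∈ alternatingGroup X ↔ g ∈ alternatingGroup _ := fun {g} => by
    rw [mem_alternatingGroup, mem_alternatingGroup, hΘ, sign_via]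
  have s1 : IsSylowIn p ((WT p T).map Θ) ⊤ := isSylowIn_of_card_le (isSylowIn_top default)
    ((isP_iff.1 (isP_WT (isP_iff.2 T.2))).map Θ) le_top (by
      rw [card_map_of_injective inj]
      refine le_trans (le_of_eq ?_) card_WT
      rw [H5.PW.card_sylow, H5.PW.card_sylow, Nat.card_perm, Nat.card_perm, Nat.card_eq_fintype_card,
        Nat.card_eq_fintype_card, hk, ← padicValNat_mul_div_factorial (Fintype.card X), padicValNat_factorial_mul, pow_add])
  obtain ⟨S, hS⟩ : ∃ S : Subgroup (PP p κ), S = WT p T.1 ⊓ alternatingGroup _ := ⟨_, rfl⟩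
  have s2 : IsSylowIn p (S.map Θ) (alternatingGroup X) := by
    convert s1.inf_of_le_normalizer (N := alternatingGroup X) le_top (le_top.trans (normalizer_eq_top _).ge) using 1
    subst hS
    exact le_antisymm (by rintro _ ⟨g, h, rfl⟩; exact ⟨⟨g, h.1, rfl⟩, ev.2 h.2⟩)
      (by rintro _ ⟨⟨g, h, rfl⟩, h'⟩; exact ⟨g, ⟨h, ev.1 h'⟩, rfl⟩)
  have mv := moves h3 (show EZ _ p ≤ S from hS ▸ inf_le_inf_right _ (WT_mono bot_le))
  have nz : ∀ (Q : Subgroup (PP p κ)) {g}, Θ g ∈ normalizer (Q.map Θ : Set (Perm X)) ↔ g ∈ normalizer (Q : Set (PP p κ)) :=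
    fun Q g => ⟨fun h => mem_nz fun t ht => (mem_map_iff_mem inj).1 (by
      simpa using (mem_normalizer_iff.1 h _).1 (mem_map_of_mem Θ ht)), fun h => le_normalizer_map Θ (mem_map_of_mem Θ h)⟩
  have cz : ∀ (Q : Subgroup (PP p κ)) {g}, Θ g ∈ centralizer (Q.map Θ : Set (Perm X)) → g ∈ centralizer (Q : Set (PP p κ)) :=
    fun Q g h t ht => inj (by simpa using h _ (mem_map_of_mem Θ ht))
  refine simple_coe s2 (simple_sub2 s2 (fun e => ?_) ?_ fun K hK g hg => ?_) P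
  · obtain ⟨s, h1, h2⟩ := mv (.inl 0, 0)
    have := mem_map_of_mem Θ h1
    rw [e, mem_bot, ← map_one Θ] at this
    exact h2 (by rw [inj this]; rfl)
  · rintro C hC _ ⟨z, hz, rfl⟩ z1 zc Cz _ ⟨x, hx, rfl⟩
    refine hA0 h3 T (C := fun x => C (Θ x)) ⟨fun x h g hg => by simpa using hC.conj _ h _ (ev.2 hg), fun R h1 h2 => ?_⟩
      hS hz (fun e => z1 (by rw [e, map_one])) (cz _ zc) Cz x hx
    obtain ⟨K, hK⟩ := hC.sub (R.map Θ) (by rintro _ ⟨g, h, rfl⟩; exact ev.2 (h1 h)) (isP_iff.2 ((isP_iff.1 h2).map Θ))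
    exact ⟨K.comap Θ, fun x => by rw [mem_comap, hK, mem_map_iff_mem inj]⟩
  · obtain ⟨t, rfl⟩ := hΘ ▸ lift_nz hs mv (hΘ ▸ hg.2)
    refine hB0 h3 hT rfl hS (K := fun Q => (K (Q.map Θ)).comap Θ) (fun Q hQ a ha => hK.oq _ (map_mono hQ)
      (Oq_mono p ?_ (map_Oq_le Θ _ (mem_map_of_mem Θ ha)))) (fun Q P h1 h2 h4 h5 a ha => hK.up _ _ (map_mono h1)
        (map_mono h2) (fun b hb => ?_) ⟨⟨ev.2 ha.1.1, (nz _).2 ha.1.2⟩, ha.2⟩)
      (fun Q P h1 h2 a ha => hK.down _ _ (map_mono h1) (map_mono h2) ⟨ha.1, (nz _).2 ha.2⟩) ⟨ev.1 hg.1, (nz _).1 hg.2⟩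
    · rintro _ ⟨g, h, rfl⟩; exact ⟨ev.2 h.1, (nz _).2 h.2⟩
    · obtain ⟨t, rfl⟩ := hΘ ▸ lift_nz hs h4 (hΘ ▸ centralizer_le_normalizer _ hb.2)
      exact mem_map_of_mem Θ (h5 ⟨ev.1 hb.1, cz _ hb.2⟩)

end H9.SF
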