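import Mathlib

/-!
H9.Zs8: `-1` is a sum of three squares in a field of characteristic zero containing `√5` and a
non-trivial root of unity of order prime to 10.
-/

set_option autoImplicit false

namespace H9.Zs

open Finset

/-- Gauss' decomposition of the cyclotomic polynomial. -/
theorem gauss_dec {K : Type*} [Field K] [CharZero K] {l : ℕ} [hl : Fact l.Prime] (h3 : l % 4 = 3) (x : K) :
    ∃ y w : K, (x - 1) * (l * y ^ 2 + w ^ 2) = 4 * l * (x ^ l - 1) := by
  let L := AlgebraicClosure K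
  obtain ⟨η, hη⟩ := HasEnoughRootsOfUnity.exists_primitiveRoot L l
  let ψ := AddChar.zmodChar l hη.pow_eq_one
  let χ := quadraticChar (ZMod l)
  let χ' := χ.ringHomComp (Int.castRingHom L)
  have l2 : ringChar (ZMod l) ≠ 2 := by rw [ZMod.ringChar_zmod_n]; omega
  have m1 : χ (-1) = -1 := by
    rw [quadraticChar_neg_one l2, ZMod.card, ZMod.χ₄_nat_three_mod_four h3]
  have hg : gaussSum χ' ψ ^ 2 = -l := by
    rw [gaussSum_sq ((MulChar.ringHomComp_ne_one_iff (RingHom.injective_int _)).2 (quadraticChar_ne_one l2))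
      ((quadraticChar_isQuadratic _).comp _) (AddChar.zmodChar_primitive_of_primitive_root l hη)]
    rw [MulChar.ringHomComp_apply, m1, ZMod.card, map_neg, map_one, neg_one_mul]
  let P : ℤ → L := fun e => ∏ a with χ a = e, (algebraMap K L x - ψ a)
  have hP : (algebraMap K L x - 1) * (P 1 * P (-1)) = algebraMap K L x ^ l - 1 := by
    have a := congrArg (Polynomial.eval (algebraMap K L x)) (X_pow_sub_C_eq_prod hη hl.out.pos (one_pow l))
    simp only [Polynomial.eval_sub, Polynomial.eval_pow, Polynomial.eval_X, Polynomial.eval_C, Polynomial.eval_prod,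
      mul_one] at a
    rw [a, ← prod_union (disjoint_filter.2 fun a _ h e => by omega), ← ψ.map_zero_eq_one,
      ← prod_insert (f := fun a => algebraMap K L x - ψ a) (by simp [χ])]
    refine prod_nbij ZMod.val (fun a _ => by simpa using a.val_lt) (fun a _ b _ => fun e => ZMod.val_injective l e)
      (fun i hi => ⟨i, ?_, ZMod.val_cast_of_lt (by simpa using hi)⟩) fun a _ => rfl
    simpa [χ] using or_iff_not_imp_left.2 quadraticChar_dichotomy
  have hσ : ∀ σ : L ≃ₐ[K] L, ∃ e : ℤ, (e = 1 ∨ e = -1) ∧ e * σ (gaussSum χ' ψ) = gaussSum χ' ψ ∧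
      ∀ d, σ (P d) = P (e * d) := fun σ => by
    obtain ⟨a, -, a2, ha⟩ := (hη.isPrimitiveRoot_iff).1 (hη.map_of_injective σ.injective)
    have e : ∀ b, σ (ψ b) = ψ (a * b) := fun b => by
      rw [← AddChar.mulShift_apply, AddChar.mulShift_spec', AddChar.zmodChar_apply, map_pow, ← ha, ← pow_mul, ← pow_mul,
        mul_comm]
    let u := ZMod.unitOfCoprime a a2
    refine ⟨χ u, quadraticChar_dichotomy u.ne_zero, ?_, fun d => ?_⟩
    · refine Eq.trans ?_ (gaussSum_mulShift χ' ψ u)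
      simp [gaussSum, χ', e, u]
    · simp only [P, map_prod, map_sub, AlgEquiv.commutes, e]
      refine prod_equiv u.mulLeft (fun b => ?_) fun b _ => rfl
      simp only [mem_filter, mem_univ, true_and, Units.mulLeft_apply, map_mul]
      rcases (quadraticChar_dichotomy u.ne_zero : χ u = 1 ∨ χ u = -1) with c | c <;> rw [c] <;> simp
  obtain ⟨y, hy⟩ := (InfiniteGalois.mem_range_algebraMap_iff_fixed (k := K) (P 1 + P (-1))).2 fun σ => by
    obtain ⟨e, rfl | rfl, -, h⟩ := hσ σ <;> simp [h, add_comm]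
  obtain ⟨w, hw⟩ := (InfiniteGalois.mem_range_algebraMap_iff_fixed (k := K) (gaussSum χ' ψ * (P 1 - P (-1)))).2
    fun σ => by
    obtain ⟨e, rfl | rfl, h1, h⟩ := hσ σ <;> simp only [map_mul, map_sub, h] <;> push_cast at h1 ⊢ <;>
      linear_combination (P 1 - P (-1)) * h1
  refine ⟨y, w, (algebraMap K L).injective ?_⟩
  simp only [map_mul, map_sub, map_add, map_pow, map_natCast, map_one, hy, hw, map_ofNat]
  linear_combination 4 * l * hP + (algebraMap K L x - 1) * (P 1 - P (-1)) ^ 2 * hg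

/-- Thue's lemma. -/
theorem thue {l : ℕ} [hl : Fact l.Prime] {t : ZMod l} (ht : t ^ 2 = -5) :
    ∃ (a b : ℤ) (k : ℕ), 0 < k ∧ k < 6 ∧ a ^ 2 + 5 * b ^ 2 = k * l := by
  obtain ⟨x, hx, y, hy, hn, e⟩ := exists_ne_map_eq_of_card_lt_of_maps_to (s := range (l.sqrt + 1) ×ˢ range (l.sqrt + 1))
    (t := univ) (f := fun x => (x.1 - t * x.2 : ZMod l)) (by simpa using Nat.lt_succ_sqrt l) fun _ _ => mem_univ _
  simp only [mem_product, mem_range] at hx hy
  obtain ⟨k, hk⟩ : (l : ℤ) ∣ (x.1 - y.1) ^ 2 + 5 * (x.2 - y.2) ^ 2 := (ZMod.intCast_zmod_eq_zero_iff_dvd _ _).1 (by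
    push_cast
    linear_combination (x.1 - y.1 + t * (x.2 - y.2)) * e + (x.2 - y.2) ^ 2 * ht)
  have s : (l.sqrt : ℤ) * l.sqrt < l := by
    exact_mod_cast (Nat.sqrt_le l).lt_of_ne fun e => hl.out.prime.not_isSquare ⟨_, e.symm⟩
  have l0 : (0 : ℤ) < l := by exact_mod_cast hl.out.pos
  have p : 0 < (l : ℤ) * k := hk ▸ by
    by_contra c
    exact hn (Prod.ext (by nlinarith [sq_nonneg ((x.1 : ℤ) - y.1), sq_nonneg ((x.2 : ℤ) - y.2)])
      (by nlinarith [sq_nonneg ((x.1 : ℤ) - y.1), sq_nonneg ((x.2 : ℤ) - y.2)]))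
  have b : ∀ u v : ℕ, u < l.sqrt + 1 → v < l.sqrt + 1 → ((u : ℤ) - v) ^ 2 ≤ l.sqrt * l.sqrt := fun u v _ _ => by
    rw [← sq]; exact sq_le_sq' (by omega) (by omega)
  have q : (l : ℤ) * k < l * 6 := by nlinarith [b _ _ hx.1 hy.1, b _ _ hx.2 hy.2]
  lift k to ℕ using (pos_of_mul_pos_right p l0.le).le
  exact ⟨_, _, k, by exact_mod_cast pos_of_mul_pos_right p l0.le, by exact_mod_cast lt_of_mul_lt_mul_left q l0.le,
    hk.trans (mul_comm _ _)⟩

theorem three_sq {K : Type*} [Field K] [CharZero K] {r ζ : K} (hr : r ^ 2 = 5) {p : ℕ} (hp : p.Coprime 20)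
    (h1 : ζ ^ p = 1) (h2 : ζ ≠ 1) : ∃ x y z : K, x ^ 2 + y ^ 2 + z ^ 2 = -1 := by
  have p0 : p ≠ 0 := by rintro rfl; simp at hp
  obtain ⟨c, c1, c2⟩ := Nat.chineseRemainder hp (p - 1) 3
  obtain ⟨l, -, hl, e⟩ := Nat.forall_exists_prime_gt_and_modEq 0 (q := p * 20) (a := c) (by omega)
    (Nat.Coprime.mul_right (by
      rw [Nat.Coprime, c1.gcd_eq]; exact (Nat.coprime_self_sub_left (by omega)).2 (by simp)) (by
      rw [Nat.Coprime, c2.gcd_eq]; norm_num))
  have := Fact.mk hl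
  have e1 := (e.of_mul_right 20).trans c1
  have e2 : l % 20 = 3 := (e.of_mul_left p).trans c2
  obtain ⟨y, w, hw⟩ := gauss_dec (l := l) (by omega) ζ
  have z : ζ ^ l * ζ = 1 := by
    rw [pow_eq_pow_mod l h1, e1, ← pow_eq_pow_mod _ h1, ← pow_succ, Nat.sub_add_cancel (by omega), h1]
  obtain ⟨t, ht⟩ : IsSquare (-5 : ZMod l) := by
    have := Fact.mk Nat.prime_five
    have a : legendreSym l (-5) = 1 := by
      rw [show (-5 : ℤ) = -1 * (5 : ℕ) by norm_num, legendreSym.mul, legendreSym.at_neg_one (by omega),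
        ZMod.χ₄_nat_three_mod_four (by omega), legendreSym.quadratic_reciprocity_one_mod_four (p := 5) (by norm_num) (by omega),
        legendreSym.mod, show (l : ℤ) % (5 : ℕ) = 3 by omega]
      norm_num
    simpa using (legendreSym.eq_one_iff l (a := -5) fun e => by simp [legendreSym, e] at a).1 a
  obtain ⟨a, b, k, k0, k6, hk⟩ := thue (sq t ▸ ht.symm)
  obtain ⟨u, v, h⟩ : ∃ u v : K, u ^ 2 + v ^ 2 = k := by
    interval_cases k
    exacts [⟨1, 0, by norm_num⟩, ⟨1, 1, by norm_num⟩, ⟨(1 + r) / 2, (1 - r) / 2, by linear_combination hr / 2⟩,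
      ⟨2, 0, by norm_num⟩, ⟨2, 1, by norm_num⟩]
  replace hk : (a : K) ^ 2 + 5 * b ^ 2 = k * l := by exact_mod_cast hk
  obtain ⟨j, hj⟩ : Odd p := Nat.coprime_two_right.1 (hp.coprime_dvd_right (by norm_num))
  have l0 : (l : K) ≠ 0 := Nat.cast_ne_zero.2 hl.ne_zero
  have k0' : (k : K) ≠ 0 := Nat.cast_ne_zero.2 k0.ne'
  have z2 : (ζ ^ (j + 1)) ^ 2 = ζ := by rw [← pow_mul, show (j + 1) * 2 = p + 1 by omega, pow_succ, h1, one_mul]
  have hw' : ζ * (l * y ^ 2 + w ^ 2) = -4 * l := mul_left_cancel₀ (sub_ne_zero.2 h2) (by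
    linear_combination ζ * hw + 4 * l * z)
  -- `l = ((a u + r b v)^2 + (a v - r b u)^2) / k^2`
  have e3 : ((a * u + r * b * v) / k) ^ 2 + ((a * v - r * b * u) / k) ^ 2 = l := by
    field_simp
    linear_combination (a ^ 2 + r ^ 2 * b ^ 2) * h + k * b ^ 2 * hr + k * hk
  refine ⟨ζ ^ (j + 1) * y / 2, ζ ^ (j + 1) * w * ((a * u + r * b * v) / k) / (2 * l),
    ζ ^ (j + 1) * w * ((a * v - r * b * u) / k) / (2 * l), ?_⟩
  generalize (a * u + r * b * v) / k = m, (a * v - r * b * u) / k = n at *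
  field_simp
  linear_combination l * hw' + (l ^ 2 * y ^ 2 + w ^ 2 * (m ^ 2 + n ^ 2)) * z2 + ζ * w ^ 2 * e3

end H9.Zs
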