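import Cfsg.Agent.H9.Zs7
import Cfsg.Agent.H9.Zs8

/-!
H9.Zs9: non-solvable finite subgroups of division rings.
-/

set_option autoImplicit false

namespace H9.Zs

open Cfsg Subgroup

universe u
variable {G : Type u} [Group G] [Finite G] {R : Type*} [DivisionRing R] [CharZero R] {ρ : G →* R} {I J δ f : G}

omit [Finite G] in
theorem no_eight (Z : ZR ρ) (F : Fr ρ I J δ) (hf : Nrm ρ I J f) {w : G} (e1 : w * w = I) (e2 : J * w = w⁻¹ * J) :
    False := by
  have h1 : ρ w * ρ w = ρ I := by rw [← map_mul, e1]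
  have h2 : ρ w * ρ w⁻¹ = 1 := by rw [← map_mul, mul_inv_cancel, map_one]
  have h3 : ρ w⁻¹ * ρ w = 1 := by rw [← map_mul, inv_mul_cancel, map_one]
  have h4 : ρ J * ρ w = ρ w⁻¹ * ρ J := by rw [← map_mul, e2, map_mul]
  have ii := F.ii
  have k := ZR.uu_conj (ρ := ρ) w f
  generalize ρ w = W, ρ w⁻¹ = V at h1 h2 h3 h4 k
  let s : Cz (ρ I) (ρ J) := ⟨W + V, by
    rintro _ (rfl | rfl)
    · linear_combination (norm := (clear * -; grind)) W * h1 - h1 * W + W * h2 - h1 * V - h3 * W + V * h1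
    · linear_combination (norm := (clear * -; grind)) h4 - W * h4 * V + W * ρ J * h2 - h2 * ρ J * V⟩
  have ss : s * s = 2 := Subtype.ext (show (W + V) * (W + V) = 2 by
    linear_combination (norm := (clear * -; grind)) h1 + h2 + h3 + ii * V * V - ρ I * W * h2 * V + ρ I * h1 * V * V -
      ρ I * h2)
  have a1 : 2 * W = q s s 0 0 := by
    simp only [q, s]; push_cast
    linear_combination (norm := (clear * -; grind)) -ii * V + ρ I * W * h2 - ρ I * h1 * V + W * h1 - h1 * W - h3 * W +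
      V * h1
  have a2 : 2 * V = q s (-s) 0 0 := by
    simp only [q, s]; push_cast
    linear_combination (norm := (clear * -; grind)) ii * V - ρ I * W * h2 + ρ I * h1 * V - W * h1 + h1 * W + h3 * W -
      V * h1
  clear_value s
  obtain ⟨o, a, ha, hu⟩ := id hf
  obtain ⟨b, hb⟩ : ∃ b, 2 * b = s * a * s := ⟨(1 / 2 : ℚ) • (s * a * s), by
    rw [two_mul, ← add_smul]; norm_num⟩
  have a3 : uu ρ (w * f * w⁻¹) = q 0 0 (1 - b) b := canc 4 (by
    rw [k, show 4 * (W * uu ρ f * V) = 2 * W * uu ρ f * (2 * V) by clear * -; grind, a1, a2, hu,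
      q_num (i := ρ I) (j := ρ J) 4]
    simp only [q_mul F.toQB]; congr 1
    · clear * -; grind
    · clear * -; grind
    · linear_combination (norm := (clear * -; grind)) 2 * hb + 2 * ss
    · linear_combination (norm := (clear * -; grind)) -2 * hb)
  have a4 := ZR.cJ F a3
  rw [neg_zero, show -b = 1 - b - 1 by simp] at a4
  rw [Z.Nrm_unique F hf ⟨(orderOf_conj _ _).trans ((orderOf_conj _ _).trans o), 1 - b, canc 4 (by
    linear_combination (norm := (clear * -; grind)) hb * s * a * s + s * a * ss * a * s + 2 * s * ha * s + 2 * ss +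
      2 * b * hb - 2 * hb), a4⟩, hu] at a4
  obtain rfl : b = 1 - a := by rw [(q_inj F.toQB a4).2.2.1]; simp
  obtain ⟨v, hv⟩ : ∃ v : Cz (ρ I) (ρ J), v * v = -3 := ⟨s + (2 * a - 1) + s * (2 * a - 1), by
    linear_combination (norm := (clear * -; grind)) -4 * hb * a - 4 * ha - 2 * hb * s * a - 2 * s * a * ss * a⟩
  have : q v 1 1 1 * q (-v) 1 1 1 = q (0 : Cz (ρ I) (ρ J)) 0 0 0 := by
    rw [q_mul F.toQB]; congr 1
    · linear_combination (norm := (clear * -; grind)) -hv
    all_goals clear * -; grind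
  rw [← q_c, ZeroMemClass.coe_zero, mul_eq_zero, ← ZeroMemClass.coe_zero (Cz (ρ I) (ρ J)), q_c] at this
  rcases this with e | e <;> exact one_ne_zero (q_inj F.toQB e).2.1

omit [Finite G] in
theorem no_prime (Z : ZR ρ) (F : Fr ρ I J δ) (hf : Nrm ρ I J f) {x : G} {p : ℕ} (hp : p.Coprime 20) (h1 : x ^ p = 1)
    (e1 : I * x = x * I) (e2 : J * x = x * J) : x = 1 := by_contra fun x1 => by
  have e3 := congrArg ρ (Z.cent_f F hf e1 e2)
  obtain ⟨-, a, ha, hu⟩ := hf
  let c : Cz (ρ I) (ρ J) := ⟨ρ x, by rintro _ (rfl | rfl) <;> rw [← map_mul, ← map_mul] <;> congr 1⟩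
  have e4 : a * c = c * a := by
    have : uu ρ f * c = c * uu ρ f := by
      simp only [map_mul, uu, c] at e3 ⊢; linear_combination (norm := (clear * -; grind)) 2 * e3
    rw [hu, q_c c, q_mul F.toQB, q_mul F.toQB] at this
    simpa using (q_inj F.toQB this).2.2.1
  let T := Subring.centralizer (Subring.centralizer {(a : R), ρ x} : Set R)
  have m : ∀ y ∈ ({(a : R), ρ x} : Set R), y ∈ T := fun y hy z hz => (hz y hy).symm
  have hT : IsField T := ⟨exists_pair_ne _, fun y z => Subtype.ext (z.2 y fun t ht => (y.2 t (by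
      rintro _ (rfl | rfl) <;> rcases ht with rfl | rfl
      exacts [rfl, congrArg Subtype.val e4, (congrArg Subtype.val e4).symm, rfl])) ),
    fun {y} hy => ⟨⟨y.1⁻¹, fun t ht => Commute.inv_right₀ (y.2 t ht)⟩,
      Subtype.ext (mul_inv_cancel₀ fun e => hy (Subtype.ext e))⟩⟩
  have l : ∀ y : T, y.1 ∈ Cz (ρ I) (ρ J) := fun y => by
    rintro _ (rfl | rfl) <;> refine y.2 _ ?_ <;> rintro _ (rfl | rfl)
    exacts [(ci a).symm, (ci c).symm, (cj' a).symm, (cj' c).symm]
  let φ : T →+* Cz (ρ I) (ρ J) := T.subtype.codRestrict _ l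
  obtain ⟨y, z, t, h⟩ : ∃ y z t : T, y ^ 2 + z ^ 2 + t ^ 2 = -1 := by
    letI := hT.toField
    refine three_sq (K := T) (r := 2 * ⟨a, m _ (.inl rfl)⟩ - 1) (ζ := ⟨ρ x, m _ (.inr rfl)⟩) ?_ hp
      (Subtype.ext (by simp [← map_pow, h1])) fun e => x1 (Z.inj ((congrArg Subtype.val e).trans (map_one ρ).symm))
    have : (⟨a, m _ (.inl rfl)⟩ * ⟨a, m _ (.inl rfl)⟩ : T) = ⟨a, m _ (.inl rfl)⟩ + 1 :=
      Subtype.ext (congrArg Subtype.val ha :)
    linear_combination 4 * this
  have h := congrArg φ h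
  have c1 := congrArg φ (hT.mul_comm y z)
  have c2 := congrArg φ (hT.mul_comm y t)
  have c3 := congrArg φ (hT.mul_comm z t)
  simp only [map_add, sq, map_mul, map_neg, map_one] at h c1 c2 c3
  generalize φ y = y, φ z = z, φ t = t at h c1 c2 c3
  have : q 1 y z t * q 1 (-y) (-z) (-t) = q (0 : Cz (ρ I) (ρ J)) 0 0 0 := by
    rw [q_mul F.toQB]; congr 1
    · linear_combination (norm := (clear * -; grind)) h
    · linear_combination (norm := (clear * -; grind)) -c3
    · linear_combination (norm := (clear * -; grind)) c2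
    · linear_combination (norm := (clear * -; grind)) -c1
  rw [← q_c, ZeroMemClass.coe_zero, mul_eq_zero, ← ZeroMemClass.coe_zero (Cz (ρ I) (ρ J)), q_c] at this
  rcases this with e | e <;> exact one_ne_zero (q_inj F.toQB e).1

theorem ZR.frame (Z : ZR ρ) (h : FC G) (hG : ¬ Group.IsSolvable G) : ∃ I J δ f, Fr ρ I J δ ∧ Nrm ρ I J f := by
  have hN := not_solvable_N3' h.pq hG
  obtain ⟨I, J, δ, F⟩ : ∃ I J δ, Fr ρ I J δ := by_contra fun e => hN (by
    by_cases h3 : ∃ d : G, orderOf d = 3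
    · obtain ⟨d, hd⟩ := h3
      refine isSolvable_of_le (A := zpowers d) inferInstance ((closure_le _).2 fun x hx => by_contra fun hx' => ?_)
      exact e (Z.exists_fr hd hx (fun e => hx' (e ▸ inv_mem (mem_zpowers d))) fun e => hx' (e ▸ mem_zpowers d))
    · exact isSolvable_of_le (A := ⊥) inferInstance ((closure_le _).2 fun x hx => (h3 ⟨x, hx⟩).elim))
  obtain ⟨q8, n, -⟩ := F.q8 Z
  obtain ⟨f, hf⟩ : ∃ f, Nrm ρ I J f := by_contra fun e => hN (by
    refine isSolvable_of_le (isSolvable_sup (A := zpowers δ) (B := zpowers I ⊔ zpowers J) inferInstance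
      (have := q8.pg.isNilpotent; inferInstance) (zpowers_le.2 n)) ((closure_le _).2 fun x hx => ?_)
    exact ((Z.classify F hx).resolve_right fun ⟨f, hf, _⟩ => e ⟨f, hf⟩) _ (mem_sup_right (mem_sup_left (mem_zpowers _)))
      (mem_sup_right (mem_sup_right (mem_zpowers _))) (mem_sup_left (mem_zpowers _)))
  exact ⟨I, J, δ, f, F, hf⟩

theorem amitsur (h : FC G) (Z : ZR ρ) (hG : ¬ Group.IsSolvable G) :
    Nonempty (G ≃* Matrix.SpecialLinearGroup (Fin 2) (ZMod 5)) := by
  obtain ⟨I, J, δ, f, F, hf⟩ := Z.frame h hG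
  obtain ⟨φ, M, h1, h2, -, h4, h5, -, h7⟩ := h.dp hG
  obtain ⟨-, m2, m3⟩ := F.mem_N3 Z
  obtain rfl : M = ⊥ := eq_bot_iff.2 fun x hx => by
    have c : x ∈ centralizer (N3 G : Set G) := h2 ▸ h5.le (mem_sup_left hx)
    exact no_prime Z F hf (((h7.coprime_dvd_left (orderOf_dvd_natCard (⟨x, hx⟩ : M))).pow_right 2).coprime_dvd_right
      (by norm_num)) (by rw [← orderOf_coe]; exact pow_orderOf_eq_one x) (c I m2) (c J m3)
  rw [sup_bot_eq] at h4
  rcases (Nat.dvd_prime Nat.prime_two).1 h4 with e | e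
  · exact ⟨(MulEquiv.ofBijective φ ⟨h1, MonoidHom.range_eq_top.1 (index_eq_one.1 e)⟩).symm⟩
  exfalso
  obtain ⟨q8, n, n'⟩ := F.q8 Z
  obtain ⟨S, hS, l⟩ := exists_syl_ge q8.pg le_top
  rcases h.pq.pgroup hS.isP le_top with c | ⟨-, k, a, b, m, -, r⟩
  · exact q8.not_comm (comm_of_le inferInstance l)
  have c := hS.card_eq
  rw [m.card, card_top, ← φ.range.card_mul_index, e, ← Nat.card_congr (MonoidHom.ofInjective h1).toEquiv, H5.card_SL25,
    show 120 * 2 = 2 ^ 4 * 15 by norm_num, Nat.factorization_mul (by norm_num) (by norm_num),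
    Nat.prime_two.factorization_pow, Finsupp.add_apply, Nat.factorization_eq_zero_of_not_dvd (by norm_num)] at c
  obtain rfl : k = 2 := by simpa using Nat.pow_right_injective le_rfl c
  obtain ⟨z1, t, -, -, -, z2⟩ := m.q8 l q8
  have i0 : a ^ 2 ∈ zpowers I ⊔ zpowers J := z2 ▸ mem_sup_left (mem_zpowers _)
  have nz : ∀ y, orderOf y = 4 → y ∉ zpowers (I ^ 2) := fun y hy e => by
    have := orderOf_dvd_of_mem_zpowers e
    rw [hy, q8.oz] at this
    norm_num at this
  obtain ⟨g, g1, g2⟩ := q8.trans n (by rw [F.o3]; norm_num) n' i0 (mem_sup_left (mem_zpowers I)) (nz _ m.osq)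
    (nz _ (orderOf_eq_prime_pow (p := 2) (n := 1) (ZR.sq_ne F.ii) (Z.four F.ii)))
  have j0 : g⁻¹ * J * g ∈ S := l (by
    simpa using (mem_normalizer_iff.1 (inv_mem (zpowers_le.2 n g1)) J).1 (mem_sup_right (mem_zpowers J)))
  have j1 : g⁻¹ * J * g ∉ zpowers a := by
    rintro ⟨i, hi⟩
    have : Commute J (g * a ^ 2 * g⁻¹) := by
      rw [show J = g * a ^ i * g⁻¹ by rw [show a ^ i = _ from hi]; group]
      exact ((Commute.zpow_self a i).pow_right 2).map (MulAut.conj g)
    rcases g2 with e | e <;> rw [e] at this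
    exacts [F.nc this, F.nc (Commute.inv_right_iff.1 this)]
  have j2 := (m.conj_eq j0 j1 (mem_zpowers a)).trans r
  have j3 : J * (g * a * g⁻¹) = (g * a * g⁻¹)⁻¹ * J := by
    rw [conj_inv, ← j2]; group
  rcases g2 with e | e
  · exact no_eight Z F hf (w := g * a * g⁻¹) (by rw [← e, conj_mul, sq]) j3
  · exact no_eight Z F hf (w := (g * a * g⁻¹)⁻¹) (by rw [← inv_inv I, ← e, ← mul_inv_rev, conj_mul, sq]) (by
      rw [inv_inv, mul_inv_eq_iff_eq_mul, mul_assoc _ J, j3, mul_inv_cancel_left])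

end H9.Zs
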